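import Mathlib

/-!
Piece IRR of CALL S5949 (helper90): the degree of the irreducible factors of
`1 + X + ... + X ^ (r - 1)` over a finite field.
-/

set_option autoImplicit false

open Polynomial

namespace Cfsg.Agent.Helper46

theorem bgl_irr_factor_degree {F : Type*} [Field F] [Fintype F] (r : ℕ) [Fact r.Prime] (hr : (r : F) ≠ 0) (g : F[X]) (hg : Irreducible g)
    (hdvd : g ∣ ∑ j ∈ Finset.range r, (X : F[X]) ^ j) : g.natDegree = orderOf ((Fintype.card F : ℕ) : ZMod r) := by
  have hrp : r.Prime := Fact.out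
  have : Fact (Irreducible g) := ⟨hg⟩
  have : Module.Finite F (AdjoinRoot g) := (AdjoinRoot.powerBasis hg.ne_zero).finite
  have : Finite (AdjoinRoot g) := Module.finite_of_finite F
  let _ : Fintype (AdjoinRoot g) := Fintype.ofFinite _
  have hfin : Module.finrank F (AdjoinRoot g) = g.natDegree := by
    rw [(AdjoinRoot.powerBasis hg.ne_zero).finrank, AdjoinRoot.powerBasis_dim]
  -- the root
  have hsum : ∑ j ∈ Finset.range r, (AdjoinRoot.root g) ^ j = 0 := by
    have h1 : AdjoinRoot.mk g (∑ j ∈ Finset.range r, (X : F[X]) ^ j) = 0 :=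
      AdjoinRoot.mk_eq_zero.mpr hdvd
    rw [← AdjoinRoot.aeval_eq] at h1
    simpa using h1
  have har : (AdjoinRoot.root g) ^ r = 1 := by
    have := geom_sum_mul (AdjoinRoot.root g) r
    rw [hsum, zero_mul] at this
    exact (sub_eq_zero.mp this.symm)
  have ha1 : AdjoinRoot.root g ≠ 1 := by
    intro h
    rw [h] at hsum
    simp only [one_pow, Finset.sum_const, Finset.card_range, nsmul_eq_mul, mul_one] at hsum
    apply hr
    have h2 : algebraMap F (AdjoinRoot g) (r : F) = 0 := by
      rw [map_natCast]; exact hsum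
    exact (map_eq_zero (algebraMap F (AdjoinRoot g))).mp h2
  have hord : orderOf (AdjoinRoot.root g) = r := orderOf_eq_prime har ha1
  have ha0 : AdjoinRoot.root g ≠ 0 := by
    intro h
    rw [h, zero_pow hrp.ne_zero] at har
    exact zero_ne_one har
  have hq1 : 1 ≤ Fintype.card F := Fintype.card_pos
  -- i ∣ d
  have h1 : orderOf ((Fintype.card F : ℕ) : ZMod r) ∣ g.natDegree := by
    apply orderOf_dvd_of_pow_eq_one
    have hcard : Fintype.card (AdjoinRoot g) = Fintype.card F ^ g.natDegree := by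
      rw [← hfin]; exact Module.card_eq_pow_finrank
    have h2 := FiniteField.pow_card_sub_one_eq_one (AdjoinRoot.root g) ha0
    rw [hcard] at h2
    have h3 : r ∣ Fintype.card F ^ g.natDegree - 1 := by
      rw [← hord]; exact orderOf_dvd_of_pow_eq_one h2
    have h4 : 1 ≤ Fintype.card F ^ g.natDegree := Nat.one_le_pow _ _ hq1
    have h5 : ((Fintype.card F ^ g.natDegree : ℕ) : ZMod r) = 1 := by
      have : Fintype.card F ^ g.natDegree = (Fintype.card F ^ g.natDegree - 1) + 1 := by omega
      rw [this, Nat.cast_add, (ZMod.natCast_eq_zero_iff _ _).mpr h3, zero_add, Nat.cast_one]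
    rw [← h5, Nat.cast_pow]
  -- d ∣ i
  have h2 : g.natDegree ∣ orderOf ((Fintype.card F : ℕ) : ZMod r) := by
    rw [← hfin, ← FiniteField.orderOf_frobeniusAlgHom F (AdjoinRoot g)]
    apply orderOf_dvd_of_pow_eq_one
    apply AdjoinRoot.algHom_ext
    rw [AlgHom.coe_pow, FiniteField.coe_frobeniusAlgHom, pow_iterate, AlgHom.one_apply]
    have h3 : ((Fintype.card F ^ orderOf ((Fintype.card F : ℕ) : ZMod r) : ℕ) : ZMod r) = 1 := by
      rw [Nat.cast_pow, pow_orderOf_eq_one]
    have h4 : Fintype.card F ^ orderOf ((Fintype.card F : ℕ) : ZMod r) % r = 1 := by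
      have h5 : ((Fintype.card F ^ orderOf ((Fintype.card F : ℕ) : ZMod r) : ℕ) : ZMod r)
          = ((1 : ℕ) : ZMod r) := by rw [h3, Nat.cast_one]
      rw [ZMod.natCast_eq_natCast_iff] at h5
      have h6 := h5
      unfold Nat.ModEq at h6
      rw [h6, Nat.mod_eq_of_lt hrp.one_lt]
    beta_reduce
    rw [pow_eq_pow_mod _ har, h4, pow_one]
  exact Nat.dvd_antisymm h2 h1

end Cfsg.Agent.Helper46
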