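import Mathlib
import Cfsg.Agent.Helper46.SFourE
import Cfsg.Agent.Helper46.SylowLemmas

/-!
Helper46: S2759 — `S₄` is involved in `G` iff `S₃` is involved in `N(T)/C(T)` for some
`2`-subgroup `T`.
-/

set_option autoImplicit false

namespace Cfsg.Agent.Helper46

open Cfsg

universe u

/-- `D₆ ≃ S₃`. -/
theorem nonempty_dihedral_three_perm : Nonempty (DihedralGroup 3 ≃* Equiv.Perm (Fin 3)) := by
  have h3 : Fact (Nat.Prime 3) := ⟨by norm_num⟩
  have ha2 : (Equiv.swap (0 : Fin 3) 1) ^ 2 = 1 := by rw [pow_two, Equiv.swap_mul_self]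
  have hinv : Equiv.swap (0 : Fin 3) 1 * (Equiv.swap (0 : Fin 3) 1 * Equiv.swap (1 : Fin 3) 2) *
      (Equiv.swap (0 : Fin 3) 1)⁻¹ = (Equiv.swap (0 : Fin 3) 1 * Equiv.swap (1 : Fin 3) 2)⁻¹ := by
    decide
  have hx1 : Equiv.swap (0 : Fin 3) 1 * Equiv.swap (1 : Fin 3) 2 ≠ 1 := by decide
  have hx3 : (Equiv.swap (0 : Fin 3) 1 * Equiv.swap (1 : Fin 3) 2) ^ 3 = 1 := by decide
  have hord : orderOf (Equiv.swap (0 : Fin 3) 1 * Equiv.swap (1 : Fin 3) 2) = 3 :=
    orderOf_eq_prime hx3 hx1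
  obtain ⟨e⟩ := dihedral_of_inverting _ _ ha2 hinv (by rw [hord]; decide) hx1
  rw [hord] at e
  have htop : Subgroup.zpowers (Equiv.swap (0 : Fin 3) 1) ⊔
      Subgroup.zpowers (Equiv.swap (0 : Fin 3) 1 * Equiv.swap (1 : Fin 3) 2) = ⊤ := by
    rw [eq_top_iff, ← Subgroup.closure_eq_top_of_mclosure_eq_top
      (Equiv.Perm.mclosure_swap_castSucc_succ 2), Subgroup.closure_le]
    rintro _ ⟨k, rfl⟩
    fin_cases k
    · exact Subgroup.mem_sup_left (Subgroup.mem_zpowers _)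
    · have h : Equiv.swap (1 : Fin 3) 2 = (Equiv.swap (0 : Fin 3) 1)⁻¹ *
          (Equiv.swap (0 : Fin 3) 1 * Equiv.swap (1 : Fin 3) 2) := by group
      have hmem : (Equiv.swap (0 : Fin 3) 1)⁻¹ *
          (Equiv.swap (0 : Fin 3) 1 * Equiv.swap (1 : Fin 3) 2) ∈
          Subgroup.zpowers (Equiv.swap (0 : Fin 3) 1) ⊔
            Subgroup.zpowers (Equiv.swap (0 : Fin 3) 1 * Equiv.swap (1 : Fin 3) 2) :=
        Subgroup.mul_mem _ (Subgroup.inv_mem _ (Subgroup.mem_sup_left (Subgroup.mem_zpowers _)))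
          (Subgroup.mem_sup_right (Subgroup.mem_zpowers _))
      rw [← h] at hmem
      exact hmem
  exact ⟨(((Subgroup.topEquiv).symm.trans (MulEquiv.subgroupCongr htop.symm)).trans e).symm⟩

/-! ### The Klein four-group in `S₄` -/

/-- `(0 1)(2 3)` -/
def vt₁ : Equiv.Perm (Fin 4) := Equiv.swap 0 1 * Equiv.swap 2 3

/-- `(0 2)(1 3)` -/
def vt₂ : Equiv.Perm (Fin 4) := Equiv.swap 0 2 * Equiv.swap 1 3

theorem kleinV_mul : ∀ a b : Equiv.Perm (Fin 4), (a = 1 ∨ a = vt₁ ∨ a = vt₂ ∨ a = vt₁ * vt₂) →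
    (b = 1 ∨ b = vt₁ ∨ b = vt₂ ∨ b = vt₁ * vt₂) →
    (a * b = 1 ∨ a * b = vt₁ ∨ a * b = vt₂ ∨ a * b = vt₁ * vt₂) := by decide

theorem kleinV_inv : ∀ a : Equiv.Perm (Fin 4), (a = 1 ∨ a = vt₁ ∨ a = vt₂ ∨ a = vt₁ * vt₂) →
    (a⁻¹ = 1 ∨ a⁻¹ = vt₁ ∨ a⁻¹ = vt₂ ∨ a⁻¹ = vt₁ * vt₂) := by decide

theorem kleinV_conj : ∀ a g : Equiv.Perm (Fin 4), (a = 1 ∨ a = vt₁ ∨ a = vt₂ ∨ a = vt₁ * vt₂) →
    (g * a * g⁻¹ = 1 ∨ g * a * g⁻¹ = vt₁ ∨ g * a * g⁻¹ = vt₂ ∨ g * a * g⁻¹ = vt₁ * vt₂) := by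
  decide

theorem kleinV_sq : ∀ a : Equiv.Perm (Fin 4), (a = 1 ∨ a = vt₁ ∨ a = vt₂ ∨ a = vt₁ * vt₂) →
    a ^ 2 = 1 := by decide

theorem kleinV_cent : ∀ σ : Equiv.Perm (Fin 4), σ * vt₁ = vt₁ * σ → σ * vt₂ = vt₂ * σ →
    (σ = 1 ∨ σ = vt₁ ∨ σ = vt₂ ∨ σ = vt₁ * vt₂) := by decide

/-- The Klein four-group in `S₄`. -/
def kleinV : Subgroup (Equiv.Perm (Fin 4)) where
  carrier := {σ | σ = 1 ∨ σ = vt₁ ∨ σ = vt₂ ∨ σ = vt₁ * vt₂}
  one_mem' := Or.inl rfl
  mul_mem' := fun {a b} ha hb => kleinV_mul a b ha hb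
  inv_mem' := fun {a} ha => kleinV_inv a ha

instance kleinV_normal : kleinV.Normal := ⟨fun a ha g => kleinV_conj a g ha⟩

theorem vt₁_mem : vt₁ ∈ kleinV := Or.inr (Or.inl rfl)

theorem vt₂_mem : vt₂ ∈ kleinV := Or.inr (Or.inr (Or.inl rfl))

theorem sc_not_mem : ¬ (Equiv.swap (0 : Fin 4) 1 * Equiv.swap (1 : Fin 4) 2 = 1 ∨
    Equiv.swap (0 : Fin 4) 1 * Equiv.swap (1 : Fin 4) 2 = vt₁ ∨
    Equiv.swap (0 : Fin 4) 1 * Equiv.swap (1 : Fin 4) 2 = vt₂ ∨
    Equiv.swap (0 : Fin 4) 1 * Equiv.swap (1 : Fin 4) 2 = vt₁ * vt₂) := by decide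

theorem sc_pow : (Equiv.swap (0 : Fin 4) 1 * Equiv.swap (1 : Fin 4) 2) ^ 3 = 1 := by decide

theorem sc_conj : Equiv.swap (0 : Fin 4) 1 * (Equiv.swap (0 : Fin 4) 1 * Equiv.swap (1 : Fin 4) 2) *
    (Equiv.swap (0 : Fin 4) 1)⁻¹ = (Equiv.swap (0 : Fin 4) 1 * Equiv.swap (1 : Fin 4) 2)⁻¹ := by
  decide

theorem involves_dihedral_quot : Involves (DihedralGroup 3) (Equiv.Perm (Fin 4) ⧸ kleinV) := by
  have h3 : Fact (Nat.Prime 3) := ⟨by norm_num⟩
  have hy1 : QuotientGroup.mk' kleinV (Equiv.swap (0 : Fin 4) 1 * Equiv.swap (1 : Fin 4) 2) ≠ 1 := by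
    rw [QuotientGroup.mk'_apply, Ne, QuotientGroup.eq_one_iff]
    exact sc_not_mem
  have hy3 : (QuotientGroup.mk' kleinV (Equiv.swap (0 : Fin 4) 1 * Equiv.swap (1 : Fin 4) 2)) ^ 3
      = 1 := by
    rw [← map_pow, sc_pow, map_one]
  have hord : orderOf (QuotientGroup.mk' kleinV
      (Equiv.swap (0 : Fin 4) 1 * Equiv.swap (1 : Fin 4) 2)) = 3 := orderOf_eq_prime hy3 hy1
  exact involves_of_inverting (p := 3) (by norm_num)
    (x := QuotientGroup.mk' kleinV (Equiv.swap (0 : Fin 4) 1)) ⟨1, by rw [hord, pow_one]⟩ hy1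
    (by rw [← map_inv, ← map_mul, ← map_mul, sc_conj, map_inv])

/-- A finite group mapping onto `S₄` has a `2`-subgroup `T` with `D₆` involved in `N(T)/C(T)`. -/
theorem exists_two_subgroup_of_surjective {K : Type u} [Group K] [Finite K]
    (f : K →* Equiv.Perm (Fin 4)) (hf : Function.Surjective f) :
    ∃ T : Subgroup K, IsPGroup 2 T ∧ Involves (DihedralGroup 3)
      (↥(Subgroup.normalizer (T : Set K)) ⧸
        (Subgroup.centralizer (T : Set K)).subgroupOf (Subgroup.normalizer (T : Set K))) := by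
  have h2 : Fact (Nat.Prime 2) := ⟨by norm_num⟩
  have hMn : (kleinV.comap f).Normal := inferInstance
  obtain ⟨P⟩ := (inferInstance : Nonempty (Sylow 2 (kleinV.comap f)))
  obtain ⟨T, hTdef⟩ : ∃ T : Subgroup K, T = (P : Subgroup (kleinV.comap f)).map
      (kleinV.comap f).subtype := ⟨_, rfl⟩
  have hTp : IsPGroup 2 T := hTdef ▸ P.2.map _
  have hfrat : Subgroup.normalizer (T : Set K) ⊔ kleinV.comap f = ⊤ := by
    rw [hTdef]; exact Sylow.normalizer_sup_eq_top P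
  -- f(T) = V
  have hfT : ∀ v ∈ kleinV, ∃ t ∈ T, f t = v := by
    intro v hv
    obtain ⟨d, rfl⟩ := hf v
    have hdM : d ∈ kleinV.comap f := hv
    have hC : ∀ d' : kleinV.comap f, ∃ k : ℕ, d' ^ 2 ^ k ∈ (f.ker).subgroupOf (kleinV.comap f) := by
      intro d'
      refine ⟨1, ?_⟩
      rw [Subgroup.mem_subgroupOf, MonoidHom.mem_ker]
      have h := kleinV_sq (f d') d'.2
      simpa using h
    obtain ⟨c, hc, t, ht, hct⟩ :=
      exists_mul_of_pow_mem ((f.ker).subgroupOf (kleinV.comap f)) hC P ⟨d, hdM⟩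
    refine ⟨t, hTdef ▸ ⟨t, ht, rfl⟩, ?_⟩
    have h1 : (c : K) * (t : K) = d := congrArg Subtype.val hct
    have h2 : f (c : K) = 1 := MonoidHom.mem_ker.mp (Subgroup.mem_subgroupOf.mp hc)
    rw [← h1, map_mul, h2, one_mul]
  have hCM : Subgroup.centralizer (T : Set K) ≤ kleinV.comap f := by
    intro c hc
    show f c ∈ kleinV
    apply kleinV_cent
    · obtain ⟨t, ht, htv⟩ := hfT vt₁ vt₁_mem
      rw [← htv, ← map_mul, ← map_mul, Subgroup.mem_centralizer_iff.mp hc t ht]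
    · obtain ⟨t, ht, htv⟩ := hfT vt₂ vt₂_mem
      rw [← htv, ← map_mul, ← map_mul, Subgroup.mem_centralizer_iff.mp hc t ht]
  have hgker : (Subgroup.centralizer (T : Set K)).subgroupOf (Subgroup.normalizer (T : Set K)) ≤
      (((QuotientGroup.mk' kleinV).comp f).comp (Subgroup.normalizer (T : Set K)).subtype).ker := by
    intro a ha
    rw [MonoidHom.mem_ker]
    show QuotientGroup.mk' kleinV (f (a : K)) = 1
    rw [QuotientGroup.mk'_apply, QuotientGroup.eq_one_iff]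
    exact hCM (Subgroup.mem_subgroupOf.mp ha)
  have hgsurj : Function.Surjective (QuotientGroup.lift _
      (((QuotientGroup.mk' kleinV).comp f).comp (Subgroup.normalizer (T : Set K)).subtype)
      hgker) := by
    intro q
    obtain ⟨σ, rfl⟩ := QuotientGroup.mk'_surjective kleinV q
    obtain ⟨k, rfl⟩ := hf σ
    have hk : k ∈ Subgroup.normalizer (T : Set K) ⊔ kleinV.comap f := by rw [hfrat]; trivial
    obtain ⟨n, hn, m, hm, rfl⟩ := Subgroup.mem_sup_of_normal_right.mp hk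
    refine ⟨QuotientGroup.mk ⟨n, hn⟩, ?_⟩
    rw [QuotientGroup.lift_mk]
    show QuotientGroup.mk' kleinV (f n) = QuotientGroup.mk' kleinV (f (n * m))
    have hm1 : QuotientGroup.mk' kleinV (f m) = 1 := by
      rw [QuotientGroup.mk'_apply, QuotientGroup.eq_one_iff]; exact hm
    rw [map_mul, map_mul, hm1, mul_one]
  exact ⟨T, hTp, involves_of_surjective _ hgsurj involves_dihedral_quot⟩

/-- Sections of `N_K(T)/C_K(T)` are sections of `N_G(T)/C_G(T)` for `T ≤ K ≤ G`. -/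
theorem involves_normalizer_quotient_map {G : Type u} [Group G] (K : Subgroup G) (T : Subgroup K)
    {H : Type*} [Group H]
    (h : Involves H (↥(Subgroup.normalizer (T : Set K)) ⧸
      (Subgroup.centralizer (T : Set K)).subgroupOf (Subgroup.normalizer (T : Set K)))) :
    Involves H (↥(Subgroup.normalizer ((T.map K.subtype : Subgroup G) : Set G)) ⧸
      (Subgroup.centralizer ((T.map K.subtype : Subgroup G) : Set G)).subgroupOf
        (Subgroup.normalizer ((T.map K.subtype : Subgroup G) : Set G))) := by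
  have hle : (Subgroup.centralizer (T : Set K)).subgroupOf (Subgroup.normalizer (T : Set K)) ≤
      ((Subgroup.centralizer ((T.map K.subtype : Subgroup G) : Set G)).subgroupOf
        (Subgroup.normalizer ((T.map K.subtype : Subgroup G) : Set G))).comap
      ((K.subtype.comp (Subgroup.normalizer (T : Set K)).subtype).codRestrict
        (Subgroup.normalizer ((T.map K.subtype : Subgroup G) : Set G))
        (fun a => map_subtype_normalizer_le K T ⟨a, a.2, rfl⟩)) := by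
    intro a ha
    rw [Subgroup.mem_comap, Subgroup.mem_subgroupOf, Subgroup.mem_centralizer_iff]
    rintro _ ⟨t, ht, rfl⟩
    have h1 := Subgroup.mem_centralizer_iff.mp (Subgroup.mem_subgroupOf.mp ha) t ht
    exact congrArg Subtype.val h1
  apply involves_of_injective (QuotientGroup.map _ _ _ hle) _ h
  rw [injective_iff_map_eq_one]
  intro q hq
  induction q using QuotientGroup.induction_on with
  | H a =>
    rw [QuotientGroup.map_mk, QuotientGroup.eq_one_iff] at hq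
    rw [QuotientGroup.eq_one_iff]
    rw [Subgroup.mem_subgroupOf, Subgroup.mem_centralizer_iff] at hq ⊢
    intro t ht
    apply Subtype.ext
    exact hq _ ⟨t, ht, rfl⟩

/-- **S2759.** -/
theorem sfour_involved_iff {G : Type u} [Group G] [Finite G] :
    Involves (Equiv.Perm (Fin 4)) G ↔ ∃ T : Subgroup G, IsPGroup 2 T ∧
      Involves (Equiv.Perm (Fin 3)) (↥(Subgroup.normalizer (T : Set G)) ⧸
        (Subgroup.centralizer (T : Set G)).subgroupOf (Subgroup.normalizer (T : Set G))) := by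
  obtain ⟨e⟩ := nonempty_dihedral_three_perm
  constructor
  · intro h
    obtain ⟨K, f, hf⟩ := involves_iff.mp h
    obtain ⟨T, hT, hinv⟩ := exists_two_subgroup_of_surjective f hf
    exact ⟨T.map K.subtype, hT.map _,
      involves_of_mulEquiv e (involves_normalizer_quotient_map K T hinv)⟩
  · rintro ⟨T, hT, h⟩
    have h' := involves_of_mulEquiv e.symm h
    have h3 : Fact (Nat.Prime 3) := ⟨by norm_num⟩
    obtain ⟨xb, yb, -, ⟨k, hk⟩, hy1, hxy⟩ :=
      (dihedral_involved_iff (p := 3) (by norm_num)).2.mp h'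
    obtain ⟨x, rfl⟩ := QuotientGroup.mk_surjective xb
    obtain ⟨y, rfl⟩ := QuotientGroup.mk_surjective yb
    refine involves_four_of_inverted T hT x y x.2 y.2 ?_ k ?_ ?_
    · intro h
      exact hy1 ((QuotientGroup.eq_one_iff _).mpr (Subgroup.mem_subgroupOf.mpr h))
    · have h1 : (QuotientGroup.mk y : _ ⧸ (Subgroup.centralizer (T : Set G)).subgroupOf
          (Subgroup.normalizer (T : Set G))) ^ 3 ^ k = 1 := by
        rw [← hk]; exact pow_orderOf_eq_one _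
      rw [← QuotientGroup.mk_pow, QuotientGroup.eq_one_iff] at h1
      exact h1
    · have h1 : (QuotientGroup.mk (x * y * x⁻¹ * y) : _ ⧸
          (Subgroup.centralizer (T : Set G)).subgroupOf (Subgroup.normalizer (T : Set G))) = 1 := by
        rw [QuotientGroup.mk_mul, QuotientGroup.mk_mul, QuotientGroup.mk_mul, QuotientGroup.mk_inv,
          hxy, inv_mul_cancel]
      have h2 : x * y * x⁻¹ * y ∈ (Subgroup.centralizer (T : Set G)).subgroupOf
          (Subgroup.normalizer (T : Set G)) := (QuotientGroup.eq_one_iff _).mp h1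
      exact h2

end Cfsg.Agent.Helper46
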