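import Mathlib
import Cfsg.Agent.Helper71.SQDefs
import Cfsg.Agent.Helper96.T5Defs

/-!
# Helper46: PIECE V3 of CALL S5867 (helper71): the centres of transvections are everything
(general `m`; adapted from Helper33.SOV3).
-/

set_option autoImplicit false
set_option linter.unusedVariables false
set_option linter.unusedSimpArgs false

namespace Cfsg.Agent.Helper46.SQV3

open Matrix Cfsg.Agent.Helper71.T4 Cfsg.Agent.Helper71.SO Cfsg.Agent.Helper71.SQ
open scoped Kronecker

variable {F : Type*} [Field F] {m n : ℕ}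

/-- A vector space over a field with `2 ≠ 0` is not the union of three proper subspaces. -/
theorem avoid3 {V : Type*} [AddCommGroup V] [Module F V] (h2 : (2 : F) ≠ 0)
    (K₁ K₂ K₃ : Submodule F V) (h₁ : K₁ ≠ ⊤) (h₂ : K₂ ≠ ⊤) (h₃ : K₃ ≠ ⊤) :
    ∃ x : V, x ∉ K₁ ∧ x ∉ K₂ ∧ x ∉ K₃ := by
  have ex : ∀ K : Submodule F V, K ≠ ⊤ → ∃ x, x ∉ K := by
    intro K hK
    by_contra hcon
    push Not at hcon
    exact hK ((Submodule.eq_top_iff').mpr hcon)
  obtain ⟨x₁, hx₁⟩ := ex K₁ h₁
  obtain ⟨x₂, hx₂⟩ := ex K₂ h₂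
  obtain ⟨x, hx1, hx2⟩ : ∃ x : V, x ∉ K₁ ∧ x ∉ K₂ := by
    by_cases h : x₁ ∈ K₂
    · by_cases h' : x₂ ∈ K₁
      · refine ⟨x₁ + x₂, fun hm => hx₁ ?_, fun hm => hx₂ ?_⟩
        · have := K₁.sub_mem hm h'
          rwa [add_sub_cancel_right] at this
        · have := K₂.sub_mem hm h
          rwa [add_sub_cancel_left] at this
      · exact ⟨x₂, h', hx₂⟩
    · exact ⟨x₁, hx₁, h⟩
  by_cases hx3 : x ∈ K₃
  · obtain ⟨y, hy⟩ := ex K₃ h₃
    have key : ∀ K : Submodule F V, x ∉ K → ∀ t t' : F, t ≠ t' → y + t • x ∈ K →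
        y + t' • x ∈ K → False := by
      intro K hxK t t' htt h h'
      have h1 : (t - t') • x ∈ K := by
        have := K.sub_mem h h'
        have e : y + t • x - (y + t' • x) = (t - t') • x := by rw [sub_smul]; abel
        rwa [e] at this
      exact hxK ((K.smul_mem_iff (sub_ne_zero.mpr htt)).mp h1)
    have h01 : (0 : F) ≠ 1 := zero_ne_one
    have h0m : (0 : F) ≠ -1 := fun h => one_ne_zero (neg_eq_zero.mp h.symm)
    have h1m : (1 : F) ≠ -1 := by
      intro h
      apply h2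
      have : (1 : F) + 1 = 0 := by nth_rewrite 2 [h]; ring
      rw [← this]; norm_num
    have hK3 : ∀ t : F, y + t • x ∉ K₃ := by
      intro t hm
      apply hy
      have := K₃.sub_mem hm (K₃.smul_mem t hx3)
      rwa [add_sub_cancel_right] at this
    by_contra hcon
    push Not at hcon
    have hor : ∀ t : F, y + t • x ∈ K₁ ∨ y + t • x ∈ K₂ := by
      intro t
      by_contra hno
      push Not at hno
      exact hK3 t (hcon _ hno.1 hno.2)
    rcases hor 0 with a0 | a0 <;> rcases hor 1 with a1 | a1 <;> rcases hor (-1) with am | am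
    · exact key K₁ hx1 0 1 h01 a0 a1
    · exact key K₁ hx1 0 1 h01 a0 a1
    · exact key K₁ hx1 0 (-1) h0m a0 am
    · exact key K₂ hx2 1 (-1) h1m a1 am
    · exact key K₁ hx1 1 (-1) h1m a1 am
    · exact key K₂ hx2 0 (-1) h0m a0 am
    · exact key K₂ hx2 0 1 h01 a0 a1
    · exact key K₂ hx2 0 1 h01 a0 a1
  · exact ⟨x, hx1, hx2, hx3⟩

open Cfsg.Agent.Helper96.T5 in
/-- PIECE V3 -/
theorem centres_all (h2 : (2 : F) ≠ 0) (hn : 3 ≤ n) (J : Matrix (Fin m) (Fin m) F)
    (hJ : Jᵀ = -J) (hdetJ : J.det ≠ 0) (S : Matrix (Fin n) (Fin n) F)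
    (hS : Sᵀ = S) (hdetS : S.det ≠ 0) (s₀ : Fin n → F) (hs₀ : s₀ ≠ 0) (hs₀s₀ : bl S s₀ s₀ = 0)
    (C : Set (Fin m × Fin n → F))
    (h1 : ∀ (a : Fin m → F) (s : Fin n → F), bl S s s = 0 → pt a s ∈ C)
    (h3 : ∀ v v' : Fin m × Fin n → F, v ∈ C → v' ∈ C → v ⬝ᵥ OmG J S *ᵥ v' ≠ 0 → v + v' ∈ C) :
    ∀ v : Fin m × Fin n → F, v ∈ C := by
  classical
  have h1' : ∀ (a : Fin m → F) (s : Fin n → F), bf S s s = 0 → pt a s ∈ C := h1
  have h3' : ∀ v v' : Fin m × Fin n → F, v ∈ C → v' ∈ C → bf (J ⊗ₖ S) v v' ≠ 0 →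
      v + v' ∈ C := h3
  have h00 : bf S s₀ s₀ = 0 := hs₀s₀
  have hsym : ∀ x y : Fin n → F, bf S y x = bf S x y := by
    intro x y
    simp only [bf]
    rw [Matrix.dotProduct_mulVec, ← Matrix.mulVec_transpose, hS, dotProduct_comm]
  have h2' : (2 : F)⁻¹ * 2 = 1 := inv_mul_cancel₀ h2
  -- skew symmetry
  have hskewJ : ∀ x y : Fin m → F, bf J y x = - bf J x y := by
    intro x y
    simp only [bf]
    rw [Matrix.dotProduct_mulVec, ← Matrix.mulVec_transpose, hJ, Matrix.neg_mulVec,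
      neg_dotProduct, dotProduct_comm]
  have Jaa : ∀ a : Fin m → F, bf J a a = 0 := by
    intro a
    have h := hskewJ a a
    have h' : (2 : F) * bf J a a = 0 := by linear_combination h
    rcases mul_eq_zero.mp h' with h'' | h''
    · exact absurd h'' h2
    · exact h''
  have hΩT : (J ⊗ₖ S)ᵀ = -(J ⊗ₖ S) := by
    ext ⟨i, k⟩ ⟨j, l⟩
    have e1 : J j i = - J i j := congrFun (congrFun hJ i) j
    have e2 : S l k = S k l := congrFun (congrFun hS k) l
    simp only [Matrix.transpose_apply, Matrix.neg_apply, Matrix.kroneckerMap_apply, e1, e2]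
    ring
  have hskewΩ : ∀ x y : Fin m × Fin n → F, bf (J ⊗ₖ S) y x = - bf (J ⊗ₖ S) x y := by
    intro x y
    simp only [bf]
    rw [Matrix.dotProduct_mulVec, ← Matrix.mulVec_transpose, hΩT, Matrix.neg_mulVec,
      neg_dotProduct, dotProduct_comm]
  have hdetΩ : (J ⊗ₖ S).det ≠ 0 := by
    rw [Matrix.det_kronecker]
    exact mul_ne_zero (pow_ne_zero _ hdetJ) (pow_ne_zero _ hdetS)
  -- the partner of `s₀`
  obtain ⟨y₀, hy₀⟩ := exists_bf_eq_one S hdetS s₀ hs₀
  obtain ⟨s₁, hs₁⟩ : ∃ s₁ : Fin n → F, s₁ = y₀ - (2⁻¹ * bf S y₀ y₀) • s₀ := ⟨_, rfl⟩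
  have h01 : bf S s₀ s₁ = 1 := by
    rw [hs₁, bf_sub_right, bf_smul_right, hy₀, h00]; ring
  have h10 : bf S s₁ s₀ = 1 := by rw [hsym s₀ s₁, h01]
  have h11 : bf S s₁ s₁ = 0 := by
    rw [hs₁]
    simp only [bf_sub_left, bf_sub_right, bf_smul_left, bf_smul_right, hy₀, hsym s₀ y₀, h00]
    linear_combination (-(bf S y₀ y₀)) * h2'
  -- every non-zero vector is non-orthogonal to some singular vector
  have N1 : ∀ x : Fin n → F, x ≠ 0 → ∃ s : Fin n → F, bf S s s = 0 ∧ bf S x s ≠ 0 := by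
    intro x hx
    by_contra hno
    push Not at hno
    have hx0 : bf S x s₀ = 0 := hno s₀ h00
    have hx1 : bf S x s₁ = 0 := hno s₁ h11
    obtain ⟨z, hz⟩ := exists_bf_eq_one S hdetS x hx
    obtain ⟨w, hw⟩ : ∃ w : Fin n → F, w = z - bf S z s₁ • s₀ - bf S z s₀ • s₁ := ⟨_, rfl⟩
    have hw0 : bf S w s₀ = 0 := by
      rw [hw]
      simp only [bf_sub_left, bf_smul_left, h00, h10]
      ring
    have hw1 : bf S w s₁ = 0 := by
      rw [hw]
      simp only [bf_sub_left, bf_smul_left, h01, h11]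
      ring
    have ht : bf S (s₁ + w - (2⁻¹ * bf S w w) • s₀) (s₁ + w - (2⁻¹ * bf S w w) • s₀) = 0 := by
      simp only [bf_sub_left, bf_sub_right, bf_add_left, bf_add_right, bf_smul_left,
        bf_smul_right, h11, hw0, hw1, hsym w s₁, hsym w s₀, h10, h01, h00]
      linear_combination (-(bf S w w)) * h2'
    have hxt := hno _ ht
    rw [bf_sub_right, bf_add_right, bf_smul_right, hx0, hx1] at hxt
    have hxw : bf S x w = 0 := by linear_combination hxt
    rw [hw, bf_sub_right, bf_sub_right, bf_smul_right, bf_smul_right, hx0, hx1, hz] at hxw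
    have h10' : (1 : F) = 0 := by linear_combination hxw
    exact one_ne_zero h10'
  have hpure : ∀ a a' : Fin m → F, bf J a a' ≠ 0 → ∀ x : Fin n → F, pt a x ∈ C := by
    intro a a' haa x
    by_cases hx : x = 0
    · subst hx
      exact h1' a 0 (bf_zero_left S 0)
    obtain ⟨s, hss, hxs⟩ := N1 x hx
    obtain ⟨γ, hγ⟩ : ∃ γ : F, γ = bf S x x * (2 * bf S x s)⁻¹ := ⟨_, rfl⟩
    obtain ⟨t, ht⟩ : ∃ t : Fin n → F, t = x - γ • s := ⟨_, rfl⟩
    have hγ' : γ * (2 * bf S x s) = bf S x x := by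
      rw [hγ, mul_assoc, inv_mul_cancel₀ (mul_ne_zero h2 hxs), mul_one]
    have htt : bf S t t = 0 := by
      rw [ht]
      simp only [bf_sub_left, bf_sub_right, bf_smul_left, bf_smul_right, hss, hsym x s]
      linear_combination (-1 : F) * hγ'
    have hts : bf S t s = bf S x s := by
      rw [ht, bf_sub_left, bf_smul_left, hss]; ring
    have hu1 : pt a t ∈ C := h1' a t htt
    have hu2 : pt a' s ∈ C := h1' a' s hss
    have hu12 : pt a t + pt a' s ∈ C := by
      refine h3' _ _ hu1 hu2 ?_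
      rw [bf_kron_pt, hts]
      exact mul_ne_zero haa hxs
    have hu3 : pt (γ • a - a') s ∈ C := h1' _ s hss
    have hfin : pt a t + pt a' s + pt (γ • a - a') s ∈ C := by
      refine h3' _ _ hu12 hu3 ?_
      rw [bf_add_left, bf_kron_pt, bf_kron_pt, hss, hts, mul_zero, add_zero, bf_sub_right,
        bf_smul_right, Jaa, mul_zero, zero_sub]
      exact mul_ne_zero (neg_ne_zero.mpr haa) hxs
    have heq : pt a t + pt a' s + pt (γ • a - a') s = pt a x := by
      rw [ht]
      ext ⟨i, k⟩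
      simp only [pt, Pi.add_apply, Pi.sub_apply, Pi.smul_apply, smul_eq_mul]
      ring
    rw [← heq]
    exact hfin
  have hzero : (0 : Fin m × Fin n → F) ∈ C := by
    have := h1' (0 : Fin m → F) 0 (bf_zero_left S 0)
    rwa [pt_zero_left] at this
  have hpure' : ∀ (a : Fin m → F) (x : Fin n → F), pt a x ∈ C := by
    intro a x
    by_cases ha : a = 0
    · rw [ha, pt_zero_left]; exact hzero
    · obtain ⟨a', ha'⟩ := exists_bf_eq_one J hdetJ a ha
      exact hpure a a' (by rw [ha']; exact one_ne_zero) x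
  -- decomposition into pure tensors
  have hdec : ∀ v : Fin m × Fin n → F,
      v = ∑ i : Fin m, pt (Pi.single i (1 : F)) (fun k => v (i, k)) := by
    intro v
    ext ⟨i, k⟩
    simp only [Finset.sum_apply, pt, Pi.single_apply]
    rw [Finset.sum_eq_single i]
    · simp
    · intro j _ hj
      rw [if_neg (Ne.symm hj), zero_mul]
    · intro hi
      exact absurd (Finset.mem_univ i) hi
  have bf_sum : ∀ (v : Fin m × Fin n → F) (s : Finset (Fin m))
      (g : Fin m → (Fin m × Fin n → F)),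
      bf (J ⊗ₖ S) v (∑ i ∈ s, g i) = ∑ i ∈ s, bf (J ⊗ₖ S) v (g i) := by
    intro v s g
    induction s using Finset.induction_on with
    | empty => simp [bf_zero_right]
    | insert i s hi ih => rw [Finset.sum_insert hi, Finset.sum_insert hi, bf_add_right, ih]
  -- a non-zero vector is non-orthogonal to some pure tensor
  have hnd : ∀ v : Fin m × Fin n → F, v ≠ 0 → ∃ (a : Fin m → F) (z : Fin n → F),
      bf (J ⊗ₖ S) v (pt a z) ≠ 0 := by
    intro v hv
    obtain ⟨y, hy⟩ := exists_bf_eq_one (J ⊗ₖ S) hdetΩ v hv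
    rw [hdec y, bf_sum] at hy
    have hne : ∑ i : Fin m, bf (J ⊗ₖ S) v (pt (Pi.single i (1 : F)) (fun k => y (i, k))) ≠ 0 := by
      rw [hy]; exact one_ne_zero
    obtain ⟨i, -, hi⟩ := Finset.exists_ne_zero_of_sum_ne_zero hne
    exact ⟨_, _, hi⟩
  -- the two families of subspaces
  let Kv : (Fin m × Fin n → F) → Submodule F (Fin m → F) := fun v =>
    { carrier := {a | ∀ z : Fin n → F, bf (J ⊗ₖ S) v (pt a z) = 0}
      add_mem' := by
        intro a b ha hb z
        rw [pt_add_left, bf_add_right, ha z, hb z, add_zero]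
      zero_mem' := by
        intro z
        rw [pt_zero_left, bf_zero_right]
      smul_mem' := by
        intro c a ha z
        rw [pt_smul_left, bf_smul_right, ha z, mul_zero] }
  let Hv : (Fin m × Fin n → F) → (Fin m → F) → Submodule F (Fin n → F) := fun v a =>
    { carrier := {z | bf (J ⊗ₖ S) v (pt a z) = 0}
      add_mem' := by
        intro z w hz hw
        show bf (J ⊗ₖ S) v (pt a (z + w)) = 0
        rw [pt_add_right, bf_add_right, hz, hw, add_zero]
      zero_mem' := by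
        show bf (J ⊗ₖ S) v (pt a 0) = 0
        rw [pt_zero_right, bf_zero_right]
      smul_mem' := by
        intro c z hz
        show bf (J ⊗ₖ S) v (pt a (c • z)) = 0
        rw [pt_smul_right, bf_smul_right, hz, mul_zero] }
  have hKv : ∀ v : Fin m × Fin n → F, v ≠ 0 → Kv v ≠ ⊤ := by
    intro v hv htop
    obtain ⟨a, z, haz⟩ := hnd v hv
    have : a ∈ Kv v := by rw [htop]; exact Submodule.mem_top
    exact haz (this z)
  have hHv : ∀ (v : Fin m × Fin n → F) (a : Fin m → F), a ∉ Kv v → Hv v a ≠ ⊤ := by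
    intro v a ha htop
    apply ha
    intro z
    have : z ∈ Hv v a := by rw [htop]; exact Submodule.mem_top
    exact this
  -- closure under addition
  have hadd : ∀ u u' : Fin m × Fin n → F, u ∈ C → u' ∈ C → u + u' ∈ C := by
    intro u u' hu hu'
    by_cases hω : bf (J ⊗ₖ S) u u' = 0
    · by_cases hu0 : u = 0
      · rw [hu0, zero_add]; exact hu'
      by_cases hu'0 : u' = 0
      · rw [hu'0, add_zero]; exact hu
      by_cases hw0 : u + u' = 0
      · rw [hw0]; exact hzero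
      obtain ⟨a, ha1, ha2, ha3⟩ :=
        avoid3 h2 (Kv u) (Kv u') (Kv (u + u')) (hKv u hu0) (hKv u' hu'0) (hKv _ hw0)
      obtain ⟨z, hz1, hz2, hz3⟩ :=
        avoid3 h2 (Hv u a) (Hv u' a) (Hv (u + u') a) (hHv u a ha1) (hHv u' a ha2) (hHv _ a ha3)
      have hz1' : bf (J ⊗ₖ S) u (pt a z) ≠ 0 := hz1
      have hz2' : bf (J ⊗ₖ S) u' (pt a z) ≠ 0 := hz2
      have hz3' : bf (J ⊗ₖ S) (u + u') (pt a z) ≠ 0 := hz3
      have hc : pt a z ∈ C := hpure' a z
      have hneg : pt (-a) z = - pt a z := by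
        ext ⟨i, k⟩
        simp [pt]
      have hnc : - pt a z ∈ C := by rw [← hneg]; exact hpure' (-a) z
      have ha' : u + pt a z ∈ C := h3' u _ hu hc hz1'
      have hb' : u' + - pt a z ∈ C := by
        refine h3' u' _ hu' hnc ?_
        rw [bf_neg_right]
        exact neg_ne_zero.mpr hz2'
      have hcc : bf (J ⊗ₖ S) (pt a z) (pt a z) = 0 := by
        rw [bf_kron_pt, Jaa, zero_mul]
      have hfin : (u + pt a z) + (u' + - pt a z) ∈ C := by
        refine h3' _ _ ha' hb' ?_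
        have e : bf (J ⊗ₖ S) (u + pt a z) (u' + - pt a z)
            = - bf (J ⊗ₖ S) (u + u') (pt a z) := by
          rw [bf_add_left, bf_add_right, bf_add_right, bf_neg_right, bf_neg_right, hω, hcc,
            hskewΩ u' (pt a z), bf_add_left]
          ring
        rw [e]
        exact neg_ne_zero.mpr hz3'
      have e2 : (u + pt a z) + (u' + - pt a z) = u + u' := by abel
      rw [← e2]
      exact hfin
    · exact h3' u u' hu hu' hω
  intro v
  rw [hdec v]
  exact Finset.sum_induction _ (fun w => w ∈ C) hadd hzero (fun i _ => hpure' _ _)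

end Cfsg.Agent.Helper46.SQV3
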