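import Mathlib
import Cfsg.Agent.Helper13.TKDefs

set_option autoImplicit false

/-!
# S5956 (helper13 call), piece JTBLK: Jordan type of a span of independent Jordan chains
-/

namespace Cfsg.Agent.Helper46.TI5956

open Module Polynomial
open Cfsg.Agent.Helper42.SpForm Cfsg.Agent.Helper42.SpGroup Cfsg.Agent.Helper42.SpModels
open Cfsg.Agent.Helper13.TIsp Cfsg.Agent.Helper90.BG
open Cfsg.Agent.Helper11.TI5955 Cfsg.Agent.Helper58.TI5955 Cfsg.Agent.Helper59.TI5955
open Cfsg.Agent.Helper51.TI5955 Cfsg.Agent.Helper70.TI5955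
open Cfsg.Agent.Helper39.TI5961 Cfsg.Agent.Helper58.TI5961 Cfsg.Agent.Helper59.TI5961
open Cfsg.Agent.Helper60.TI5961 Cfsg.Agent.Helper31.TI5961 Cfsg.Agent.Helper19.TI5961

section geom

variable {F : Type*} [Field F] {V : Type*} [AddCommGroup V] [Module F V] [FiniteDimensional F V]
  (B : LinearMap.BilinForm F V)

/-- JTBLK (case a): Jordan type of a span of `s` independent Jordan chains of length `a`:
`Z ⊓ ker (N ^ k) = span {N ^ i (u j) | a ≤ i + k}`. -/
theorem jt_blk (N : Module.End F V) (a s : ℕ) (u : Fin s → V) (hN : ∀ j, (N ^ a) (u j) = 0)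
    (hli : LinearIndependent F (fun x : Fin s × Fin a => (N ^ (x.2 : ℕ)) (u x.1))) :
    JT N (Submodule.span F (Set.range (fun x : Fin s × Fin a => (N ^ (x.2 : ℕ)) (u x.1))))
      (Multiset.replicate s a) := by
  classical
  intro k
  obtain ⟨Z, hZ⟩ : ∃ Z : Submodule F V,
      Z = Submodule.span F (Set.range (fun x : Fin s × Fin a => (N ^ (x.2 : ℕ)) (u x.1))) :=
    ⟨_, rfl⟩
  rw [← hZ]
  have hZrank : finrank F ↥Z = s * a := by
    rw [hZ, finrank_span_eq_card hli, Fintype.card_prod, Fintype.card_fin, Fintype.card_fin]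
  -- the image of `Z` under `N ^ k`
  obtain ⟨c, hc⟩ : ∃ c : Fin s × Fin (a - k) → V,
      c = fun x => (N ^ ((x.2 : ℕ) + k)) (u x.1) := ⟨_, rfl⟩
  have hcli : LinearIndependent F c := by
    have hinj : Function.Injective
        (fun x : Fin s × Fin (a - k) => ((x.1, ⟨(x.2 : ℕ) + k, by have := x.2.2; omega⟩) :
          Fin s × Fin a)) := by
      intro x y hxy
      have h1 := congrArg Prod.fst hxy
      have h2 := congrArg (fun z : Fin s × Fin a => (z.2 : ℕ)) hxy
      simp only at h1 h2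
      exact Prod.ext h1 (Fin.ext (by omega))
    have h3 := hli.comp _ hinj
    rw [hc]
    exact h3
  have hmap : Z.map (N ^ k) = Submodule.span F (Set.range c) := by
    apply le_antisymm
    · rw [hZ, Submodule.map_span, Submodule.span_le]
      rintro _ ⟨_, ⟨⟨j, i⟩, rfl⟩, rfl⟩
      have h1 : (N ^ k) ((N ^ (i : ℕ)) (u j)) = (N ^ ((i : ℕ) + k)) (u j) := by
        rw [← Module.End.mul_apply, ← pow_add, add_comm]
      rw [h1]
      by_cases hik : (i : ℕ) + k < a
      · apply Submodule.subset_span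
        refine ⟨(j, ⟨(i : ℕ), by omega⟩), ?_⟩
        rw [hc]
      · have h2 : (i : ℕ) + k = ((i : ℕ) + k - a) + a := by omega
        rw [h2, pow_add, Module.End.mul_apply, hN, map_zero]
        exact Submodule.zero_mem _
    · rw [Submodule.span_le]
      rintro _ ⟨⟨j, i⟩, rfl⟩
      rw [hc]
      refine ⟨(N ^ (i : ℕ)) (u j), ?_, ?_⟩
      · rw [hZ]
        apply Submodule.subset_span
        exact ⟨(j, ⟨(i : ℕ), by have := i.2; omega⟩), rfl⟩
      · rw [← Module.End.mul_apply, ← pow_add, add_comm]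
  have hmaprank : finrank F ↥(Z.map (N ^ k)) = s * (a - k) := by
    rw [hmap, finrank_span_eq_card hcli, Fintype.card_prod, Fintype.card_fin, Fintype.card_fin]
  -- rank-nullity
  have hrn := LinearMap.finrank_range_add_finrank_ker ((N ^ k) ∘ₗ Z.subtype)
  have hrange : LinearMap.range ((N ^ k) ∘ₗ Z.subtype) = Z.map (N ^ k) := by
    rw [LinearMap.range_comp, Submodule.range_subtype]
  have hker : finrank F ↥(LinearMap.ker ((N ^ k) ∘ₗ Z.subtype))
      = finrank F ↥(Z ⊓ LinearMap.ker (N ^ k)) := by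
    rw [← Submodule.finrank_map_subtype_eq Z (LinearMap.ker ((N ^ k) ∘ₗ Z.subtype)),
      LinearMap.ker_comp, Submodule.map_comap_subtype]
  rw [hrange, hmaprank, hker, hZrank] at hrn
  rw [Multiset.map_replicate, Multiset.sum_replicate, smul_eq_mul]
  have h4 : s * a = s * (a - k) + s * min a k := by
    rw [← mul_add]
    congr 1
    omega
  rw [h4] at hrn
  exact Nat.add_left_cancel hrn

end geom

end Cfsg.Agent.Helper46.TI5956
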