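import Mathlib
import Cfsg.Agent.Helper13.TKDefs

set_option autoImplicit false

/-!
# S5956 (helper13 call), piece NDBLK: anti-triangular Gram criterion
-/

namespace Cfsg.Agent.Helper46.TI5956

open Module Polynomial
open Cfsg.Agent.Helper42.SpForm Cfsg.Agent.Helper42.SpGroup Cfsg.Agent.Helper42.SpModels
open Cfsg.Agent.Helper13.TIsp Cfsg.Agent.Helper90.BG
open Cfsg.Agent.Helper11.TI5955 Cfsg.Agent.Helper58.TI5955 Cfsg.Agent.Helper59.TI5955
open Cfsg.Agent.Helper51.TI5955 Cfsg.Agent.Helper70.TI5955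
open Cfsg.Agent.Helper39.TI5961 Cfsg.Agent.Helper58.TI5961 Cfsg.Agent.Helper59.TI5961
open Cfsg.Agent.Helper60.TI5961 Cfsg.Agent.Helper31.TI5961 Cfsg.Agent.Helper19.TI5961

section geom

variable {F : Type*} [Field F] {V : Type*} [AddCommGroup V] [Module F V] [FiniteDimensional F V]
  (B : LinearMap.BilinForm F V)

/-- the key claim of NDBLK: a combination of the chain vectors which is orthogonal to all chain
vectors has zero coefficients -/
theorem nd_blk_coeff (N : Module.End F V) (a s : ℕ) (u : Fin s → V)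
    (hz : ∀ j l (i i' : ℕ), a ≤ i + i' → B ((N ^ i) (u j)) ((N ^ i') (u l)) = 0)
    (ha : ∀ j l (i i' : ℕ), i + i' + 1 = a →
      B ((N ^ i) (u j)) ((N ^ i') (u l)) = (-1) ^ i * B (u j) ((N ^ (a - 1)) (u l)))
    (hβ : ∀ c : Fin s → F, (∀ l, ∑ j, c j * B (u j) ((N ^ (a - 1)) (u l)) = 0) → c = 0)
    (α : Fin s × Fin a → F)
    (hα : ∀ (l : Fin s) (i' : ℕ), i' < a →
      B (∑ x : Fin s × Fin a, α x • (N ^ (x.2 : ℕ)) (u x.1)) ((N ^ i') (u l)) = 0) :
    ∀ x, α x = 0 := by
  classical
  have hα' : ∀ (l : Fin s) (i' : ℕ), i' < a →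
      ∑ j : Fin s, ∑ i : Fin a, α (j, i) * B ((N ^ (i : ℕ)) (u j)) ((N ^ i') (u l)) = 0 := by
    intro l i' hi'
    have h1 := hα l i' hi'
    rw [map_sum, LinearMap.sum_apply, Fintype.sum_prod_type] at h1
    rw [← h1]
    apply Finset.sum_congr rfl
    intro j _
    apply Finset.sum_congr rfl
    intro i _
    rw [map_smul, LinearMap.smul_apply, smul_eq_mul]
  have key : ∀ n : ℕ, ∀ i : Fin a, (i : ℕ) = n → ∀ j, α (j, i) = 0 := by
    intro n
    induction n using Nat.strong_induction_on with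
    | _ n ih =>
      intro i hin j
      have hkey : ∀ l, ∑ j' : Fin s, (α (j', i) * (-1) ^ (i : ℕ)) * B (u j') ((N ^ (a - 1)) (u l))
          = 0 := by
        intro l
        have h1 := hα' l (a - 1 - (i : ℕ)) (by have := i.2; omega)
        rw [← h1]
        apply Finset.sum_congr rfl
        intro j' _
        rw [Finset.sum_eq_single i]
        · rw [ha j' l (i : ℕ) (a - 1 - (i : ℕ)) (by have := i.2; omega)]
          ring
        · intro i' _ hne
          rcases lt_or_gt_of_ne (Fin.val_ne_of_ne hne) with hlt | hgt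
          · rw [ih (i' : ℕ) (hin ▸ hlt) i' rfl j', zero_mul]
          · rw [hz j' l (i' : ℕ) (a - 1 - (i : ℕ)) (by have := i.2; omega), mul_zero]
        · intro h
          exact absurd (Finset.mem_univ _) h
      have h2 := congrFun (hβ _ hkey) j
      simp only [Pi.zero_apply] at h2
      rcases mul_eq_zero.1 h2 with h3 | h3
      · exact h3
      · exact absurd h3 (pow_ne_zero _ (neg_ne_zero.2 one_ne_zero))
  rintro ⟨j, i⟩
  exact key (i : ℕ) i rfl j

/-- NDBLK (case a): anti-triangular Gram criterion.  If `∑ α (j,i) • N ^ i (u j)` is orthogonal to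
the span then `α = 0` (induction on the lowest `i`, pairing with `N ^ (a - 1 - i) (u l)`); this gives
both claims. -/
theorem nd_blk (N : Module.End F V) (a s : ℕ) (u : Fin s → V)
    (hz : ∀ j l (i i' : ℕ), a ≤ i + i' → B ((N ^ i) (u j)) ((N ^ i') (u l)) = 0)
    (ha : ∀ j l (i i' : ℕ), i + i' + 1 = a →
      B ((N ^ i) (u j)) ((N ^ i') (u l)) = (-1) ^ i * B (u j) ((N ^ (a - 1)) (u l)))
    (hβ : ∀ c : Fin s → F, (∀ l, ∑ j, c j * B (u j) ((N ^ (a - 1)) (u l)) = 0) → c = 0) :
    LinearIndependent F (fun x : Fin s × Fin a => (N ^ (x.2 : ℕ)) (u x.1)) ∧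
    NondegOn B (Submodule.span F (Set.range (fun x : Fin s × Fin a => (N ^ (x.2 : ℕ)) (u x.1)))) := by
  classical
  constructor
  · rw [Fintype.linearIndependent_iff]
    intro α hα
    apply nd_blk_coeff B N a s u hz ha hβ α
    intro l i' _
    rw [hα, map_zero, LinearMap.zero_apply]
  · intro v hv hvw
    obtain ⟨α, rfl⟩ := (Submodule.mem_span_range_iff_exists_fun F).1 hv
    have h1 := nd_blk_coeff B N a s u hz ha hβ α (by
      intro l i' hi'
      apply hvw
      apply Submodule.subset_span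
      exact ⟨(l, ⟨i', hi'⟩), rfl⟩)
    apply Finset.sum_eq_zero
    intro x _
    rw [h1 x, zero_smul]

end geom

end Cfsg.Agent.Helper46.TI5956
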