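import Mathlib
import Cfsg.Agent.Helper15.WinterDefs
import Cfsg.Agent.Helper15.WinterFix

/-!
# Piece P4 of CALL S4467 (helper15, Winter's theorem): a large normal subgroup of class `≤ 2`.
-/

set_option autoImplicit false

open Cfsg.Agent.Helper15
open scoped commutatorElement

universe u

namespace Cfsg.Agent.Helper46

theorem winter_exists_M {G : Type u} [Group G] [Finite G] (hsol : Group.IsSolvable G)
    (hab : ∀ A : Subgroup G, A.Normal → (∀ a ∈ A, ∀ b ∈ A, a * b = b * a) →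
      A ≤ Subgroup.center G) :
    ∃ M : Subgroup G, M.Normal ∧ Subgroup.center G ≤ M ∧
      (∀ a ∈ M, ∀ b ∈ M, a * b * a⁻¹ * b⁻¹ ∈ Subgroup.center G) ∧
      (∀ g : G, (∀ m ∈ M, g * m = m * g) → g ∈ Subgroup.center G) := by
  classical
  -- the admissible subgroups
  let Pr : Subgroup G → Prop := fun M => M.Normal ∧ Subgroup.center G ≤ M ∧
      (∀ a ∈ M, ∀ b ∈ M, a * b * a⁻¹ * b⁻¹ ∈ Subgroup.center G)
  have hPr0 : Pr (Subgroup.center G) := by
    refine ⟨inferInstance, le_refl _, ?_⟩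
    intro a ha b hb
    have h1 : a * b * a⁻¹ * b⁻¹ = 1 := by
      have h2 := Subgroup.mem_center_iff.mp ha b
      calc a * b * a⁻¹ * b⁻¹ = a * (b * a⁻¹ * b⁻¹) := by group
        _ = a * (b * a⁻¹ * b⁻¹) := rfl
        _ = (b * a) * a⁻¹ * b⁻¹ := by rw [h2]; group
        _ = 1 := by group
    rw [h1]
    exact Subgroup.one_mem _
  have hne : Nonempty {M : Subgroup G // Pr M} := ⟨⟨_, hPr0⟩⟩
  obtain ⟨⟨M, hMP⟩, hmax⟩ := Finite.exists_max (fun M : {M : Subgroup G // Pr M} => Nat.card M.1)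
  obtain ⟨hMn, hZM, hMc⟩ := hMP
  have hmax' : ∀ A : Subgroup G, Pr A → Nat.card A ≤ Nat.card M := fun A hA => hmax ⟨A, hA⟩
  -- the centralizer of M
  obtain ⟨C, hCdef⟩ : ∃ C : Subgroup G, C = Subgroup.centralizer (M : Set G) := ⟨_, rfl⟩
  have hCmem : ∀ g : G, g ∈ C ↔ ∀ m ∈ M, m * g = g * m := by
    intro g
    rw [hCdef, Subgroup.mem_centralizer_iff]
    rfl
  have hCn : C.Normal := by
    constructor
    intro g hg x
    rw [hCmem] at hg ⊢
    intro m hm
    have h1 : x⁻¹ * m * x ∈ M := by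
      have := hMn.conj_mem m hm x⁻¹
      simpa using this
    have h2 := hg _ h1
    calc m * (x * g * x⁻¹) = x * ((x⁻¹ * m * x) * g) * x⁻¹ := by group
      _ = x * (g * (x⁻¹ * m * x)) * x⁻¹ := by rw [h2]
      _ = x * g * x⁻¹ * m := by group
  -- M ⊓ C is central
  have hMC : M ⊓ C ≤ Subgroup.center G := by
    apply hab
    · exact Subgroup.normal_inf_normal M C
    · intro a ha b hb
      have h1 := (hCmem a).mp ha.2 b hb.1
      exact h1.symm
  -- C ≤ M
  have hCM : C ≤ M := by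
    by_contra hcon
    obtain ⟨n, hn⟩ := (Group.isSolvable_def G).mp hsol
    have hex : ∃ j : ℕ, C ⊓ derivedSeries G j ≤ M := ⟨n, by rw [hn]; simp⟩
    have hj0 : Nat.find hex ≠ 0 := by
      intro h0
      have h1 := Nat.find_spec hex
      rw [h0, derivedSeries_zero, inf_top_eq] at h1
      exact hcon h1
    obtain ⟨i, hi⟩ := Nat.exists_eq_succ_of_ne_zero hj0
    have hi1 : ¬ C ⊓ derivedSeries G i ≤ M := Nat.find_min hex (by rw [hi]; exact Nat.lt_succ_self i)
    have hi2 : C ⊓ derivedSeries G (i + 1) ≤ M := by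
      have h1 := Nat.find_spec hex
      rw [hi] at h1
      exact h1
    obtain ⟨K, hKdef⟩ : ∃ K : Subgroup G, K = C ⊓ derivedSeries G i := ⟨_, rfl⟩
    have hDn : (derivedSeries G i).Normal := derivedSeries_normal G i
    have hKn : K.Normal := by rw [hKdef]; exact Subgroup.normal_inf_normal C (derivedSeries G i)
    have hKC : K ≤ C := by rw [hKdef]; exact inf_le_left
    have hKK : ⁅K, K⁆ ≤ Subgroup.center G := by
      have h1 : ⁅K, K⁆ ≤ C := le_trans (Subgroup.commutator_le_right K K) hKC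
      have h2 : ⁅K, K⁆ ≤ derivedSeries G (i + 1) := by
        rw [derivedSeries_succ]
        apply Subgroup.commutator_mono <;> (rw [hKdef]; exact inf_le_right)
      exact le_trans (le_inf (le_trans (le_inf h1 h2) hi2) h1) hMC
    have hKc : ∀ a ∈ K, ∀ b ∈ K, a * b * a⁻¹ * b⁻¹ ∈ Subgroup.center G := by
      intro a ha b hb
      have h1 : ⁅a, b⁆ ∈ ⁅K, K⁆ := Subgroup.commutator_mem_commutator ha hb
      rw [commutatorElement_def] at h1
      exact hKK h1
    have hKM : ∀ k ∈ K, ∀ m ∈ M, m * k = k * m := fun k hk m hm => (hCmem k).mp (hKC hk) m hm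
    have hA : Pr (M ⊔ K) := by
      refine ⟨Subgroup.sup_normal M K, le_trans hZM le_sup_left, ?_⟩
      intro x hx y hy
      obtain ⟨m, hm, k, hk, rfl⟩ := Subgroup.mem_sup_of_normal_right.mp hx
      obtain ⟨m', hm', k', hk', rfl⟩ := Subgroup.mem_sup_of_normal_right.mp hy
      have e1 : k * m' = m' * k := (hKM k hk m' hm').symm
      have e2 : m⁻¹ * k'⁻¹ = k'⁻¹ * m⁻¹ := hKM k'⁻¹ (K.inv_mem hk') m⁻¹ (M.inv_mem hm)
      have hcK := hKc k hk k' hk'
      have hcM := hMc m hm m' hm'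
      have hcomm := Subgroup.mem_center_iff.mp hcK (m * m')
      have h3 : (m * k) * (m' * k') * (m * k)⁻¹ * (m' * k')⁻¹
          = (k * k' * k⁻¹ * k'⁻¹) * (m * m' * m⁻¹ * m'⁻¹) := by
        calc (m * k) * (m' * k') * (m * k)⁻¹ * (m' * k')⁻¹
            = m * (k * m') * k' * k⁻¹ * (m⁻¹ * k'⁻¹) * m'⁻¹ := by group
          _ = m * (m' * k) * k' * k⁻¹ * (k'⁻¹ * m⁻¹) * m'⁻¹ := by rw [e1, e2]
          _ = (m * m') * (k * k' * k⁻¹ * k'⁻¹) * m⁻¹ * m'⁻¹ := by group
          _ = (k * k' * k⁻¹ * k'⁻¹) * (m * m') * m⁻¹ * m'⁻¹ := by rw [hcomm]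
          _ = (k * k' * k⁻¹ * k'⁻¹) * (m * m' * m⁻¹ * m'⁻¹) := by group
      rw [h3]
      exact Subgroup.mul_mem _ hcK hcM
    have hcard := hmax' _ hA
    have hle : M ≤ M ⊔ K := le_sup_left
    have heq : M = M ⊔ K := Subgroup.eq_of_le_of_card_ge hle hcard
    apply hi1
    rw [← hKdef, heq]
    exact le_sup_right
  refine ⟨M, hMn, hZM, hMc, ?_⟩
  intro g hg
  have hgC : g ∈ C := (hCmem g).mpr (fun m hm => (hg m hm).symm)
  exact hMC ⟨hCM hgC, hgC⟩

end Cfsg.Agent.Helper46
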