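import Mathlib
import Cfsg.Agent.Helper15.WinterDefs
import Cfsg.Agent.Helper15.WinterFix

/-!
# Piece P5 of CALL S4467 (helper15, Winter's theorem): nilpotent endgame.
-/

set_option autoImplicit false

open Cfsg.Agent.Helper15

universe u

namespace Cfsg.Agent.Helper46

theorem winter_pclosed_of_central {G : Type u} [Group G] [Finite G] (p : ℕ) (hp : p.Prime)
    (M : Subgroup G) (hM : M.Normal)
    (hcent : ∀ g : G, (∀ m ∈ M, g * m = m * g) → g ∈ Subgroup.center G)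
    (hall : ∀ x : G, IsPEl p x → ∀ m ∈ M, m * x * m⁻¹ * x⁻¹ ∈ Subgroup.center G) :
    PClosed p G := by
  have hF : Fact p.Prime := ⟨hp⟩
  let C1 : Subgroup G :=
    { carrier := {g | ∀ m ∈ M, m * g * m⁻¹ * g⁻¹ ∈ Subgroup.center G}
      one_mem' := by
        intro m _
        have h1 : m * 1 * m⁻¹ * (1 : G)⁻¹ = 1 := by group
        rw [h1]
        exact Subgroup.one_mem _
      mul_mem' := by
        intro a b ha hb m hm
        have h1 := ha m hm
        have h2 := hb m hm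
        have hc := Subgroup.mem_center_iff.mp h2 a⁻¹
        have h3 : m * (a * b) * m⁻¹ * (a * b)⁻¹
            = (m * a * m⁻¹ * a⁻¹) * (m * b * m⁻¹ * b⁻¹) := by
          calc m * (a * b) * m⁻¹ * (a * b)⁻¹
              = m * a * m⁻¹ * ((m * b * m⁻¹ * b⁻¹) * a⁻¹) := by group
            _ = m * a * m⁻¹ * (a⁻¹ * (m * b * m⁻¹ * b⁻¹)) := by rw [hc]
            _ = (m * a * m⁻¹ * a⁻¹) * (m * b * m⁻¹ * b⁻¹) := by group
        rw [h3]
        exact Subgroup.mul_mem _ h1 h2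
      inv_mem' := by
        intro a ha m hm
        have h1 := Subgroup.inv_mem _ (ha m hm)
        have hc := Subgroup.mem_center_iff.mp h1 a⁻¹
        have h3 : m * a⁻¹ * m⁻¹ * a⁻¹⁻¹ = (m * a * m⁻¹ * a⁻¹)⁻¹ := by
          calc m * a⁻¹ * m⁻¹ * a⁻¹⁻¹ = a⁻¹ * (m * a * m⁻¹ * a⁻¹)⁻¹ * a := by group
            _ = (m * a * m⁻¹ * a⁻¹)⁻¹ * a⁻¹ * a := by rw [hc]
            _ = (m * a * m⁻¹ * a⁻¹)⁻¹ := by group
        rw [h3]
        exact h1 }
  have key : ∀ a ∈ C1, ∀ b ∈ C1, ∀ m ∈ M,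
      (a * b) * m * (a * b)⁻¹ = (b * a) * m * (b * a)⁻¹ := by
    intro a ha b hb m hm
    obtain ⟨za, hza, ea⟩ : ∃ za ∈ Subgroup.center G, a * m * a⁻¹ = za * m :=
      ⟨(m * a * m⁻¹ * a⁻¹)⁻¹, Subgroup.inv_mem _ (ha m hm), by group⟩
    obtain ⟨zb, hzb, eb⟩ : ∃ zb ∈ Subgroup.center G, b * m * b⁻¹ = zb * m :=
      ⟨(m * b * m⁻¹ * b⁻¹)⁻¹, Subgroup.inv_mem _ (hb m hm), by group⟩
    have hca := Subgroup.mem_center_iff.mp hza
    have hcb := Subgroup.mem_center_iff.mp hzb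
    calc (a * b) * m * (a * b)⁻¹ = a * (b * m * b⁻¹) * a⁻¹ := by group
      _ = a * (zb * m) * a⁻¹ := by rw [eb]
      _ = (a * zb) * m * a⁻¹ := by group
      _ = (zb * a) * m * a⁻¹ := by rw [hcb a]
      _ = zb * (a * m * a⁻¹) := by group
      _ = zb * (za * m) := by rw [ea]
      _ = (zb * za) * m := by group
      _ = (za * zb) * m := by rw [hca zb]
      _ = za * (zb * m) := by group
      _ = za * (b * m * b⁻¹) := by rw [eb]
      _ = (za * b) * m * b⁻¹ := by group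
      _ = (b * za) * m * b⁻¹ := by rw [hca b]
      _ = b * (za * m) * b⁻¹ := by group
      _ = b * (a * m * a⁻¹) * b⁻¹ := by rw [ea]
      _ = (b * a) * m * (b * a)⁻¹ := by group
  have hcomm : ∀ a ∈ C1, ∀ b ∈ C1, a * b * a⁻¹ * b⁻¹ ∈ Subgroup.center G := by
    intro a ha b hb
    apply hcent
    intro m hm
    have h := key a⁻¹ (C1.inv_mem ha) b⁻¹ (C1.inv_mem hb) m hm
    calc (a * b * a⁻¹ * b⁻¹) * m
        = (a * b) * ((a⁻¹ * b⁻¹) * m * (a⁻¹ * b⁻¹)⁻¹) * (b * a)⁻¹ := by group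
      _ = (a * b) * ((b⁻¹ * a⁻¹) * m * (b⁻¹ * a⁻¹)⁻¹) * (b * a)⁻¹ := by rw [h]
      _ = m * (a * b * a⁻¹ * b⁻¹) := by group
  have hnil : Group.IsNilpotent ↥C1 := by
    apply Subgroup.isNilpotent_of_ker_le_center (Abelianization.of : ↥C1 →* Abelianization ↥C1)
    · rw [Abelianization.ker_of, commutator_def, Subgroup.commutator_le]
      intro x _ y _
      rw [Subgroup.mem_center_iff]
      intro g
      apply Subtype.ext
      have h1 := hcomm x x.2 y y.2
      have h2 := Subgroup.mem_center_iff.mp h1 (g : G)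
      simp only [Subgroup.coe_mul, commutatorElement_def, Subgroup.coe_inv]
      exact h2
  have hPC : PClosed p ↥C1 := by
    obtain ⟨P⟩ : Nonempty (Sylow p ↥C1) := inferInstance
    have htfae := (Group.isNilpotent_of_finite_tfae (G := ↥C1)).out 0 3
    have hPn : (P : Subgroup ↥C1).Normal := htfae.mp hnil p hF P
    exact pclosed_of_sylow_normal P hPn
  intro x y hx hy
  have hxC : x ∈ C1 := fun m hm => hall x hx m hm
  have hyC : y ∈ C1 := fun m hm => hall y hy m hm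
  have hx' : IsPEl p (⟨x, hxC⟩ : ↥C1) := by
    obtain ⟨k, hk⟩ := hx
    exact ⟨k, Subtype.ext (by simpa using hk)⟩
  have hy' : IsPEl p (⟨y, hyC⟩ : ↥C1) := by
    obtain ⟨k, hk⟩ := hy
    exact ⟨k, Subtype.ext (by simpa using hk)⟩
  have h := (hPC _ _ hx' hy').map C1.subtype
  simpa using h

end Cfsg.Agent.Helper46
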