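import Mathlib

/-!
# CALL S4278 (helper18), PIECE F2SQ: sums of two squares in a finite field of odd order
-/

set_option autoImplicit false

namespace Cfsg.Agent.Helper46.G2O

section

variable {F : Type*} [Field F]

/-- PIECE F2SQ (finite fields): every nonzero element is `p² + q²` with `q ≠ 0`. -/
theorem g2o_two_squares [Fintype F] (hF : Odd (Fintype.card F)) (N : F) (hN : N ≠ 0) :
    ∃ p q : F, q ≠ 0 ∧ p ^ 2 + q ^ 2 = N := by
  classical
  obtain ⟨a, b, hab⟩ : ∃ a b : F, (Polynomial.X ^ 2 : Polynomial F).eval a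
      + (Polynomial.X ^ 2 - Polynomial.C N : Polynomial F).eval b = 0 :=
    FiniteField.exists_root_sum_quadratic (Polynomial.degree_X_pow 2)
      (Polynomial.degree_X_pow_sub_C (by decide) _) (Nat.odd_iff.mp hF)
  simp only [Polynomial.eval_pow, Polynomial.eval_X, Polynomial.eval_sub, Polynomial.eval_C] at hab
  have hsum : a ^ 2 + b ^ 2 = N := by linear_combination hab
  by_cases hb : b = 0
  · refine ⟨b, a, ?_, by rw [add_comm]; exact hsum⟩
    intro ha
    rw [ha, hb] at hsum
    exact hN (by rw [← hsum]; ring)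
  · exact ⟨a, b, hb, hsum⟩

end

end Cfsg.Agent.Helper46.G2O
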