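import Mathlib

/-!
Piece G of CALL S5949 (helper90): counting the `m`-dimensional subspaces of `F ^ n`.
-/

set_option autoImplicit false

open Polynomial

namespace Cfsg.Agent.Helper46

theorem bgl_grass_count {F : Type*} [Field F] [Fintype F] (n m : ℕ) (hmn : m ≤ n) :
    Nat.card {W : Submodule F (Fin n → F) // Module.finrank F ↥W = m} * ∏ j : Fin m, (Fintype.card F ^ m - Fintype.card F ^ (j : ℕ)) = ∏ j : Fin m, (Fintype.card F ^ n - Fintype.card F ^ (j : ℕ)) := by
  classical
  have hV : Module.finrank F (Fin n → F) = n := Module.finrank_fin_fun F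
  let _ : Fintype {W : Submodule F (Fin n → F) // Module.finrank F ↥W = m} := Fintype.ofFinite _
  let f : {s : Fin m → (Fin n → F) // LinearIndependent F s} →
      {W : Submodule F (Fin n → F) // Module.finrank F ↥W = m} :=
    fun s => ⟨Submodule.span F (Set.range s.1), by
      rw [finrank_span_eq_card s.2, Fintype.card_fin]⟩
  have hfib : ∀ W : {W : Submodule F (Fin n → F) // Module.finrank F ↥W = m},
      Nat.card {s // f s = W} = ∏ j : Fin m, (Fintype.card F ^ m - Fintype.card F ^ (j : ℕ)) := by
    intro W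
    have e : {s // f s = W} ≃ {t : Fin m → ↥W.1 // LinearIndependent F t} :=
      { toFun := fun s => ⟨fun i => ⟨s.1.1 i, by
            have h := congrArg Subtype.val s.2
            have h' : Submodule.span F (Set.range s.1.1) = W.1 := h
            rw [← h']
            exact Submodule.subset_span (Set.mem_range_self i)⟩, by
            apply LinearIndependent.of_comp W.1.subtype
            exact s.1.2⟩
        invFun := fun t => ⟨⟨fun i => (t.1 i : Fin n → F), by
            have := LinearIndependent.map' t.2 W.1.subtype (Submodule.ker_subtype _)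
            exact this⟩, by
            apply Subtype.ext
            show Submodule.span F (Set.range fun i => (t.1 i : Fin n → F)) = W.1
            have hle : Submodule.span F (Set.range fun i => (t.1 i : Fin n → F)) ≤ W.1 := by
              rw [Submodule.span_le]
              rintro _ ⟨i, rfl⟩
              exact (t.1 i).2
            apply Submodule.eq_of_le_of_finrank_eq hle
            have hli : LinearIndependent F (fun i => (t.1 i : Fin n → F)) :=
              LinearIndependent.map' t.2 W.1.subtype (Submodule.ker_subtype _)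
            rw [finrank_span_eq_card hli, Fintype.card_fin, W.2]⟩
        left_inv := fun s => by
          apply Subtype.ext
          apply Subtype.ext
          rfl
        right_inv := fun t => by
          apply Subtype.ext
          rfl }
    rw [Nat.card_congr e, card_linearIndependent (le_of_eq W.2.symm), W.2]
  have h1 : Nat.card {s : Fin m → (Fin n → F) // LinearIndependent F s}
      = ∑ W : {W : Submodule F (Fin n → F) // Module.finrank F ↥W = m},
          Nat.card {s // f s = W} := by
    rw [← Nat.card_sigma]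
    exact Nat.card_congr (Equiv.sigmaFiberEquiv f).symm
  rw [card_linearIndependent (by rw [hV]; exact hmn), hV] at h1
  rw [h1, Finset.sum_congr rfl (fun W _ => hfib W), Finset.sum_const, Finset.card_univ,
    smul_eq_mul, Nat.card_eq_fintype_card]

/-- The Grassmannian count with the powers of `q` cancelled. -/
theorem bgl_grass_count_red {F : Type*} [Field F] [Fintype F] (n m : ℕ) (hmn : m ≤ n) :
    Nat.card {W : Submodule F (Fin n → F) // Module.finrank F ↥W = m} *
      ∏ j : Fin m, (Fintype.card F ^ (m - (j : ℕ)) - 1)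
      = ∏ j : Fin m, (Fintype.card F ^ (n - (j : ℕ)) - 1) := by
  have hq : 0 < Fintype.card F := Fintype.card_pos
  have hfac : ∀ k : ℕ, m ≤ k → ∏ j : Fin m, (Fintype.card F ^ k - Fintype.card F ^ (j : ℕ))
      = (∏ j : Fin m, Fintype.card F ^ (j : ℕ)) * ∏ j : Fin m, (Fintype.card F ^ (k - (j : ℕ)) - 1) := by
    intro k hk
    rw [← Finset.prod_mul_distrib]
    apply Finset.prod_congr rfl
    intro j _
    have hj : (j : ℕ) ≤ k := (Nat.le_of_lt j.2).trans hk
    rw [Nat.mul_sub, mul_one, ← pow_add, Nat.add_sub_cancel' hj]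
  have h := bgl_grass_count (F := F) n m hmn
  rw [hfac m le_rfl, hfac n hmn, ← mul_assoc,
    mul_comm (Nat.card _) (∏ j : Fin m, Fintype.card F ^ (j : ℕ)), mul_assoc] at h
  have hpos : 0 < ∏ j : Fin m, Fintype.card F ^ (j : ℕ) :=
    Finset.prod_pos (fun j _ => Nat.pow_pos hq)
  exact Nat.eq_of_mul_eq_mul_left hpos h

theorem bgl_grass_not_dvd_char {F : Type*} [Field F] [Fintype F] (p : ℕ) [Fact p.Prime] [CharP F p] (n m : ℕ) (hmn : m ≤ n) :
    ¬ p ∣ Nat.card {W : Submodule F (Fin n → F) // Module.finrank F ↥W = m} := by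
  have hp : p.Prime := Fact.out
  intro hdvd
  have h := bgl_grass_count_red (F := F) n m hmn
  have h2 : p ∣ ∏ j : Fin m, (Fintype.card F ^ (n - (j : ℕ)) - 1) := by
    rw [← h]; exact Dvd.dvd.mul_right hdvd _
  rw [hp.prime.dvd_finsetProd_iff] at h2
  obtain ⟨j, -, hj⟩ := h2
  have hpq : p ∣ Fintype.card F := by
    have : ((Fintype.card F : ℕ) : F) = 0 := Nat.cast_card_eq_zero F
    exact (CharP.cast_eq_zero_iff F p _).mp this
  have hnj : n - (j : ℕ) ≠ 0 := by
    have := j.2
    omega
  have h3 : p ∣ Fintype.card F ^ (n - (j : ℕ)) := dvd_pow hpq hnj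
  have h4 : 1 ≤ Fintype.card F ^ (n - (j : ℕ)) := Nat.one_le_pow _ _ Fintype.card_pos
  have h5 : p ∣ 1 := by
    have := Nat.dvd_sub h3 hj
    rwa [Nat.sub_sub_self h4] at this
  exact hp.one_lt.ne' (Nat.dvd_one.mp h5)

theorem bgl_grass_dvd {F : Type*} [Field F] [Fintype F] (p : ℕ) [Fact p.Prime] [CharP F p] (n m : ℕ) (hmn : m ≤ n) (r : ℕ) [Fact r.Prime] (hrp : r ≠ p)
    (hr : r ∣ Nat.card {W : Submodule F (Fin n → F) // Module.finrank F ↥W = m}) : ∃ j, j < m ∧ orderOf ((Fintype.card F : ℕ) : ZMod r) ∣ n - j := by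
  have hrr : r.Prime := Fact.out
  have h := bgl_grass_count_red (F := F) n m hmn
  have h2 : r ∣ ∏ j : Fin m, (Fintype.card F ^ (n - (j : ℕ)) - 1) := by
    rw [← h]; exact Dvd.dvd.mul_right hr _
  rw [hrr.prime.dvd_finsetProd_iff] at h2
  obtain ⟨j, -, hj⟩ := h2
  refine ⟨j, j.2, ?_⟩
  apply orderOf_dvd_of_pow_eq_one
  have h4 : 1 ≤ Fintype.card F ^ (n - (j : ℕ)) := Nat.one_le_pow _ _ Fintype.card_pos
  have h5 : ((Fintype.card F ^ (n - (j : ℕ)) : ℕ) : ZMod r) = 1 := by
    have : Fintype.card F ^ (n - (j : ℕ)) = (Fintype.card F ^ (n - (j : ℕ)) - 1) + 1 := by omega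
    rw [this, Nat.cast_add, (ZMod.natCast_eq_zero_iff _ _).mpr hj, zero_add, Nat.cast_one]
  rw [← h5, Nat.cast_pow]

end Cfsg.Agent.Helper46
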