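import Mathlib
import Cfsg.Agent.Helper30.UGDefs

set_option autoImplicit false

/-! Helper46: piece A3 of CALL S2708 (helper30): every involutory graph automorphism of
`PSU_n(q)` is some `ugr g`. -/

namespace Cfsg.Agent.Helper46.UGA3

open Matrix Cfsg.Agent.Helper44.PSLn Cfsg.Agent.Helper44.PSUn Cfsg.Agent.Helper43.GraphAut
open Cfsg.Agent.Helper30.UG

universe u v

variable {F : Type u} [Field F] [Fintype F] {q n : ℕ}

theorem uga3_tau_order (hF : Fintype.card F = q ^ 2) : orderOf (ulang_tau hF) = 2 := by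
  have : Fact (Nat.Prime 2) := ⟨Nat.prime_two⟩
  apply orderOf_eq_prime
  · rw [pow_two]
    apply RingEquiv.ext
    intro a
    exact ulang_tau_tau hF a
  · exact ulang_tau_ne_one hF

/-- A3 -/
theorem ug_exists (hF : Fintype.card F = q ^ 2) (p : ℕ) [Fact p.Prime] [CharP F p]
    (hn : 3 ≤ n) (h32 : ¬ (n = 3 ∧ q = 2)) (β : MulAut (Cfsg.PSU n F q))
    (hβ : Cfsg.IsGraphAutClassPSU β) (h2 : orderOf β = 2) :
    ∃ g : ↥(Cfsg.GU n F q), β = ugr hF g := by
  obtain ⟨_, δ, φ, σ, hev, hδ, hφ, rfl⟩ := hβ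
  have hδmem : δ ∈ Cfsg.inndiagPSU n F q := Subgroup.subset_closure hδ
  obtain ⟨g, rfl⟩ := (ulang_mem_inndiag δ).mp hδmem
  have hφ' : φ = uF σ := ulang_eq_uF_of_std σ φ hφ
  subst hφ'
  have hsq : (uD g * uF σ) * (uD g * uF σ) = (1 : MulAut (Cfsg.PSU n F q)) := by
    rw [← pow_two, ← h2, pow_orderOf_eq_one]
  rw [usemi_mul] at hsq
  have h1 : σ * σ = 1 := by
    apply udecomp_unique hF p hn h32 (g * mapGU σ g) 1 (σ * σ) 1
    rw [hsq, map_one, map_one, one_mul]
  have hdvd : orderOf σ ∣ 2 := orderOf_dvd_of_pow_eq_one (by rw [pow_two]; exact h1)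
  have ho : orderOf σ = 2 := by
    rcases (Nat.dvd_prime Nat.prime_two).mp hdvd with h | h
    · rw [h] at hev
      exact absurd hev (by decide)
    · exact h
  obtain ⟨f, _, hf⟩ := FiniteField.card F p
  have hστ : σ = ulang_tau hF :=
    lang_involution_unique p f hf σ (ulang_tau hF) ho (uga3_tau_order hF)
  exact ⟨g, by rw [hστ]; rfl⟩

end Cfsg.Agent.Helper46.UGA3
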