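import Mathlib

set_option autoImplicit false

namespace Cfsg.Agent.Helper46

open Matrix Module

section abs

variable {F : Type*} [Field F] {K' : Type*} [Field K'] [Algebra F K'] {V : Type*}
  [AddCommGroup V] [Module F V] [Module K' V] [IsScalarTower F K' V] [FiniteDimensional F V]

omit [FiniteDimensional F V] in
/-- Artin-style descent: fixed vectors that are `F`-independent are `K'`-independent. -/
theorem c3e_desc_li (σ : K' ≃ₐ[F] K')
    (hfix : ∀ c : K', σ c = c → c ∈ Set.range (algebraMap F K')) (T : Module.End F V)
    (hT : ∀ (c : K') (v : V), T (c • v) = σ c • T v) {ι : Type*} (v : ι → V)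
    (hv : LinearIndependent F v) (hTv : ∀ i, T (v i) = v i) : LinearIndependent K' v := by
  classical
  rw [linearIndependent_iff']
  intro s
  induction s using Finset.induction_on with
  | empty => intro c _ i hi; simp at hi
  | insert a s ha ih =>
    intro c hc
    rw [Finset.sum_insert ha] at hc
    by_cases hca : c a = 0
    · rw [hca, zero_smul, zero_add] at hc
      intro i hi
      rcases Finset.mem_insert.mp hi with rfl | hi'
      · exact hca
      · exact ih c hc i hi'
    · exfalso
      -- normalise
      have h1 : v a + ∑ i ∈ s, ((c a)⁻¹ * c i) • v i = 0 := by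
        have := congrArg (fun w => (c a)⁻¹ • w) hc
        simp only [smul_add, smul_zero, Finset.smul_sum, smul_smul] at this
        rw [inv_mul_cancel₀ hca, one_smul] at this
        exact this
      have h2 : v a + ∑ i ∈ s, σ ((c a)⁻¹ * c i) • v i = 0 := by
        have := congrArg T h1
        rw [map_add, map_sum, map_zero, hTv] at this
        rw [← this]
        congr 1
        refine Finset.sum_congr rfl fun i _ => ?_
        rw [hT, hTv]
      have h3 : ∑ i ∈ s, (σ ((c a)⁻¹ * c i) - (c a)⁻¹ * c i) • v i = 0 := by
        have : ∑ i ∈ s, (σ ((c a)⁻¹ * c i) - (c a)⁻¹ * c i) • v i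
            = (v a + ∑ i ∈ s, σ ((c a)⁻¹ * c i) • v i)
              - (v a + ∑ i ∈ s, ((c a)⁻¹ * c i) • v i) := by
          simp only [sub_smul, Finset.sum_sub_distrib]
          abel
        rw [this, h1, h2, sub_zero]
      have h4 := ih _ h3
      have h5 : ∀ i ∈ s, ∃ f : F, algebraMap F K' f = (c a)⁻¹ * c i := by
        intro i hi
        exact hfix _ (sub_eq_zero.mp (h4 i hi))
      choose! f hf using h5
      have h6 : ∑ i ∈ insert a s, (Function.update f a 1) i • v i = 0 := by
        rw [Finset.sum_insert ha, Function.update_self, one_smul, ← h1]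
        congr 1
        refine Finset.sum_congr rfl fun i hi => ?_
        have hia : i ≠ a := fun h => ha (h ▸ hi)
        rw [Function.update_of_ne hia, ← hf i hi, algebraMap_smul]
      have h7 := (linearIndependent_iff'.mp hv) (insert a s) _ h6 a (Finset.mem_insert_self a s)
      rw [Function.update_self] at h7
      exact one_ne_zero h7

/-- PIECE DESC -/
theorem c3e_desc [Finite F] [Finite K'] (σ : K' ≃ₐ[F] K')
    (hfix : ∀ c : K', σ c = c → c ∈ Set.range (algebraMap F K')) (T : Module.End F V)
    (hT : ∀ (c : K') (v : V), T (c • v) = σ c • T v) :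
    Module.finrank F K' * Module.finrank F (LinearMap.ker (T - 1)) ≤ Module.finrank F V := by
  classical
  have hfin : Module.Finite K' V := Module.Finite.of_restrictScalars_finite F K' V
  obtain ⟨n, hn⟩ : ∃ n : ℕ, n = Module.finrank F (LinearMap.ker (T - 1)) := ⟨_, rfl⟩
  have b : Basis (Fin n) F (LinearMap.ker (T - 1)) := by
    rw [hn]
    exact Module.finBasis F _
  have hv : LinearIndependent F (fun i => ((b i : LinearMap.ker (T - 1)) : V)) :=
    b.linearIndependent.map' (LinearMap.ker (T - 1)).subtype (Submodule.ker_subtype _)
  have hTv : ∀ i, T ((b i : LinearMap.ker (T - 1)) : V) = ((b i : LinearMap.ker (T - 1)) : V) := by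
    intro i
    have := (b i).2
    rw [LinearMap.mem_ker, LinearMap.sub_apply, sub_eq_zero] at this
    exact this
  have hK := c3e_desc_li σ hfix T hT _ hv hTv
  have hle := hK.fintype_card_le_finrank
  rw [Fintype.card_fin] at hle
  rw [← hn, ← Module.finrank_mul_finrank F K' V]
  exact Nat.mul_le_mul_left _ hle

end abs

end Cfsg.Agent.Helper46
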