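import Mathlib
import Cfsg.Prelude.Def_GeometricClasses
import Cfsg.Agent.Helper90.SFRDefs
import Cfsg.Agent.Helper34.SFRCOMB
import Cfsg.Agent.Helper47.SFRCENT

/-!
# S5965 piece GOODEX (for helper90), core: the exceptional case `n = r ∈ {3, 5}`, `q = q₀²`

The core takes the statements of the pieces DETB, DIAG, RATEX, TR (for `n = r`) as hypotheses;
`SFRGOODEX.lean` instantiates them.
-/

set_option autoImplicit false

namespace Cfsg.Agent.Helper46

open Module Polynomial Cfsg.Agent.Helper90.SFR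

/-- Dimension of an eigenspace of a diagonalised endomorphism. -/
theorem sfrx_finrank_ker_eigen {F V : Type*} [Field F] [AddCommGroup V] [Module F V]
    [FiniteDimensional F V] {ι : Type*} [Fintype ι] (b : Basis ι F V) (T : V →ₗ[F] V)
    (lam : ι → F) (hb : ∀ i, T (b i) = lam i • b i) (ξ : F) :
    finrank F (LinearMap.ker (T - ξ • (1 : Module.End F V))) = Nat.card {i // lam i = ξ} := by
  classical
  have hker : LinearMap.ker (T - ξ • (1 : Module.End F V)) =
      Submodule.span F (Set.range fun i : {i // lam i = ξ} => b i) := by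
    apply le_antisymm
    · intro v hv
      rw [LinearMap.mem_ker] at hv
      have hrepr : ∀ i, b.repr v i * (lam i - ξ) = 0 := by
        intro i
        have hTv : T v = ∑ j, (b.repr v j * lam j) • b j := by
          conv_lhs => rw [← b.sum_repr v]
          rw [map_sum]
          refine Finset.sum_congr rfl fun j _ => ?_
          rw [map_smul, hb, smul_smul]
        have h1 : b.repr (T v) i = b.repr v i * lam i := by
          rw [hTv]; exact congrFun (b.repr_sum_self _) i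
        have h2 := congrArg (fun w => b.repr w i) hv
        simp only [LinearMap.sub_apply, LinearMap.smul_apply, Module.End.one_apply, map_sub,
          map_smul, Finsupp.sub_apply, Finsupp.smul_apply, smul_eq_mul, map_zero,
          Finsupp.zero_apply] at h2
        rw [h1] at h2
        rw [mul_sub, mul_comm (b.repr v i) ξ]; exact h2
      rw [← b.sum_repr v]
      refine Submodule.sum_mem _ fun i _ => ?_
      by_cases hi : lam i = ξ
      · exact Submodule.smul_mem _ _ (Submodule.subset_span ⟨⟨i, hi⟩, rfl⟩)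
      · have h0 : b.repr v i = 0 := by
          rcases mul_eq_zero.mp (hrepr i) with h | h
          · exact h
          · exact absurd (sub_eq_zero.mp h) hi
        rw [h0, zero_smul]; exact Submodule.zero_mem _
    · refine Submodule.span_le.mpr ?_
      rintro _ ⟨⟨i, hi⟩, rfl⟩
      show b i ∈ LinearMap.ker _
      rw [LinearMap.mem_ker]
      simp [hb, hi]
  have hli : LinearIndependent F (fun i : {i // lam i = ξ} => b i) :=
    b.linearIndependent.comp Subtype.val Subtype.val_injective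
  rw [hker, finrank_span_eq_card hli, Nat.card_eq_fintype_card]

/-- powers of `toLin'` -/
theorem sfrx_toLin'_pow {F : Type*} [Field F] {n : ℕ} (A : Matrix (Fin n) (Fin n) F) (k : ℕ) :
    (Matrix.toLin' A) ^ k = Matrix.toLin' (A ^ k) := by
  induction k with
  | zero => simp [Module.End.one_eq_id]
  | succ k ih => rw [pow_succ, pow_succ, ih, Matrix.toLin'_mul, Module.End.mul_eq_comp]

section top
variable {F : Type*} [Field F] [Fintype F]

/-! ## PIECE GOODEX, core -/
theorem sfrx_good_of_exc_core (F₀ : Subfield F) (q₀ : ℕ) (hF₀ : Nat.card ↥F₀ = q₀) (r : ℕ)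
    [Fact r.Prime]
    (hr35 : r = 3 ∨ r = 5) (hrF : (r : F) ≠ 0) (hqk : Fintype.card F = q₀ ^ 2)
    (hv : padicValNat r (q₀ + 1) = 1)
    (x : Matrix.SpecialLinearGroup (Fin r) F) (z : F)
    (hx : ((x ^ r : Matrix.SpecialLinearGroup (Fin r) F) : Matrix (Fin r) (Fin r) F)
      = z • (1 : Matrix (Fin r) (Fin r) F))
    (hDETB : ∀ (y : Matrix (Fin r) (Fin r) F) (w : F), (∀ b : F, b ^ r ≠ w) →
      y ^ r = w • (1 : Matrix (Fin r) (Fin r) F) → ∃ s : ℕ, r = r * s ∧ y.det = w ^ s)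
    (hDIAG : ∀ T : (Fin r → F) →ₗ[F] (Fin r → F), T ^ r = 1 → ∀ ζ : F, ζ ^ r = 1 → ζ ≠ 1 →
      ∃ (b : Basis (Fin r) F (Fin r → F)) (e : Fin r → ℕ), ∀ i, T (b i) = ζ ^ (e i) • b i)
    (hRATEX : ∀ T : (Fin r → F) →ₗ[F] (Fin r → F), T ^ r = 1 →
      (∀ ζ : F, ζ ^ r = 1 →
        finrank F (LinearMap.ker (T - ζ • (1 : Module.End F (Fin r → F))))
          = finrank F (LinearMap.ker (T - ζ⁻¹ • (1 : Module.End F (Fin r → F))))) →
      IsRat F₀ T)
    (hTR : ∀ c : F, c ≠ 0 →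
      IsRat F₀ (c • Matrix.toLin' (x : Matrix (Fin r) (Fin r) F)) →
      (∀ δ : F, δ ≠ 0 → ∃ C : (Fin r → F) →ₗ[F] (Fin r → F),
        C ∘ₗ Matrix.toLin' (x : Matrix (Fin r) (Fin r) F)
          = Matrix.toLin' (x : Matrix (Fin r) (Fin r) F) ∘ₗ C ∧ LinearMap.det C = δ) →
      IsConj F₀ x) : IsConj F₀ x := by
  classical
  have hrp : r.Prime := Fact.out
  have hr2 : r ≠ 2 := by rcases hr35 with h | h <;> omega
  have hr0 : 0 < r := hrp.pos
  -- arithmetic
  have hr1 : r ∣ q₀ + 1 := dvd_of_one_le_padicValNat (by rw [hv])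
  have hq₀ : 1 ≤ q₀ := by
    rw [← hF₀]; exact Nat.card_pos
  have hnd : ¬ r ∣ q₀ - 1 := by
    intro h
    have h2 : r ∣ (q₀ + 1) - (q₀ - 1) := Nat.dvd_sub hr1 h
    have h3 : (q₀ + 1) - (q₀ - 1) = 2 := by omega
    rw [h3] at h2
    have := (Nat.prime_dvd_prime_iff_eq hrp Nat.prime_two).mp h2
    exact hr2 this
  obtain ⟨N₁, hN₁⟩ := hr1
  have hN₁r : ¬ r ∣ N₁ := by
    intro h
    obtain ⟨N₂, hN₂⟩ := h
    have h2 : r ^ 2 ∣ q₀ + 1 := ⟨N₂, by rw [hN₁, hN₂]; ring⟩
    have h3 := (padicValNat_dvd_iff_le (p := r) (by omega : q₀ + 1 ≠ 0)).mp h2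
    omega
  have hq1 : Fintype.card F - 1 = r * (N₁ * (q₀ - 1)) := by
    rw [hqk, ← mul_assoc, ← hN₁]
    have := Nat.sq_sub_sq q₀ 1
    simpa using this
  have hrq : r ∣ Fintype.card F - 1 := ⟨_, hq1⟩
  have hNr : ¬ r ∣ N₁ * (q₀ - 1) := by
    intro h
    rcases (Nat.Prime.dvd_mul hrp).mp h with h | h
    · exact hN₁r h
    · exact hnd h
  -- `z ^ r = 1`
  have hxpow : (x : Matrix (Fin r) (Fin r) F) ^ r = z • (1 : Matrix (Fin r) (Fin r) F) := by
    rw [← hx, Matrix.SpecialLinearGroup.coe_pow]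
  have hzr : z ^ r = 1 := by
    have h1 : ((x ^ r : Matrix.SpecialLinearGroup (Fin r) F) : Matrix (Fin r) (Fin r) F).det = 1 :=
      (x ^ r).det_coe
    rw [hx, Matrix.det_smul, Matrix.det_one, mul_one, Fintype.card_fin] at h1
    exact h1
  have hz0 : z ≠ 0 := by
    intro h
    rw [h, zero_pow hr0.ne'] at hzr
    exact zero_ne_one hzr
  -- `z` is an `r`-th power
  obtain ⟨μ, hμ⟩ : ∃ μ : F, μ ^ r = z := by
    by_contra hcon
    have hz : ∀ b : F, b ^ r ≠ z := fun b hb => hcon ⟨b, hb⟩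
    obtain ⟨s, hs, hdet⟩ := hDETB (x : Matrix (Fin r) (Fin r) F) z hz hxpow
    have hs1 : s = 1 := by
      have : r * s = r * 1 := by omega
      exact Nat.eq_of_mul_eq_mul_left hr0 this
    rw [hs1, pow_one, x.det_coe] at hdet
    exact hz 1 (by rw [one_pow, hdet])
  have hμ0 : μ ≠ 0 := by
    intro h
    rw [h, zero_pow hr0.ne'] at hμ
    exact hz0 hμ.symm
  -- `T`
  have hTx : (Matrix.toLin' (x : Matrix (Fin r) (Fin r) F)) ^ r
      = z • (1 : Module.End F (Fin r → F)) := by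
    rw [sfrx_toLin'_pow, hxpow, map_smul, Matrix.toLin'_one]
    rfl
  have hT : (μ⁻¹ • Matrix.toLin' (x : Matrix (Fin r) (Fin r) F)) ^ r = 1 := by
    rw [_root_.smul_pow, hTx, smul_smul, inv_pow, hμ, inv_mul_cancel₀ hz0, one_smul]
  -- a primitive root
  obtain ⟨u, hu⟩ := exists_prime_orderOf_dvd_card (G := Fˣ) r (by rw [Fintype.card_units]; exact hrq)
  have hζo : orderOf (u : F) = r := by rw [orderOf_units, hu]
  have hζr : (u : F) ^ r = 1 := by rw [← hζo]; exact pow_orderOf_eq_one _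
  have hζ1 : (u : F) ≠ 1 := by
    intro h
    rw [← orderOf_eq_one_iff, hζo] at h
    exact hrp.one_lt.ne' h
  have hζ0 : (u : F) ≠ 0 := u.ne_zero
  obtain ⟨b, e, hb⟩ := hDIAG (μ⁻¹ • Matrix.toLin' (x : Matrix (Fin r) (Fin r) F)) hT
    (u : F) hζr hζ1
  -- `r ∣ ∑ e i`
  have hdet1 : LinearMap.det (μ⁻¹ • Matrix.toLin' (x : Matrix (Fin r) (Fin r) F)) = (μ ^ r)⁻¹ := by
    rw [LinearMap.det_smul, LinearMap.det_toLin', x.det_coe, mul_one, Module.finrank_fin_fun,
      inv_pow]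
  have hdet2 : LinearMap.det (μ⁻¹ • Matrix.toLin' (x : Matrix (Fin r) (Fin r) F))
      = (u : F) ^ (∑ i, e i) := by
    rw [← LinearMap.det_toMatrix b]
    have hmat : LinearMap.toMatrix b b (μ⁻¹ • Matrix.toLin' (x : Matrix (Fin r) (Fin r) F))
        = Matrix.diagonal fun i => (u : F) ^ e i := by
      ext i j
      rw [LinearMap.toMatrix_apply, hb, map_smul, Finsupp.smul_apply, b.repr_self,
        Finsupp.single_apply, Matrix.diagonal_apply]
      by_cases hij : i = j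
      · subst hij; simp
      · rw [if_neg hij, if_neg (Ne.symm hij)]; simp
    rw [hmat, Matrix.det_diagonal, Finset.prod_pow_eq_pow_sum]
  have hsum : r ∣ ∑ i, e i := by
    have h1 : ((u : F) ^ (∑ i, e i)) ^ (N₁ * (q₀ - 1)) = 1 := by
      rw [← hdet2, hdet1, inv_pow, ← pow_mul, ← hq1, FiniteField.pow_card_sub_one_eq_one μ hμ0,
        inv_one]
    rw [← pow_mul] at h1
    have h2 := orderOf_dvd_of_pow_eq_one h1
    rw [hζo] at h2
    rcases (Nat.Prime.dvd_mul hrp).mp h2 with h | h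
    · exact h
    · exact absurd h hNr
  obtain ⟨t, ht⟩ := Cfsg.Agent.Helper34.comb_sym r hr35 e hsum
  -- `T'`
  have hc : ((u : F) ^ t)⁻¹ * μ⁻¹ ≠ 0 := mul_ne_zero (inv_ne_zero (pow_ne_zero _ hζ0)) (inv_ne_zero hμ0)
  have hT'eq : (((u : F) ^ t)⁻¹ * μ⁻¹) • Matrix.toLin' (x : Matrix (Fin r) (Fin r) F)
      = ((u : F) ^ t)⁻¹ • (μ⁻¹ • Matrix.toLin' (x : Matrix (Fin r) (Fin r) F)) := by
    rw [smul_smul]
  have hT' : ((((u : F) ^ t)⁻¹ * μ⁻¹) • Matrix.toLin' (x : Matrix (Fin r) (Fin r) F)) ^ r = 1 := by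
    rw [hT'eq, _root_.smul_pow, hT, inv_pow, ← pow_mul, mul_comm, pow_mul, hζr, one_pow, inv_one, one_smul]
  have hb' : ∀ i, ((((u : F) ^ t)⁻¹ * μ⁻¹) • Matrix.toLin' (x : Matrix (Fin r) (Fin r) F)) (b i)
      = (((u : F) ^ t)⁻¹ * (u : F) ^ e i) • b i := by
    intro i
    rw [hT'eq, LinearMap.smul_apply, hb, smul_smul]
  have hpow : ∀ a c : ℕ, (u : F) ^ a = (u : F) ^ c ↔ a % r = c % r := by
    intro a c
    rw [← Units.val_pow_eq_pow_val, ← Units.val_pow_eq_pow_val, Units.val_inj,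
      pow_eq_pow_iff_modEq, hu]
    rfl
  have hsym : ∀ ξ : F, ξ ^ r = 1 →
      finrank F (LinearMap.ker ((((u : F) ^ t)⁻¹ * μ⁻¹) • Matrix.toLin' (x : Matrix (Fin r) (Fin r) F)
        - ξ • (1 : Module.End F (Fin r → F))))
      = finrank F (LinearMap.ker ((((u : F) ^ t)⁻¹ * μ⁻¹) • Matrix.toLin' (x : Matrix (Fin r) (Fin r) F)
        - ξ⁻¹ • (1 : Module.End F (Fin r → F)))) := by
    intro ξ hξ
    have hprim : IsPrimitiveRoot (u : F) r := by
      rw [← hζo]; exact IsPrimitiveRoot.orderOf _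
    have : NeZero r := ⟨hr0.ne'⟩
    obtain ⟨j, -, rfl⟩ := hprim.eq_pow_of_pow_eq_one hξ
    rw [sfrx_finrank_ker_eigen b _ _ hb', sfrx_finrank_ker_eigen b _ _ hb',
      Nat.card_eq_fintype_card, Nat.card_eq_fintype_card, Fintype.card_subtype,
      Fintype.card_subtype]
    have h1 : (Finset.univ.filter fun i => ((u : F) ^ t)⁻¹ * (u : F) ^ e i = (u : F) ^ j)
        = Finset.univ.filter fun i => e i % r = (t + j) % r := by
      refine Finset.filter_congr fun i _ => ?_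
      rw [← hpow, pow_add, inv_mul_eq_iff_eq_mul₀ (pow_ne_zero _ hζ0)]
    have h2 : (Finset.univ.filter fun i => ((u : F) ^ t)⁻¹ * (u : F) ^ e i = ((u : F) ^ j)⁻¹)
        = Finset.univ.filter fun i => (e i + j) % r = t % r := by
      refine Finset.filter_congr fun i _ => ?_
      rw [← hpow, pow_add, inv_mul_eq_iff_eq_mul₀ (pow_ne_zero _ hζ0),
        eq_mul_inv_iff_mul_eq₀ (pow_ne_zero _ hζ0)]
    rw [h1, h2]
    exact ht j
  have hrat := hRATEX _ hT' hsym
  refine hTR _ hc hrat fun δ hδ => ?_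
  exact Cfsg.Agent.Helper47.cent_det (by rw [Module.finrank_fin_fun]; exact hr0) _ r hr0 hrF z hz0
    hTx δ hδ

end top

end Cfsg.Agent.Helper46
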