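import Mathlib
import Cfsg.Agent.Helper98.TFGen
import Cfsg.Agent.Helper49.TFNTO
import Cfsg.Agent.Helper61.TFINVCH
import Cfsg.Agent.Helper61.TFODDREC
import Cfsg.Agent.Helper27.TFBLK

set_option autoImplicit false

namespace Cfsg.Agent.Helper46.TFSPXB

open Matrix Polynomial
open scoped Kronecker

theorem rev_X_sub_one {F : Type*} [Field F] : (X - 1 : F[X]).reverse = C (-1) * (X - 1) := by
  have hd : (X - 1 : F[X]).natDegree = 1 := by
    have := natDegree_X_sub_C (1 : F)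
    rwa [map_one] at this
  have h1 := reflect_monomial (R := F) 1 1
  rw [pow_one] at h1
  unfold reverse
  rw [hd, reflect_sub, reflect_one, h1]
  simp only [revAt_le (le_refl 1), Nat.sub_self, pow_zero, pow_one, map_neg, map_one]
  ring

theorem rev_X_sub_one_pow {F : Type*} [Field F] (m : ℕ) :
    ((X - 1 : F[X]) ^ m).reverse = C ((-1) ^ m) * (X - 1) ^ m := by
  induction m with
  | zero =>
    simp only [pow_zero, map_one, mul_one]
    have := reverse_C (1 : F)  -- may not exist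
    rwa [map_one] at this
  | succ m ih =>
    rw [pow_succ, reverse_mul_of_domain, ih, rev_X_sub_one, pow_succ, map_mul]
    ring

theorem rev_X_pow_sub_one {F : Type*} [Field F] (r : ℕ) :
    (X ^ r - 1 : F[X]).reverse = C (-1) * (X ^ r - 1) := by
  have hd : (X ^ r - 1 : F[X]).natDegree = r := by
    have := natDegree_X_pow_sub_C (R := F) (n := r) (r := 1)
    rwa [map_one] at this
  unfold reverse
  rw [hd, reflect_sub, reflect_one, reflect_monomial]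
  simp only [revAt_le (le_refl r), Nat.sub_self, pow_zero, map_neg, map_one]
  ring

theorem eval_one_reverse {F : Type*} [Field F] (f : F[X]) : f.reverse.eval 1 = f.eval 1 := by
  let _i1 : Invertible (1 : F) := invertibleOne
  have h := eval₂_reverse_mul_pow (RingHom.id F) (1 : F) f
  rw [invOf_one, one_pow, mul_one] at h
  exact h

/-! ## Piece SPXB  (level 2: uses XCD, XM, INVCH, ODDREC, BLK, NTO) -/
theorem exists_sp_elt_odd {F : Type*} [Field F] [Fintype F] (h2 : (2 : F) ≠ 0) (d : ℕ)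
    (r : ℕ) (hr : r.Prime) (hr2 : r ≠ 2) (hrF : (r : F) ≠ 0)
    (hno : ∀ e : ℕ, 0 < e → e ≤ d → ¬ r ∣ Fintype.card F ^ e + 1) (j : ℕ) (hj0 : 0 < j)
    (hjd : j ≤ d) (hj : r ∣ Fintype.card F ^ j - 1) :
    ∃ (x : Matrix (Fin d ⊕ Fin d) (Fin d ⊕ Fin d) F) (Φ : F[X]),
      x ∈ Matrix.symplecticGroup (Fin d) F ∧ x ^ r = 1 ∧ Φ.Separable ∧ Φ.eval 1 ≠ 0 ∧
      1 ≤ Φ.natDegree ∧ Φ.natDegree ≤ 2 * d ∧
      x.charpoly = Φ * (X - 1) ^ (2 * d - Φ.natDegree) ∧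
      ∀ j' : ℕ, 0 < j' → j' ≤ 2 * d → r ∣ Fintype.card F ^ j' - 1 →
        (Φ.natDegree ≤ 2 * j' ∧ (Even j' → Φ.natDegree ≤ j')) := by
  classical
  obtain ⟨Φ₁, hm₁, hirr₁, hsep₁, hdvd₁, h1₁, hord⟩ :=
    Cfsg.Agent.Helper98.TFGen.exists_irred_factor_dvd (F := F) r hr hrF
  obtain ⟨i, hiodd, hi0, hid, hi⟩ :=
    Cfsg.Agent.Helper49.TFNTO.exists_odd_order hr hno j hj0 hjd hj
  have hk1i : Φ₁.natDegree ∣ i := hord i hi0 hi
  have hk1odd : Odd Φ₁.natDegree := Odd.of_dvd_nat hiodd hk1i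
  have hk1d : Φ₁.natDegree ≤ d := le_trans (Nat.le_of_dvd hi0 hk1i) hid
  have hk1pos : 0 < Φ₁.natDegree := hirr₁.natDegree_pos
  obtain ⟨M, hMr, hMc⟩ :=
    Cfsg.Agent.Helper98.TFGen.exists_mat_charpoly r Φ₁ hm₁ hdvd₁ d hk1d
  obtain ⟨m, hm_def⟩ : ∃ m : ℕ, m = d - Φ₁.natDegree := ⟨_, rfl⟩
  rw [← hm_def] at hMc
  obtain ⟨M', hM'⟩ : ∃ M' : Matrix (Fin d) (Fin d) F, M' = M ^ (r - 1) := ⟨_, rfl⟩
  have hMM' : M * M' = 1 := by
    rw [hM', ← pow_succ', Nat.sub_add_cancel hr.one_le, hMr]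
  have hM'r : M' ^ r = 1 := by
    rw [hM', ← pow_mul, mul_comm, pow_mul, hMr, one_pow]
  obtain ⟨c, hc0, hcc⟩ := Cfsg.Agent.Helper61.TFINVCH.charpoly_inv M M' hMM'
  have hrodd : Odd r := hr.odd_of_ne_two hr2
  -- the reciprocal factor
  obtain ⟨Ψ, hΨ⟩ : ∃ Ψ : F[X], Ψ = C (c * (-1) ^ m) * Φ₁.reverse := ⟨_, rfl⟩
  have hc' : c * (-1) ^ m ≠ 0 := mul_ne_zero hc0 (pow_ne_zero _ (neg_ne_zero.mpr one_ne_zero))
  have hM'c : M'.charpoly = Ψ * (X - 1) ^ m := by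
    rw [hcc, hMc, reverse_mul_of_domain, rev_X_sub_one_pow, hΨ, map_mul]
    ring
  have hXm : ((X - 1 : F[X]) ^ m).Monic := by
    have : (X - C (1 : F)).Monic := monic_X_sub_C 1
    rw [map_one] at this
    exact this.pow m
  have hXmdeg : ((X - 1 : F[X]) ^ m).natDegree = m := by
    have h := natDegree_X_sub_C (1 : F)
    rw [map_one] at h
    rw [natDegree_pow, h, mul_one]
  have hΨm : Ψ.Monic := by
    have := Matrix.charpoly_monic M'
    rw [hM'c] at this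
    exact Monic.of_mul_monic_right hXm this
  have hΨdeg : Ψ.natDegree = Φ₁.natDegree := by
    have h := Matrix.charpoly_natDegree_eq_dim M'
    rw [hM'c, hΨm.natDegree_mul hXm, hXmdeg, Fintype.card_fin] at h
    omega
  have hΨ1 : Ψ.eval 1 ≠ 0 := by
    rw [hΨ, eval_mul, eval_C, eval_one_reverse]
    exact mul_ne_zero hc' h1₁
  have hΨdvd : Ψ ∣ X ^ r - 1 := by
    obtain ⟨g, hg⟩ := hdvd₁
    have h := rev_X_pow_sub_one (F := F) r
    rw [hg, reverse_mul_of_domain] at h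
    -- Φ₁.reverse * g.reverse = C (-1) * (Φ₁ * g)
    refine ⟨C ((c * (-1) ^ m)⁻¹ * (-1)) * g.reverse, ?_⟩
    rw [hΨ, hg]
    have h' : Φ₁ * g = C (-1) * (Φ₁.reverse * g.reverse) := by
      rw [h, ← mul_assoc, ← map_mul]
      simp
    rw [h']
    have hcc' : C (c * (-1) ^ m) * C ((c * (-1) ^ m)⁻¹ * (-1)) = (C (-1) : F[X]) := by
      rw [← map_mul, ← mul_assoc, mul_inv_cancel₀ hc', one_mul]
    calc C (-1) * (Φ₁.reverse * g.reverse)
        = (C (c * (-1) ^ m) * C ((c * (-1) ^ m)⁻¹ * (-1))) * (Φ₁.reverse * g.reverse) := by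
          rw [hcc']
      _ = C (c * (-1) ^ m) * Φ₁.reverse * (C ((c * (-1) ^ m)⁻¹ * (-1)) * g.reverse) := by ring
  have hΨne : Ψ ≠ Φ₁ := by
    rw [hΨ]
    exact Cfsg.Agent.Helper61.TFODDREC.reverse_ne_of_odd h2 r hrodd Φ₁ hm₁ hirr₁ hdvd₁ h1₁
      hk1odd _
  have hcop : IsCoprime Φ₁ Ψ := by
    rw [hirr₁.coprime_iff_not_dvd]
    intro hdv
    exact hΨne (eq_of_monic_of_dvd_of_natDegree_le hm₁ hΨm hdv (le_of_eq hΨdeg))
  have hΦdvd : Φ₁ * Ψ ∣ X ^ r - 1 := hcop.mul_dvd hdvd₁ hΨdvd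
  have hXsep : (X ^ r - 1 : F[X]).Separable := by
    have := separable_X_pow_sub_C (F := F) (n := r) (1 : F) hrF one_ne_zero
    rwa [map_one] at this
  have hΦsep : (Φ₁ * Ψ).Separable := hXsep.of_dvd hΦdvd
  have hΦdeg : (Φ₁ * Ψ).natDegree = 2 * Φ₁.natDegree := by
    rw [hm₁.natDegree_mul hΨm, hΨdeg]; ring
  refine ⟨Matrix.fromBlocks M 0 0 M'ᵀ, Φ₁ * Ψ,
    Cfsg.Agent.Helper27.TFBLK.fromBlocks_symp M M' hMM', ?_, hΦsep, ?_, ?_, ?_, ?_, ?_⟩
  · rw [Matrix.fromBlocks_diagonal_pow, hMr, ← Matrix.transpose_pow, hM'r,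
      Matrix.transpose_one, Matrix.fromBlocks_one]
  · rw [eval_mul]
    exact mul_ne_zero h1₁ hΨ1
  · rw [hΦdeg]; omega
  · rw [hΦdeg]; omega
  · rw [Matrix.charpoly_fromBlocks_zero₁₂, Matrix.charpoly_transpose, hMc, hM'c, hΦdeg]
    have hmm : 2 * d - 2 * Φ₁.natDegree = m + m := by omega
    rw [hmm, pow_add]
    ring
  · intro j' hj'0 hj'd hj'
    rw [hΦdeg]
    have hk1j' : Φ₁.natDegree ∣ j' := hord j' hj'0 hj'
    refine ⟨by have := Nat.le_of_dvd hj'0 hk1j'; omega, ?_⟩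
    rintro ⟨j'', hj''⟩
    have hj''0 : 0 < j'' := by omega
    have hj''d : j'' ≤ d := by omega
    have hfac : Fintype.card F ^ j' - 1
        = (Fintype.card F ^ j'' + 1) * (Fintype.card F ^ j'' - 1) := by
      have h := Nat.sq_sub_sq (Fintype.card F ^ j'') 1
      rw [one_pow] at h
      rw [← h, hj'', ← two_mul, mul_comm 2 j'', pow_mul]
    rw [hfac] at hj'
    rcases hr.dvd_mul.mp hj' with h | h
    · exact absurd h (hno j'' hj''0 hj''d)
    · have := Nat.le_of_dvd hj''0 (hord j'' hj''0 h)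
      omega

end Cfsg.Agent.Helper46.TFSPXB
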