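import Mathlib
import Cfsg.Agent.Helper44.SPCDefs

set_option autoImplicit false

/-!
# CALL S2676 (helper44), piece H0SK: the shift is skew for the standard form `H0` (transpose version)
-/

namespace Cfsg.Agent.Helper46.SPCH0SK

open Matrix Cfsg.Agent.Helper21.JCent Cfsg.Agent.Helper44.UC Cfsg.Agent.Helper44.SPC

theorem transpose_nilp_mul_apply {F : Type*} [Field F] {t : ℕ} (d : Fin t → ℕ)
    (X : Matrix ((k : Fin t) × Fin (d k)) ((k : Fin t) × Fin (d k)) F)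
    (l : Fin t) (j : Fin (d l)) (r : (k : Fin t) × Fin (d k)) :
    ((nilp F d)ᵀ * X) ⟨l, j⟩ r
      = if h : (j : ℕ) + 1 < d l then X ⟨l, ⟨(j : ℕ) + 1, h⟩⟩ r else 0 := by
  classical
  rw [Matrix.mul_apply]
  split_ifs with h
  · rw [Finset.sum_eq_single (⟨l, ⟨(j : ℕ) + 1, h⟩⟩ : (k : Fin t) × Fin (d k))]
    · simp [nilp, Matrix.transpose_apply]
    · rintro ⟨m1, m2⟩ - hne
      have : ¬ (m1 = l ∧ (m2 : ℕ) = (j : ℕ) + 1) := by
        rintro ⟨rfl, h2⟩
        exact hne (by congr 1; exact Fin.ext h2)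
      simp [nilp, Matrix.transpose_apply, this]
    · intro h'; exact absurd (Finset.mem_univ _) h'
  · apply Finset.sum_eq_zero
    rintro ⟨m1, m2⟩ -
    have : ¬ (m1 = l ∧ (m2 : ℕ) = (j : ℕ) + 1) := by
      rintro ⟨rfl, h2⟩
      exact h (h2 ▸ m2.2)
    simp [nilp, Matrix.transpose_apply, this]

/-- H0SK: the shift is skew for the standard form. -/
theorem spc_h0sk {F : Type*} [Field F] {t : ℕ} (d : Fin t → ℕ) :
    (nilp F d)ᵀ * H0 F d + H0 F d * nilp F d = 0 := by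
  classical
  ext ⟨l, j⟩ ⟨k, i⟩
  rw [Matrix.add_apply, transpose_nilp_mul_apply, mul_nilp_apply, Matrix.zero_apply]
  by_cases hc : l = k ∧ (j : ℕ) + (i : ℕ) + 2 = d l
  · obtain ⟨rfl, h2⟩ := hc
    have h3 : (j : ℕ) + 1 < d l := by omega
    have h4 : (i : ℕ) + 1 < d l := by omega
    rw [dif_pos h3, dif_pos h4]
    have h5 : (j : ℕ) + 1 + (i : ℕ) + 1 = d l := by omega
    have h6 : (j : ℕ) + ((i : ℕ) + 1) + 1 = d l := by omega
    simp only [H0, Matrix.of_apply, h5, h6, and_self, if_true]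
    rw [pow_succ]
    ring
  · have h7 : (if h : (j : ℕ) + 1 < d l then H0 F d ⟨l, ⟨(j : ℕ) + 1, h⟩⟩ ⟨k, i⟩ else 0) = 0 := by
      split_ifs with h
      · have : ¬ (l = k ∧ (j : ℕ) + 1 + (i : ℕ) + 1 = d l) := by
          rintro ⟨h8, h9⟩
          exact hc ⟨h8, by omega⟩
        simp [H0, this]
      · rfl
    have h8 : (if h : (i : ℕ) + 1 < d k then H0 F d ⟨l, j⟩ ⟨k, ⟨(i : ℕ) + 1, h⟩⟩ else 0) = 0 := by
      split_ifs with h
      · have : ¬ (l = k ∧ (j : ℕ) + ((i : ℕ) + 1) + 1 = d l) := by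
          rintro ⟨h8, h9⟩
          exact hc ⟨h8, by omega⟩
        simp [H0, this]
      · rfl
    rw [h7, h8, add_zero]

end Cfsg.Agent.Helper46.SPCH0SK
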