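import Mathlib
import Cfsg.Agent.Helper44.UCDefs
import Cfsg.Agent.S2587
import Cfsg.Agent.S2581
import Cfsg.Agent.Helper44.UnitaryOrder

set_option autoImplicit false

/-!
# CALL S2646 (helper44), piece H0M: left multiplication by the standard form `H0`
-/

namespace Cfsg.Agent.Helper46.UCH0M

open Matrix Cfsg.Agent.Helper21.JCent Cfsg.Agent.Helper44.UC

/-- H0M: left multiplication by the standard form. -/
theorem uc_h0_mul {K : Type*} [Field K] {t : ℕ} (d : Fin t → ℕ)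
    (X : Matrix ((k : Fin t) × Fin (d k)) ((k : Fin t) × Fin (d k)) K)
    (p r : (k : Fin t) × Fin (d k)) :
    (H0 K d * X) p r
      = (-1) ^ (p.2 : ℕ) * X ⟨p.1, ⟨d p.1 - 1 - (p.2 : ℕ), by have := p.2.2; omega⟩⟩ r := by
  classical
  obtain ⟨l, j⟩ := p
  rw [Matrix.mul_apply]
  rw [Finset.sum_eq_single (⟨l, ⟨d l - 1 - (j : ℕ), by have := j.2; omega⟩⟩ :
    (k : Fin t) × Fin (d k))]
  · have h1 : (j : ℕ) + (d l - 1 - (j : ℕ)) + 1 = d l := by have := j.2; omega
    simp [H0, h1]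
  · rintro ⟨m1, m2⟩ - hne
    have : ¬ (l = m1 ∧ (j : ℕ) + (m2 : ℕ) + 1 = d l) := by
      rintro ⟨rfl, h2⟩
      exact hne (by congr 1; exact Fin.ext (by simp; omega))
    simp [H0, this]
  · intro h'; exact absurd (Finset.mem_univ _) h'

end Cfsg.Agent.Helper46.UCH0M
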