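import Mathlib
import Cfsg.Agent.Helper44.UCDefs
import Cfsg.Agent.S2587
import Cfsg.Agent.S2581
import Cfsg.Agent.Helper44.UnitaryOrder
import Cfsg.Agent.Helper46.UCH0M

set_option autoImplicit false

/-!
# CALL S2646 (helper44), piece H0U: the standard form `H0` is invertible
-/

namespace Cfsg.Agent.Helper46.UCH0U

open Matrix Cfsg.Agent.Helper21.JCent Cfsg.Agent.Helper44.UC

theorem h0_mul_h0 {K : Type*} [Field K] {t : ℕ} (d : Fin t → ℕ) :
    H0 K d * H0 K d = Matrix.diagonal (fun p : (k : Fin t) × Fin (d k) => (-1 : K) ^ (d p.1 - 1)) := by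
  classical
  ext p r
  rw [Cfsg.Agent.Helper46.UCH0M.uc_h0_mul]
  obtain ⟨l, j⟩ := p
  obtain ⟨k, i⟩ := r
  by_cases h : (⟨l, j⟩ : (k : Fin t) × Fin (d k)) = ⟨k, i⟩
  · obtain ⟨rfl, h2⟩ := Sigma.mk.inj_iff.1 h
    have h3 : j = i := eq_of_heq h2
    subst h3
    rw [Matrix.diagonal_apply_eq]
    have h1 : d l - 1 - (j : ℕ) + (j : ℕ) + 1 = d l := by have := j.2; omega
    have h4 : (j : ℕ) + (d l - 1 - (j : ℕ)) = d l - 1 := by have := j.2; omega
    simp only [H0, Matrix.of_apply, h1, and_self, if_true]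
    rw [← pow_add, h4]
  · rw [Matrix.diagonal_apply_ne _ h]
    have : ¬ (l = k ∧ d l - 1 - (j : ℕ) + (i : ℕ) + 1 = d l) := by
      rintro ⟨rfl, h2⟩
      apply h
      congr 1
      exact Fin.ext (by have := j.2; omega)
    simp [H0, this]

/-- H0U: the standard form is invertible (`H0 * H0` is diagonal with entries `±1`). -/
theorem uc_h0_unit {K : Type*} [Field K] {t : ℕ} (d : Fin t → ℕ) : IsUnit (H0 K d).det := by
  classical
  have h1 : IsUnit ((H0 K d).det * (H0 K d).det) := by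
    rw [← Matrix.det_mul, h0_mul_h0, Matrix.det_diagonal]
    rw [isUnit_iff_ne_zero]
    apply Finset.prod_ne_zero_iff.2
    intro p _
    exact pow_ne_zero _ (neg_ne_zero.2 one_ne_zero)
  exact isUnit_of_mul_isUnit_left h1

end Cfsg.Agent.Helper46.UCH0U
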