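import Mathlib
import Cfsg.Agent.Helper44.SPCDefs
import Cfsg.Agent.Helper46.UCH0U
import Cfsg.Agent.Helper46.SPCH0SK

set_option autoImplicit false

/-!
# CALL S2676 (helper44), piece XCOMM: a skew form of the shift is `H0 * x`, `x` commuting with the shift
-/

namespace Cfsg.Agent.Helper46.SPCXCOMM

open Matrix Cfsg.Agent.Helper21.JCent Cfsg.Agent.Helper44.UC Cfsg.Agent.Helper44.SPC

/-- `H0⁻¹ Nᵀ = - N H0⁻¹` -/
theorem h0_inv_mul_transpose_nilp {F : Type*} [Field F] {t : ℕ} (d : Fin t → ℕ) :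
    (H0 F d)⁻¹ * (nilp F d)ᵀ = -(nilp F d * (H0 F d)⁻¹) := by
  classical
  have hu : IsUnit (H0 F d).det := Cfsg.Agent.Helper46.UCH0U.uc_h0_unit d
  have h1 : (nilp F d)ᵀ * H0 F d = -(H0 F d * nilp F d) :=
    eq_neg_of_add_eq_zero_left (Cfsg.Agent.Helper46.SPCH0SK.spc_h0sk d)
  calc (H0 F d)⁻¹ * (nilp F d)ᵀ
      = (H0 F d)⁻¹ * ((nilp F d)ᵀ * H0 F d) * (H0 F d)⁻¹ := by
        rw [Matrix.mul_assoc, Matrix.mul_assoc, Matrix.mul_nonsing_inv _ hu, Matrix.mul_one]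
    _ = -(nilp F d * (H0 F d)⁻¹) := by
        rw [h1, Matrix.mul_neg, Matrix.neg_mul, ← Matrix.mul_assoc, Matrix.nonsing_inv_mul _ hu,
          Matrix.one_mul]

/-- XCOMM: a skew form of the shift is `H0 * x` with `x` in the centraliser of the shift. -/
theorem spc_xcomm {F : Type*} [Field F] {t : ℕ} (d : Fin t → ℕ)
    (ψ : Matrix ((k : Fin t) × Fin (d k)) ((k : Fin t) × Fin (d k)) F)
    (h : (nilp F d)ᵀ * ψ + ψ * nilp F d = 0) :
    ((H0 F d)⁻¹ * ψ) * nilp F d = nilp F d * ((H0 F d)⁻¹ * ψ) := by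
  classical
  have h3 : ψ * nilp F d = -((nilp F d)ᵀ * ψ) := eq_neg_of_add_eq_zero_right h
  rw [Matrix.mul_assoc, h3, Matrix.mul_neg, ← Matrix.mul_assoc, h0_inv_mul_transpose_nilp,
    Matrix.neg_mul, neg_neg, Matrix.mul_assoc]

end Cfsg.Agent.Helper46.SPCXCOMM
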