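import Mathlib
import Cfsg.Agent.Helper44.SPCDefs
import Cfsg.Agent.Helper46.UCH0M
import Cfsg.Agent.Helper46.UCH0U
import Cfsg.Agent.Helper46.SPCH0SK
import Cfsg.Agent.Helper46.SPCXCOMM

set_option autoImplicit false

/-!
# CALL S2676 (helper44), piece ADJ: the adjoint for the standard form `H0`
-/

namespace Cfsg.Agent.Helper46.SPCADJ

open Matrix Cfsg.Agent.Helper21.JCent Cfsg.Agent.Helper44.UC Cfsg.Agent.Helper44.SPC

/-- right multiplication by the standard form, first column of a block -/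
theorem mul_h0_apply_zero {F : Type*} [Field F] {t : ℕ} (d : Fin t → ℕ)
    (X : Matrix ((k : Fin t) × Fin (d k)) ((k : Fin t) × Fin (d k)) F)
    (p : (k : Fin t) × Fin (d k)) (k : Fin t) (hk : 0 < d k) :
    (X * H0 F d) p ⟨k, ⟨0, hk⟩⟩ = X p ⟨k, ⟨d k - 1, by omega⟩⟩ * (-1) ^ (d k - 1) := by
  classical
  rw [Matrix.mul_apply]
  rw [Finset.sum_eq_single (⟨k, ⟨d k - 1, by omega⟩⟩ : (k : Fin t) × Fin (d k))]
  · have h1 : d k - 1 + 0 + 1 = d k := by omega
    simp [H0, h1]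
  · rintro ⟨m1, m2⟩ - hne
    have : ¬ (m1 = k ∧ (m2 : ℕ) + 0 + 1 = d m1) := by
      rintro ⟨rfl, h2⟩
      exact hne (by congr 1; exact Fin.ext (by simp; omega))
    simp [H0, this]
  · intro h'; exact absurd (Finset.mem_univ _) h'

/-- the inverse of the standard form -/
theorem h0_inv {F : Type*} [Field F] {t : ℕ} (d : Fin t → ℕ) :
    (H0 F d)⁻¹ = Matrix.diagonal (fun p : (k : Fin t) × Fin (d k) => (-1 : F) ^ (d p.1 - 1))
      * H0 F d := by
  classical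
  apply Matrix.inv_eq_left_inv
  rw [Matrix.mul_assoc, Cfsg.Agent.Helper46.UCH0U.h0_mul_h0, Matrix.diagonal_mul_diagonal]
  rw [← Matrix.diagonal_one]
  congr 1
  funext p
  rw [← mul_pow]
  simp

/-- the entries of the adjoint at the first columns of the blocks -/
theorem adj_entry {F : Type*} [Field F] {t : ℕ} (d : Fin t → ℕ)
    (c : Matrix ((k : Fin t) × Fin (d k)) ((k : Fin t) × Fin (d k)) F)
    (l k : Fin t) (hl : 0 < d l) (hk : 0 < d k) :
    ((H0 F d)⁻¹ * cᵀ * H0 F d) ⟨l, ⟨0, hl⟩⟩ ⟨k, ⟨0, hk⟩⟩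
      = (-1) ^ (d l - 1) * (-1) ^ (d k - 1)
        * c ⟨k, ⟨d k - 1, by omega⟩⟩ ⟨l, ⟨d l - 1, by omega⟩⟩ := by
  classical
  rw [h0_inv, Matrix.mul_assoc, Matrix.mul_assoc, Matrix.diagonal_mul,
    Cfsg.Agent.Helper46.UCH0M.uc_h0_mul, mul_h0_apply_zero, Matrix.transpose_apply]
  simp only [pow_zero, one_mul, Nat.sub_zero]
  ring

/-- ADJ: the adjoint for the standard form preserves the centraliser of the shift and transposes
the diagonal blocks. -/
theorem spc_adj {F : Type*} [Field F] {t : ℕ} (d : Fin t → ℕ) (hd : ∀ k, 1 ≤ d k)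
    (c : Matrix ((k : Fin t) × Fin (d k)) ((k : Fin t) × Fin (d k)) F)
    (hc : c * nilp F d = nilp F d * c) :
    ((H0 F d)⁻¹ * cᵀ * H0 F d) * nilp F d = nilp F d * ((H0 F d)⁻¹ * cᵀ * H0 F d) ∧
      ∀ i, tb d hd i ((H0 F d)⁻¹ * cᵀ * H0 F d) = (tb d hd i c)ᵀ := by
  classical
  constructor
  · have h1 : H0 F d * nilp F d = -((nilp F d)ᵀ * H0 F d) :=
      eq_neg_of_add_eq_zero_right (Cfsg.Agent.Helper46.SPCH0SK.spc_h0sk d)
    have h2 : cᵀ * (nilp F d)ᵀ = (nilp F d)ᵀ * cᵀ := by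
      rw [← Matrix.transpose_mul, ← Matrix.transpose_mul, hc]
    calc ((H0 F d)⁻¹ * cᵀ * H0 F d) * nilp F d
        = (H0 F d)⁻¹ * cᵀ * (H0 F d * nilp F d) := by rw [Matrix.mul_assoc]
      _ = -((H0 F d)⁻¹ * (cᵀ * (nilp F d)ᵀ) * H0 F d) := by
          rw [h1, Matrix.mul_neg]
          simp only [Matrix.mul_assoc]
      _ = -(((H0 F d)⁻¹ * (nilp F d)ᵀ) * cᵀ * H0 F d) := by
          rw [h2]
          simp only [Matrix.mul_assoc]
      _ = nilp F d * ((H0 F d)⁻¹ * cᵀ * H0 F d) := by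
          rw [Cfsg.Agent.Helper46.SPCXCOMM.h0_inv_mul_transpose_nilp, Matrix.neg_mul,
            Matrix.neg_mul, neg_neg]
          simp only [Matrix.mul_assoc]
  · intro i
    ext l k
    rw [tb_apply, adj_entry, Matrix.transpose_apply, tb_apply]
    have hl : d l.1 = (i : ℕ) := congrArg Fin.val l.2
    have hk : d k.1 = (i : ℕ) := congrArg Fin.val k.2
    have h3 := comm_shift_many hc k.1 l.1 (d k.1 - 1) 0 0 (by have := hd k.1; omega)
      (by have := hd l.1; omega)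
    have hidx1 : (⟨k.1, ⟨d k.1 - 1, by have := hd k.1; omega⟩⟩ : (k : Fin t) × Fin (d k))
        = ⟨k.1, ⟨0 + (d k.1 - 1), by have := hd k.1; omega⟩⟩ := by
      congr 1
      exact Fin.ext (by simp)
    have hidx2 : (⟨l.1, ⟨d l.1 - 1, by have := hd l.1; omega⟩⟩ : (k : Fin t) × Fin (d k))
        = ⟨l.1, ⟨0 + (d k.1 - 1), by have := hd l.1; omega⟩⟩ := by
      congr 1
      exact Fin.ext (by simp; omega)
    have hsign : (-1 : F) ^ (d l.1 - 1) * (-1) ^ (d k.1 - 1) = 1 := by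
      rw [hl, hk, ← mul_pow]
      simp
    rw [hidx1, hidx2, h3, hsign, one_mul]

end Cfsg.Agent.Helper46.SPCADJ
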