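import Mathlib
import Cfsg.Agent.Helper44.SPCDefs
import Cfsg.Agent.Helper46.UCH0M

set_option autoImplicit false

/-!
# CALL S2676 (helper44), piece BETH0: the reduction of `H0 * X`
-/

namespace Cfsg.Agent.Helper46.SPCBETH0

open Matrix Cfsg.Agent.Helper21.JCent Cfsg.Agent.Helper44.UC Cfsg.Agent.Helper44.SPC

/-- BETH0: the reduction of `H0 * X`. -/
theorem spc_beth0 {F : Type*} [Field F] {t : ℕ} (d : Fin t → ℕ) (hd : ∀ k, 1 ≤ d k)
    (i : Fin (Finset.univ.sup d + 1))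
    (X : Matrix ((k : Fin t) × Fin (d k)) ((k : Fin t) × Fin (d k)) F) :
    bet d hd i (H0 F d * X) = (-1 : F) ^ ((i : ℕ) - 1) • tb d hd i X := by
  classical
  ext l k
  rw [bet_apply, Cfsg.Agent.Helper46.UCH0M.uc_h0_mul, Matrix.smul_apply, tb_apply, smul_eq_mul]
  have hl : d l.1 = (i : ℕ) := congrArg Fin.val l.2
  have hidx : (⟨l.1, ⟨d l.1 - 1 - (d l.1 - 1), by have := hd l.1; omega⟩⟩ :
      (k : Fin t) × Fin (d k)) = ⟨l.1, ⟨0, hd l.1⟩⟩ := by
    congr 1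
    exact Fin.ext (by simp)
  simp only [hl]
  rw [← hidx]
  simp only [hl]

end Cfsg.Agent.Helper46.SPCBETH0
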