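import Mathlib
import Cfsg.Agent.Helper44.SPCDefs
import Cfsg.Agent.Helper46.SPCH0SK

set_option autoImplicit false

/-!
# CALL S2676 (helper44), piece SYMTYPE: the reductions of a skew form are `(-1)^i`-symmetric
-/

namespace Cfsg.Agent.Helper46.SPCSYMTYPE

open Matrix Cfsg.Agent.Helper21.JCent Cfsg.Agent.Helper44.UC Cfsg.Agent.Helper44.SPC

/-- entry accessor with natural number indices -/
noncomputable def ent {F : Type*} [Field F] {t : ℕ} (d : Fin t → ℕ)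
    (ψ : Matrix ((k : Fin t) × Fin (d k)) ((k : Fin t) × Fin (d k)) F) (l k : Fin t) (a b : ℕ) : F :=
  if h : a < d l ∧ b < d k then ψ ⟨l, ⟨a, h.1⟩⟩ ⟨k, ⟨b, h.2⟩⟩ else 0

theorem ent_eq {F : Type*} [Field F] {t : ℕ} (d : Fin t → ℕ)
    (ψ : Matrix ((k : Fin t) × Fin (d k)) ((k : Fin t) × Fin (d k)) F) (l k : Fin t) (a b : ℕ)
    (ha : a < d l) (hb : b < d k) : ent d ψ l k a b = ψ ⟨l, ⟨a, ha⟩⟩ ⟨k, ⟨b, hb⟩⟩ := by
  unfold ent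
  rw [dif_pos ⟨ha, hb⟩]

theorem ent_shift {F : Type*} [Field F] {t : ℕ} (d : Fin t → ℕ)
    (ψ : Matrix ((k : Fin t) × Fin (d k)) ((k : Fin t) × Fin (d k)) F)
    (hs : (nilp F d)ᵀ * ψ + ψ * nilp F d = 0) (l k : Fin t) (s j : ℕ) (hs1 : s + 1 < d l)
    (hj1 : j + 1 < d k) : ent d ψ l k (s + 1) j = - ent d ψ l k s (j + 1) := by
  have h := congrFun (congrFun hs ⟨l, ⟨s, by omega⟩⟩) ⟨k, ⟨j, by omega⟩⟩
  rw [Matrix.add_apply, Cfsg.Agent.Helper46.SPCH0SK.transpose_nilp_mul_apply, mul_nilp_apply,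
    Matrix.zero_apply] at h
  simp only [hs1, hj1, dif_pos] at h
  rw [ent_eq d ψ l k (s + 1) j hs1 (by omega), ent_eq d ψ l k s (j + 1) (by omega) hj1]
  exact eq_neg_of_add_eq_zero_left h

theorem ent_shift_many {F : Type*} [Field F] {t : ℕ} (d : Fin t → ℕ)
    (ψ : Matrix ((k : Fin t) × Fin (d k)) ((k : Fin t) × Fin (d k)) F)
    (hs : (nilp F d)ᵀ * ψ + ψ * nilp F d = 0) (l k : Fin t) :
    ∀ (m s j : ℕ), s + m < d l → j + m < d k →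
      ent d ψ l k (s + m) j = (-1) ^ m * ent d ψ l k s (j + m) := by
  intro m
  induction m with
  | zero =>
    intro s j _ _
    simp
  | succ m ih =>
    intro s j h1 h2
    have e1 : s + (m + 1) = (s + m) + 1 := by omega
    have e2 : j + (m + 1) = (j + 1) + m := by omega
    rw [e1, ent_shift d ψ hs l k (s + m) j (by omega) (by omega), ih s (j + 1) (by omega) (by omega),
      e2, pow_succ]
    ring

/-- SYMTYPE: the reductions of a skew-symmetric skew form of the shift are `(-1)^i`-symmetric. -/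
theorem spc_symtype {F : Type*} [Field F] {t : ℕ} (d : Fin t → ℕ) (hd : ∀ k, 1 ≤ d k)
    (i : Fin (Finset.univ.sup d + 1))
    (ψ : Matrix ((k : Fin t) × Fin (d k)) ((k : Fin t) × Fin (d k)) F) (hψ : ψᵀ = -ψ)
    (hs : (nilp F d)ᵀ * ψ + ψ * nilp F d = 0) :
    (bet d hd i ψ)ᵀ = (-1 : F) ^ (i : ℕ) • bet d hd i ψ := by
  classical
  ext l k
  rw [Matrix.transpose_apply, Matrix.smul_apply, bet_apply, bet_apply, smul_eq_mul]
  have hl : d l.1 = (i : ℕ) := congrArg Fin.val l.2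
  have hk : d k.1 = (i : ℕ) := congrArg Fin.val k.2
  have hl1 := hd l.1
  have hk1 := hd k.1
  -- `ψ (l, i-1) (k, 0) = (-1)^(i-1) ψ (l, 0) (k, i-1)`
  have h1 := ent_shift_many d ψ hs l.1 k.1 ((i : ℕ) - 1) 0 0 (by omega) (by omega)
  rw [ent_eq d ψ l.1 k.1 (0 + ((i : ℕ) - 1)) 0 (by omega) (by omega),
    ent_eq d ψ l.1 k.1 0 (0 + ((i : ℕ) - 1)) (by omega) (by omega)] at h1
  -- `ψ (l, 0) (k, i-1) = - ψ (k, i-1) (l, 0)`
  have h2 : ψ ⟨l.1, ⟨0, by omega⟩⟩ ⟨k.1, ⟨0 + ((i : ℕ) - 1), by omega⟩⟩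
      = - ψ ⟨k.1, ⟨0 + ((i : ℕ) - 1), by omega⟩⟩ ⟨l.1, ⟨0, by omega⟩⟩ := by
    have h3 := congrFun (congrFun hψ ⟨k.1, ⟨0 + ((i : ℕ) - 1), by omega⟩⟩) ⟨l.1, ⟨0, by omega⟩⟩
    rw [Matrix.transpose_apply, Matrix.neg_apply] at h3
    exact h3
  have hidx1 : (⟨l.1, ⟨d l.1 - 1, Nat.sub_lt (hd l.1) Nat.one_pos⟩⟩ : (k : Fin t) × Fin (d k))
      = ⟨l.1, ⟨0 + ((i : ℕ) - 1), by omega⟩⟩ := by
    congr 1
    exact Fin.ext (by simp; omega)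
  have hidx2 : (⟨k.1, ⟨d k.1 - 1, Nat.sub_lt (hd k.1) Nat.one_pos⟩⟩ : (k : Fin t) × Fin (d k))
      = ⟨k.1, ⟨0 + ((i : ℕ) - 1), by omega⟩⟩ := by
    congr 1
    exact Fin.ext (by simp; omega)
  rw [hidx1, hidx2, h1, h2]
  obtain ⟨A, hA⟩ : ∃ A : F, A = ψ ⟨k.1, ⟨0 + ((i : ℕ) - 1), by omega⟩⟩ ⟨l.1, ⟨0, by omega⟩⟩ :=
    ⟨_, rfl⟩
  rw [← hA]
  have hi : (i : ℕ) = ((i : ℕ) - 1) + 1 := by omega
  have h4 : (-1 : F) ^ (i : ℕ) * ((-1) ^ ((i : ℕ) - 1) * -1) = 1 := by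
    rw [← pow_succ, ← hi, ← mul_pow]
    simp
  have h5 : (-1 : F) ^ (i : ℕ) * ((-1) ^ ((i : ℕ) - 1) * -A)
      = ((-1 : F) ^ (i : ℕ) * ((-1) ^ ((i : ℕ) - 1) * -1)) * A := by ring
  rw [h5, h4, one_mul]

end Cfsg.Agent.Helper46.SPCSYMTYPE
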