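import Cfsg.Agent.Helper45.OctH
import Cfsg.Agent.Helper45.OutH
import Cfsg.Agent.Helper61.TriS3
import Cfsg.Agent.Helper48.TriS4
import Cfsg.Agent.Helper61.TriD8F
import Cfsg.Agent.Helper20.OctPNI

set_option autoImplicit false
set_option linter.unusedSectionVars false
set_option linter.unusedSimpArgs false
set_option linter.unusedVariables false
set_option linter.style.haveILetI false

universe u

namespace Cfsg.Agent.Helper46.OctP

open Cfsg Matrix Module Cfsg.Agent.Helper45 Cfsg.Agent.Helper45.AO Cfsg.Agent.Helper45.OO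
  Cfsg.Agent.Helper45.Oct

section Plus

variable {F : Type u} [Field F]

/-- polar form of the plus form against `e_i + f_i` -/
theorem dw_polar_v0 (m : ℕ) (i₀ : Fin m) (x : Fin m ⊕ Fin m → F) :
    QuadraticMap.polar (quadFormPlus m F) (Cfsg.Agent.S2722.v0 F i₀) x =
      x (Sum.inr i₀) + x (Sum.inl i₀) := by
  unfold QuadraticMap.polar quadFormPlus Cfsg.Agent.S2722.v0
  simp only [Pi.add_apply, Sum.elim_inl, Sum.elim_inr]
  rw [← Finset.sum_sub_distrib, ← Finset.sum_sub_distrib]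
  have e : ∀ i : Fin m, ((Pi.single i₀ (1 : F) : Fin m → F) i + x (Sum.inl i)) *
      ((Pi.single i₀ (1 : F) : Fin m → F) i + x (Sum.inr i)) - (Pi.single i₀ (1 : F) : Fin m → F) i * (Pi.single i₀ (1 : F) : Fin m → F) i -
      x (Sum.inl i) * x (Sum.inr i) =
      (Pi.single i₀ (1 : F) : Fin m → F) i * (x (Sum.inr i) + x (Sum.inl i)) := by
    intro i; ring
  simp only [e]
  simp [Pi.single_apply]

/-- the matrix of the reflection in `e_i + f_i` is fixed by every field automorphism -/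
theorem dw_refl_fix (m : ℕ) (i₀ : Fin m)
    (hv : Helper43.plusQF m F (Cfsg.Agent.S2722.v0 F i₀) ≠ 0) (σ : F ≃+* F) :
    glMap σ ((reflO (Helper43.plusQF m F) (Cfsg.Agent.S2722.v0 F i₀) hv :
        ↥(isometryGroup F ⇑(Helper43.plusQF m F))) : GL (Fin m ⊕ Fin m) F) =
      ((reflO (Helper43.plusQF m F) (Cfsg.Agent.S2722.v0 F i₀) hv :
        ↥(isometryGroup F ⇑(Helper43.plusQF m F))) : GL (Fin m ⊕ Fin m) F) := by
  apply Units.ext
  apply Helper13.mulVec_ext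
  intro y
  obtain ⟨x, rfl⟩ : ∃ x : Fin m ⊕ Fin m → F, y = fun i => σ (x i) :=
    ⟨fun i => σ.symm (y i), by ext i; simp⟩
  rw [glMap_mulVec]
  have h1 : ∀ z : Fin m ⊕ Fin m → F,
      (((reflO (Helper43.plusQF m F) (Cfsg.Agent.S2722.v0 F i₀) hv :
        ↥(isometryGroup F ⇑(Helper43.plusQF m F))) : GL (Fin m ⊕ Fin m) F) :
        Matrix (Fin m ⊕ Fin m) (Fin m ⊕ Fin m) F) *ᵥ z =
      z - ((Helper43.plusQF m F (Cfsg.Agent.S2722.v0 F i₀))⁻¹ *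
        QuadraticMap.polar ⇑(Helper43.plusQF m F) (Cfsg.Agent.S2722.v0 F i₀) z) •
          Cfsg.Agent.S2722.v0 F i₀ :=
    fun z => mv_reflO (Helper43.plusQF m F) _ hv z
  rw [h1, h1]
  have hq1 : Helper43.plusQF m F (Cfsg.Agent.S2722.v0 F i₀) = 1 := Cfsg.Agent.S2722.quad_v0 i₀
  rw [hq1, Helper43.plusQF_coe, dw_polar_v0, dw_polar_v0]
  have hfix : ∀ i, σ (Cfsg.Agent.S2722.v0 F i₀ i) = Cfsg.Agent.S2722.v0 F i₀ i := by
    intro i
    unfold Cfsg.Agent.S2722.v0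
    rcases i with i | i <;> simp [Pi.single_apply, apply_ite σ]
  ext i
  simp only [Pi.sub_apply, Pi.smul_apply, smul_eq_mul, map_sub, map_mul, map_add, inv_one,
    one_mul, hfix]

variable [Fintype F]

/-- PIECE DW -/
theorem plus_d8_witness (m : ℕ) (hm : 4 ≤ m) (hodd : Odd (Fintype.card F))
    (hc : ¬ (Odd m ∧ Fintype.card F % 4 = 3)) :
    ∃ γ k : MulAut (POmega F ⇑(Helper43.plusQF m F)),
      IsSimilarityInducedAutPOmega ⇑(Helper43.plusQF m F) γ ∧ γ * γ = 1 ∧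
      (∀ σ : RingAut F, fieldHom (Helper43.plusQF m F) (plus_field m) σ * γ =
        γ * fieldHom (Helper43.plusQF m F) (plus_field m) σ) ∧
      IsSimilarityInducedAutPOmega ⇑(Helper43.plusQF m F) k ∧
      γ * k * γ⁻¹ * k⁻¹ ∉ Inn (POmega F ⇑(Helper43.plusQF m F)) := by
  have h2 := two_ne_zero_of_odd_card hodd
  have hchar : ringChar F ≠ 2 := ringChar_ne_two h2
  have hQ := Helper45.plusQF_nondeg' (F := F) m
  have hn : 5 ≤ Fintype.card (Fin m ⊕ Fin m) := by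
    rw [Fintype.card_sum, Fintype.card_fin]; omega
  obtain ⟨i₀⟩ : Nonempty (Fin m) := ⟨⟨0, by omega⟩⟩
  -- `-1 ∈ Ω`
  have hqeq : qPlus m F h2 = Helper43.plusQF m F := DFunLike.coe_injective rfl
  have hneg : negO (Helper43.plusQF m F) ∈ Omega F ⇑(Helper43.plusQF m F) := by
    have hiff := negO_plus_mem_iff (m := m) hodd h2 (by omega)
    rw [(pow_mod_four _ m hodd).1, hqeq] at hiff
    exact hiff.mpr hc
  -- the reflection
  have hq1 : Helper43.plusQF m F (Cfsg.Agent.S2722.v0 F i₀) = 1 := Cfsg.Agent.S2722.quad_v0 i₀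
  have hv : Helper43.plusQF m F (Cfsg.Agent.S2722.v0 F i₀) ≠ 0 := by rw [hq1]; exact one_ne_zero
  obtain ⟨ρ, hρ⟩ : ∃ ρ : ↥(isometryGroup F ⇑(Helper43.plusQF m F)),
      ρ = reflO (Helper43.plusQF m F) (Cfsg.Agent.S2722.v0 F i₀) hv := ⟨_, rfl⟩
  have hρmem : (ρ : GL (Fin m ⊕ Fin m) F) ∈
      Geo.quadSimilarityGroup (F := F) ⇑(Helper43.plusQF m F) := iso_le_sim _ ρ.2
  obtain ⟨γ, hγdef⟩ : ∃ γ, γ = indAut ⇑(Helper43.plusQF m F) (ρ : GL (Fin m ⊕ Fin m) F) hρmem :=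
    ⟨_, rfl⟩
  have hγ : Ind ⇑(Helper43.plusQF m F) (ρ : GL (Fin m ⊕ Fin m) F) γ := by
    rw [hγdef]; exact ind_indAut _ _ _
  -- the similarity
  obtain ⟨c₁, hc₁⟩ := FiniteField.exists_nonsquare hchar
  have hc₁0 : c₁ ≠ 0 := by
    rintro rfl
    exact hc₁ ⟨0, by simp⟩
  obtain ⟨g₁, hg₁, -⟩ := Cfsg.Agent.S2722.exists_g1 (m := m) h2 c₁ hc₁0
  have hg₁mem : g₁ ∈ Geo.quadSimilarityGroup (F := F) ⇑(Helper43.plusQF m F) :=
    ⟨Units.mk0 c₁ hc₁0, hg₁⟩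
  obtain ⟨k, hkdef⟩ : ∃ k, k = indAut ⇑(Helper43.plusQF m F) g₁ hg₁mem := ⟨_, rfl⟩
  have hk : Ind ⇑(Helper43.plusQF m F) g₁ k := by
    rw [hkdef]; exact ind_indAut _ _ _
  have hγγ : γ * γ = 1 := by
    have h1 : Ind ⇑(Helper43.plusQF m F) ((ρ : GL (Fin m ⊕ Fin m) F) * ρ) (γ * γ) :=
      ind_mul _ hρmem hγ hγ
    have h3 : (ρ : GL (Fin m ⊕ Fin m) F) * ρ = 1 := by
      have := reflO_mul_self (Helper43.plusQF m F) (Cfsg.Agent.S2722.v0 F i₀) hv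
      rw [← hρ] at this
      have h4 := congrArg (fun z : ↥(isometryGroup F ⇑(Helper43.plusQF m F)) =>
        (z : GL (Fin m ⊕ Fin m) F)) this
      exact h4
    rw [h3] at h1
    exact ind_eq_of_ind (Helper43.plusQF m F) 1 (one_mem _) _ _ h1 (ind_one _)
  refine ⟨γ, k, ⟨_, hρmem, hγ⟩, hγγ, ?_, ⟨g₁, hg₁mem, hk⟩, ?_⟩
  · -- commutes with the field automorphisms
    intro σ
    rw [fieldHom_apply]
    have hfix : glMap σ (ρ : GL (Fin m ⊕ Fin m) F) = (ρ : GL (Fin m ⊕ Fin m) F) := by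
      rw [hρ]; exact dw_refl_fix m i₀ hv σ
    have hγ' := (ind_iff _ _ _).mp hγ
    have hnorm : (Omega F ⇑(Helper43.plusQF m F)).Normal := inferInstance
    apply MulEquiv.ext
    intro x
    obtain ⟨s, rfl⟩ := QuotientGroup.mk_surjective x
    show semiAut ⇑(Helper43.plusQF m F) 1 σ (plus_field m σ) (γ (QuotientGroup.mk s)) =
      γ (semiAut ⇑(Helper43.plusQF m F) 1 σ (plus_field m σ) (QuotientGroup.mk s))
    obtain ⟨s', hs'⟩ : ∃ s' : ↥(Omega F ⇑(Helper43.plusQF m F)),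
        (s' : ↥(isometryGroup F ⇑(Helper43.plusQF m F))) = ρ * s * ρ⁻¹ :=
      ⟨⟨ρ * s * ρ⁻¹, hnorm.conj_mem _ s.2 ρ⟩, rfl⟩
    have hs'' : ((s' : ↥(isometryGroup F ⇑(Helper43.plusQF m F))) : GL (Fin m ⊕ Fin m) F) =
        (ρ : GL (Fin m ⊕ Fin m) F) *
          ((s : ↥(isometryGroup F ⇑(Helper43.plusQF m F))) : GL (Fin m ⊕ Fin m) F) *
          (ρ : GL (Fin m ⊕ Fin m) F)⁻¹ := by
      rw [hs']; rfl
    have h1 : γ (QuotientGroup.mk s) = QuotientGroup.mk s' := hγ' s s' hs''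
    rw [h1, semiAut_mk, semiAut_mk]
    symm
    apply hγ'
    rw [semiΩ_coe, semiΩ_coe, hs'', map_mul, map_mul, map_inv, hfix]
    group
  · -- the commutator is not inner
    have hgv : Helper43.plusQF m F ((g₁ : Matrix (Fin m ⊕ Fin m) (Fin m ⊕ Fin m) F) *ᵥ
        Cfsg.Agent.S2722.v0 F i₀) = c₁ := by
      have := hg₁ (Cfsg.Agent.S2722.v0 F i₀)
      rw [Cfsg.Agent.S2722.quad_v0, mul_one] at this
      exact this
    have hgv0 : Helper43.plusQF m F ((g₁ : Matrix (Fin m ⊕ Fin m) (Fin m ⊕ Fin m) F) *ᵥ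
        Cfsg.Agent.S2722.v0 F i₀) ≠ 0 := by rw [hgv]; exact hc₁0
    have hconj := conjO_reflO (Helper43.plusQF m F) g₁ hg₁mem (Cfsg.Agent.S2722.v0 F i₀) hv hgv0
    rw [← hρ] at hconj
    have hconj' : ((reflO (Helper43.plusQF m F) ((g₁ : Matrix (Fin m ⊕ Fin m) (Fin m ⊕ Fin m) F) *ᵥ
        Cfsg.Agent.S2722.v0 F i₀) hgv0 : ↥(isometryGroup F ⇑(Helper43.plusQF m F))) :
        GL (Fin m ⊕ Fin m) F) = g₁ * (ρ : GL (Fin m ⊕ Fin m) F) * g₁⁻¹ := by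
      rw [← hconj]; rfl
    have hδ : Ind ⇑(Helper43.plusQF m F)
        ((reflO (Helper43.plusQF m F) (Cfsg.Agent.S2722.v0 F i₀) hv *
          reflO (Helper43.plusQF m F) ((g₁ : Matrix (Fin m ⊕ Fin m) (Fin m ⊕ Fin m) F) *ᵥ
            Cfsg.Agent.S2722.v0 F i₀) hgv0 : ↥(isometryGroup F ⇑(Helper43.plusQF m F))) :
          GL (Fin m ⊕ Fin m) F) (γ * k * γ⁻¹ * k⁻¹) := by
      have h1 : Ind ⇑(Helper43.plusQF m F)
          ((ρ : GL (Fin m ⊕ Fin m) F) * g₁ * (ρ : GL (Fin m ⊕ Fin m) F)⁻¹ * g₁⁻¹)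
          (γ * k * γ⁻¹ * k⁻¹) :=
        ind_mul _ (inv_mem hg₁mem) (ind_mul _ (inv_mem hρmem) (ind_mul _ hg₁mem hγ hk)
          (ind_inv _ hρmem hγ)) (ind_inv _ hg₁mem hk)
      have e : ((reflO (Helper43.plusQF m F) (Cfsg.Agent.S2722.v0 F i₀) hv *
          reflO (Helper43.plusQF m F) ((g₁ : Matrix (Fin m ⊕ Fin m) (Fin m ⊕ Fin m) F) *ᵥ
            Cfsg.Agent.S2722.v0 F i₀) hgv0 : ↥(isometryGroup F ⇑(Helper43.plusQF m F))) :
          GL (Fin m ⊕ Fin m) F) =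
          (ρ : GL (Fin m ⊕ Fin m) F) * g₁ * (ρ : GL (Fin m ⊕ Fin m) F)⁻¹ * g₁⁻¹ := by
        have hinv : ((ρ : GL (Fin m ⊕ Fin m) F))⁻¹ = (ρ : GL (Fin m ⊕ Fin m) F) := by
          have := Helper44.reflO_inv (Helper43.plusQF m F) (Cfsg.Agent.S2722.v0 F i₀) hv
          rw [← hρ] at this
          have h4 := congrArg (fun z : ↥(isometryGroup F ⇑(Helper43.plusQF m F)) =>
            (z : GL (Fin m ⊕ Fin m) F)) this
          exact h4
        rw [← hρ]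
        show (ρ : GL (Fin m ⊕ Fin m) F) * ((reflO (Helper43.plusQF m F)
          ((g₁ : Matrix (Fin m ⊕ Fin m) (Fin m ⊕ Fin m) F) *ᵥ Cfsg.Agent.S2722.v0 F i₀) hgv0 :
          ↥(isometryGroup F ⇑(Helper43.plusQF m F))) : GL (Fin m ⊕ Fin m) F) = _
        rw [hconj', hinv]
        have e2 : (ρ : GL (Fin m ⊕ Fin m) F) * g₁ * (ρ : GL (Fin m ⊕ Fin m) F) * g₁⁻¹ =
            (ρ : GL (Fin m ⊕ Fin m) F) * (g₁ * (ρ : GL (Fin m ⊕ Fin m) F) * g₁⁻¹) := by group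
        rw [e2]
      rw [e]; exact h1
    have hbc : ¬ IsSquare (Helper43.plusQF m F (Cfsg.Agent.S2722.v0 F i₀) *
        Helper43.plusQF m F ((g₁ : Matrix (Fin m ⊕ Fin m) (Fin m ⊕ Fin m) F) *ᵥ
          Cfsg.Agent.S2722.v0 F i₀)) := by
      rw [hq1, hgv, one_mul]; exact hc₁
    exact Cfsg.Agent.Helper20.OctP.pair_not_inn (Helper43.plusQF m F) h2 hQ hn hneg _ _ hv hgv0
      hbc _ hδ

end Plus

end Cfsg.Agent.Helper46.OctP
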