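import Mathlib
import Cfsg.Prelude.Def_OddOrderLocal

/-!
# CALL S1437 piece COMM (helper46)
-/

set_option autoImplicit false

namespace Cfsg.Agent.Helper46

open Cfsg Subgroup

universe u

variable {G : Type u} [Group G] [Finite G]

/-- COMM (pure). Two subgroups normalized by `S`, inside `S`, with trivial intersection commute
elementwise: `a b a⁻¹ b⁻¹ ∈ Q ⊓ D`. -/
theorem bg15b_comm_of_normal {S Q D : Subgroup G} (hQS : Q ≤ S) (hDS : D ≤ S)
    (hQn : S ≤ normalizer (Q : Set G)) (hDn : S ≤ normalizer (D : Set G))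
    (hdisj : Q ⊓ D = ⊥) : Q ≤ centralizer (D : Set G) := by
  intro a ha
  rw [Subgroup.mem_centralizer_iff]
  intro b hb
  have h1 : a * b * a⁻¹ * b⁻¹ ∈ Q ⊓ D := by
    constructor
    · have hbn : b ∈ normalizer (Q : Set G) := hQn (hDS hb)
      have h3 : b * a⁻¹ * b⁻¹ ∈ Q := (Subgroup.mem_normalizer_iff.1 hbn a⁻¹).1 (Q.inv_mem ha)
      have h2 : a * b * a⁻¹ * b⁻¹ = a * (b * a⁻¹ * b⁻¹) := by group
      rw [h2]
      exact Q.mul_mem ha h3
    · have han : a ∈ normalizer (D : Set G) := hDn (hQS ha)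
      have h3 : a * b * a⁻¹ ∈ D := (Subgroup.mem_normalizer_iff.1 han b).1 hb
      exact D.mul_mem h3 (D.inv_mem hb)
  rw [hdisj, Subgroup.mem_bot] at h1
  calc b * a = (a * b * a⁻¹ * b⁻¹) * (b * a) := by rw [h1, one_mul]
    _ = a * b := by group

end Cfsg.Agent.Helper46
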