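import Mathlib
import Cfsg.Prelude.Def_OddOrderLocal

/-!
# CALL S1437 piece NC (helper46)
-/

set_option autoImplicit false

namespace Cfsg.Agent.Helper46

open Cfsg Subgroup

universe u

variable {G : Type u} [Group G] [Finite G]

/-- NC (pure). A conjugate of a nilpotent subgroup is nilpotent. -/
theorem bg15b_nilpotent_conj {D D₀ : Subgroup G} {u : G}
    (h : D = D₀.map (MulAut.conj u).toMonoidHom) (hn : Group.IsNilpotent ↥D₀) :
    Group.IsNilpotent ↥D := by
  subst h
  have e : ↥D₀ ≃* ↥(D₀.map (MulAut.conj u).toMonoidHom) :=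
    D₀.equivMapOfInjective _ (MulAut.conj u).injective
  exact Group.nilpotent_of_mulEquiv e

end Cfsg.Agent.Helper46
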