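import Mathlib

/-!
Piece HYPA of CALL S0508 (helper81): the hypotheses of the Brauer-Suzuki-Wall theorem for
`K = O R` and the involution `s`.
-/

set_option autoImplicit false

namespace Cfsg.Agent.Helper46

/-- A subgroup inverted by an element is abelian. -/
theorem bswd_comm_of_inverted {G : Type*} [Group G] (H : Subgroup G) (s : G)
    (h : ∀ x ∈ H, s * x * s⁻¹ = x⁻¹) : ∀ a ∈ H, ∀ b ∈ H, a * b = b * a := by
  intro a ha b hb
  have h1 := h (a * b) (H.mul_mem ha hb)
  have h2 : s * (a * b) * s⁻¹ = (s * a * s⁻¹) * (s * b * s⁻¹) := by group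
  rw [h2, h a ha, h b hb, mul_inv_rev] at h1
  have h3 := congrArg (fun x => x⁻¹) h1
  simp only [mul_inv_rev, inv_inv] at h3
  exact h3.symm

/-- The elements of the join of two subgroups commuting elementwise. -/
theorem bswd_mem_sup_comm {G : Type*} [Group G] (O R : Subgroup G)
    (hcomm : ∀ o ∈ O, ∀ r ∈ R, o * r = r * o) :
    ∀ x ∈ O ⊔ R, ∃ o ∈ O, ∃ r ∈ R, x = o * r := by
  have hsup : O ⊔ R = Subgroup.closure ((O : Set G) ∪ (R : Set G)) := by
    rw [Subgroup.closure_union, Subgroup.closure_eq, Subgroup.closure_eq]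
  intro x hx
  rw [hsup] at hx
  induction hx using Subgroup.closure_induction with
  | mem x hx =>
    rcases hx with hx | hx
    · exact ⟨x, hx, 1, R.one_mem, (mul_one x).symm⟩
    · exact ⟨1, O.one_mem, x, hx, (one_mul x).symm⟩
  | one => exact ⟨1, O.one_mem, 1, R.one_mem, (mul_one 1).symm⟩
  | mul x y _ _ ihx ihy =>
    obtain ⟨o, ho, r, hr, rfl⟩ := ihx
    obtain ⟨o', ho', r', hr', rfl⟩ := ihy
    refine ⟨o * o', O.mul_mem ho ho', r * r', R.mul_mem hr hr', ?_⟩
    calc o * r * (o' * r') = o * (r * o') * r' := by group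
      _ = o * (o' * r) * r' := by rw [hcomm o' ho' r hr]
      _ = o * o' * (r * r') := by group
  | inv x _ ih =>
    obtain ⟨o, ho, r, hr, rfl⟩ := ih
    refine ⟨o⁻¹, O.inv_mem ho, r⁻¹, R.inv_mem hr, ?_⟩
    rw [mul_inv_rev]
    exact (hcomm o⁻¹ (O.inv_mem ho) r⁻¹ (R.inv_mem hr)).symm

theorem bswd_hypA {G : Type*} [Group G] [Finite G] (t : G) (ht : orderOf t = 2)
    (S O R : Subgroup G) (hSpg : IsPGroup 2 S) (hOodd : Odd (Nat.card O))
    (hOC : O ≤ Subgroup.centralizer ({t} : Set G))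
    (hOS : O ⊔ S = Subgroup.centralizer ({t} : Set G))
    (hRS : R ≤ S) (hRc : IsCyclic R) (hRi : R.relIndex S = 2) (htR : t ∈ R)
    (hRO : R ≤ Subgroup.centralizer (O : Set G))
    (s : G) (hsS : s ∈ S) (hsR : s ∉ R) (hs : orderOf s = 2)
    (hsinvR : ∀ x ∈ R, s * x * s⁻¹ = x⁻¹) (hsinvO : ∀ y ∈ O, s * y * s⁻¹ = y⁻¹) :
    IsMulCommutative ↥(O ⊔ R) ∧ O ⊔ R ≤ Subgroup.centralizer ({t} : Set G) ∧ t ∈ O ⊔ R ∧
      s ∈ Subgroup.centralizer ({t} : Set G) ∧ s ∉ O ⊔ R ∧
      (O ⊔ R) ⊔ Subgroup.zpowers s = Subgroup.centralizer ({t} : Set G) ∧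
      (O ⊔ R) ⊓ Subgroup.centralizer ({s} : Set G) = Subgroup.zpowers t ∧
      (∀ x ∈ O ⊔ R, s * x * s⁻¹ = x⁻¹) ∧
      (∀ x ∈ O ⊔ R, orderOf x = 2 → x = t) ∧
      (∀ x ∈ O ⊔ R, Odd (orderOf x) → x ∈ O) := by
  have hcent : ∀ (u x : G), x ∈ Subgroup.centralizer ({u} : Set G) ↔ u * x = x * u := by
    intro u x
    rw [Subgroup.mem_centralizer_iff]
    constructor
    · intro h; exact h u rfl
    · intro h y hy
      rw [Set.mem_singleton_iff] at hy
      rw [hy]; exact h
  have hcomm : ∀ o ∈ O, ∀ r ∈ R, o * r = r * o := by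
    intro o ho r hr
    have := hRO hr
    rw [Subgroup.mem_centralizer_iff] at this
    exact this o ho
  have hmem := bswd_mem_sup_comm O R hcomm
  have hRcomm := bswd_comm_of_inverted R s hsinvR
  have hS2 : ∀ x ∈ S, ∃ k : ℕ, x ^ (2 ^ k) = 1 := by
    intro x hx
    obtain ⟨k, hk⟩ := hSpg ⟨x, hx⟩
    refine ⟨k, ?_⟩
    have := congrArg Subtype.val hk
    simpa using this
  have hOS1 : ∀ x, x ∈ O → x ∈ S → x = 1 := by
    intro x hxO hxS
    obtain ⟨k, hk⟩ := hS2 x hxS
    have d1 : orderOf x ∣ 2 ^ k := orderOf_dvd_of_pow_eq_one hk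
    have d2 : orderOf x ∣ Nat.card O := Subgroup.orderOf_dvd_natCard O hxO
    have hcop : Nat.Coprime (2 ^ k) (Nat.card O) :=
      Nat.Coprime.pow_left k (Nat.coprime_two_left.mpr hOodd)
    have h3 : orderOf x ∣ Nat.gcd (2 ^ k) (Nat.card O) := Nat.dvd_gcd d1 d2
    rw [hcop.gcd_eq_one] at h3
    exact orderOf_eq_one_iff.mp (Nat.dvd_one.mp h3)
  -- `s` inverts `O ⊔ R`
  have hinvK : ∀ x ∈ O ⊔ R, s * x * s⁻¹ = x⁻¹ := by
    intro x hx
    obtain ⟨o, ho, r, hr, rfl⟩ := hmem x hx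
    have h1 : s * (o * r) * s⁻¹ = (s * o * s⁻¹) * (s * r * s⁻¹) := by group
    rw [h1, hsinvO o ho, hsinvR r hr, mul_inv_rev]
    exact hcomm o⁻¹ (O.inv_mem ho) r⁻¹ (R.inv_mem hr)
  have hKcomm := bswd_comm_of_inverted (O ⊔ R) s hinvK
  have hRC : R ≤ Subgroup.centralizer ({t} : Set G) := by
    intro r hr
    rw [hcent]
    exact hRcomm t htR r hr
  have hKC : O ⊔ R ≤ Subgroup.centralizer ({t} : Set G) := sup_le hOC hRC
  have hSC : S ≤ Subgroup.centralizer ({t} : Set G) := by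
    rw [← hOS]; exact le_sup_right
  have hsC : s ∈ Subgroup.centralizer ({t} : Set G) := hSC hsS
  have ht2 : t ^ 2 = 1 := by rw [← ht]; exact pow_orderOf_eq_one t
  have ht1 : t ≠ 1 := by
    intro h
    rw [h, orderOf_one] at ht
    omega
  -- involutions
  have hinvol : ∀ x ∈ O ⊔ R, orderOf x = 2 → x = t := by
    intro x hx hx2
    obtain ⟨o, ho, r, hr, rfl⟩ := hmem x hx
    have hor : Commute o r := hcomm o ho r hr
    have h1 : (o * r) ^ 2 = 1 := by rw [← hx2]; exact pow_orderOf_eq_one _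
    rw [hor.mul_pow] at h1
    have ho2 : o ^ 2 = 1 := by
      apply hOS1 _ (O.pow_mem ho 2)
      have : o ^ 2 = (r ^ 2)⁻¹ := eq_inv_of_mul_eq_one_left h1
      rw [this]; exact S.inv_mem (S.pow_mem (hRS hr) 2)
    have ho1 : o = 1 := by
      have d1 : orderOf o ∣ 2 := orderOf_dvd_of_pow_eq_one ho2
      have d2 : orderOf o ∣ Nat.card O := Subgroup.orderOf_dvd_natCard O ho
      have h3 : orderOf o ∣ Nat.gcd 2 (Nat.card O) := Nat.dvd_gcd d1 d2
      rw [(Nat.coprime_two_left.mpr hOodd).gcd_eq_one] at h3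
      exact orderOf_eq_one_iff.mp (Nat.dvd_one.mp h3)
    subst ho1
    rw [one_mul] at hx2 ⊢
    have hr2 : r ^ 2 = 1 := by rw [← hx2]; exact pow_orderOf_eq_one r
    have hr1 : r ≠ 1 := by
      intro h
      rw [h, orderOf_one] at hx2
      omega
    classical
    have : Fintype R := Fintype.ofFinite R
    by_contra hne
    have hcard := IsCyclic.card_pow_eq_one_le (α := R) (n := 2) (by norm_num)
    have hsub : ({1, ⟨r, hr⟩, ⟨t, htR⟩} : Finset R) ⊆
        Finset.univ.filter (fun a : R => a ^ 2 = 1) := by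
      intro a ha
      simp only [Finset.mem_insert, Finset.mem_singleton] at ha
      rw [Finset.mem_filter]
      refine ⟨Finset.mem_univ _, ?_⟩
      rcases ha with rfl | rfl | rfl
      · exact one_pow 2
      · apply Subtype.ext
        rw [Subgroup.coe_pow]
        exact hr2
      · apply Subtype.ext
        rw [Subgroup.coe_pow]
        exact ht2
    have h3 : ({1, ⟨r, hr⟩, ⟨t, htR⟩} : Finset R).card = 3 := by
      rw [Finset.card_insert_of_notMem, Finset.card_insert_of_notMem, Finset.card_singleton]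
      · rw [Finset.mem_singleton]
        intro h
        exact hne (congrArg Subtype.val h)
      · rw [Finset.mem_insert, Finset.mem_singleton]
        rintro (h | h)
        · exact hr1 (congrArg Subtype.val h).symm
        · exact ht1 (congrArg Subtype.val h).symm
    have h4 := Finset.card_le_card hsub
    omega
  -- elements of odd order
  have hoddO : ∀ x ∈ O ⊔ R, Odd (orderOf x) → x ∈ O := by
    intro x hx hxo
    obtain ⟨o, ho, r, hr, rfl⟩ := hmem x hx
    have hor : Commute o r := hcomm o ho r hr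
    have h1 : (o * r) ^ orderOf (o * r) = 1 := pow_orderOf_eq_one _
    rw [hor.mul_pow] at h1
    have hrm : r ^ orderOf (o * r) = 1 := by
      apply hOS1 _ ?_ (S.pow_mem (hRS hr) _)
      have : r ^ orderOf (o * r) = (o ^ orderOf (o * r))⁻¹ := eq_inv_of_mul_eq_one_right h1
      rw [this]; exact O.inv_mem (O.pow_mem ho _)
    obtain ⟨k, hk⟩ := hS2 r (hRS hr)
    have d1 : orderOf r ∣ orderOf (o * r) := orderOf_dvd_of_pow_eq_one hrm
    have d2 : orderOf r ∣ 2 ^ k := orderOf_dvd_of_pow_eq_one hk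
    have hcop : Nat.Coprime (2 ^ k) (orderOf (o * r)) :=
      Nat.Coprime.pow_left k (Nat.coprime_two_left.mpr hxo)
    have h3 : orderOf r ∣ Nat.gcd (2 ^ k) (orderOf (o * r)) := Nat.dvd_gcd d2 d1
    rw [hcop.gcd_eq_one] at h3
    have hr1 : r = 1 := orderOf_eq_one_iff.mp (Nat.dvd_one.mp h3)
    rw [hr1, mul_one]; exact ho
  -- `S = R ⟨s⟩`
  have hSsup : S ≤ R ⊔ Subgroup.zpowers s := by
    have hM1 : R ≤ R ⊔ Subgroup.zpowers s := le_sup_left
    have hM2 : R ⊔ Subgroup.zpowers s ≤ S :=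
      sup_le hRS (by rw [Subgroup.zpowers_le]; exact hsS)
    have hmul := Subgroup.relIndex_mul_relIndex R (R ⊔ Subgroup.zpowers s) S hM1 hM2
    rw [hRi] at hmul
    have hne1 : R.relIndex (R ⊔ Subgroup.zpowers s) ≠ 1 := by
      intro h
      rw [Subgroup.relIndex_eq_one] at h
      exact hsR (h (Subgroup.mem_sup_right (Subgroup.mem_zpowers s)))
    have h2 : (R ⊔ Subgroup.zpowers s).relIndex S = 1 := by
      have hdvd : R.relIndex (R ⊔ Subgroup.zpowers s) ∣ 2 := Dvd.intro _ hmul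
      rcases (Nat.dvd_prime Nat.prime_two).mp hdvd with h | h
      · exact absurd h hne1
      · rw [h] at hmul; omega
    exact Subgroup.relIndex_eq_one.mp h2
  refine ⟨⟨⟨fun a b => Subtype.ext (hKcomm a a.2 b b.2)⟩⟩, hKC, Subgroup.mem_sup_right htR,
    hsC, ?_, ?_, ?_, hinvK, hinvol, hoddO⟩
  · -- s ∉ O ⊔ R
    intro hsK
    obtain ⟨o, ho, r, hr, hsor⟩ := hmem s hsK
    have ho1 : o = 1 := by
      apply hOS1 o ho
      have : o = s * r⁻¹ := by rw [hsor]; group
      rw [this]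
      exact S.mul_mem hsS (S.inv_mem (hRS hr))
    rw [ho1, one_mul] at hsor
    exact hsR (hsor ▸ hr)
  · -- (O ⊔ R) ⊔ ⟨s⟩ = C(t)
    apply le_antisymm
    · exact sup_le hKC (by rw [Subgroup.zpowers_le]; exact hsC)
    · rw [← hOS]
      apply sup_le
      · exact le_sup_of_le_left le_sup_left
      · exact hSsup.trans (sup_le_sup_right le_sup_right _)
  · -- (O ⊔ R) ⊓ C(s) = ⟨t⟩
    apply le_antisymm
    · rintro x ⟨hxK, hxs0⟩
      have hxs : x ∈ Subgroup.centralizer ({s} : Set G) := hxs0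
      rw [hcent] at hxs
      have h1 := hinvK x hxK
      have h2 : s * x * s⁻¹ = x := by rw [hxs]; group
      rw [h2] at h1
      have h3 : x ^ 2 = 1 := by
        rw [pow_two]
        nth_rewrite 1 [h1]
        exact inv_mul_cancel x
      have h4 : orderOf x ∣ 2 := orderOf_dvd_of_pow_eq_one h3
      rcases (Nat.dvd_prime Nat.prime_two).mp h4 with h | h
      · rw [orderOf_eq_one_iff] at h
        rw [h]; exact Subgroup.one_mem _
      · rw [hinvol x hxK h]; exact Subgroup.mem_zpowers t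
    · rw [Subgroup.zpowers_le]
      exact ⟨Subgroup.mem_sup_right htR, (hcent s t).mpr ((hcent t s).mp hsC).symm⟩

end Cfsg.Agent.Helper46
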