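import Mathlib

/-!
Piece HYPB of CALL S0508 (helper81): the TI property of `K = O R`.
-/

set_option autoImplicit false

namespace Cfsg.Agent.Helper46

/-- The elements of `K ⊔ ⟨s⟩` when the involution `s` normalizes `K`. -/
theorem bswd_mem_sup_zpowers {G : Type*} [Group G] (K : Subgroup G) (s : G) (hs2 : s * s = 1)
    (hinvK : ∀ x ∈ K, s * x * s⁻¹ ∈ K) :
    ∀ x ∈ K ⊔ Subgroup.zpowers s, x ∈ K ∨ ∃ k₀ ∈ K, x = k₀ * s := by
  have hsinv : s⁻¹ = s := inv_eq_of_mul_eq_one_left hs2
  have hsup : K ⊔ Subgroup.zpowers s = Subgroup.closure ((K : Set G) ∪ {s}) := by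
    rw [Subgroup.closure_union, Subgroup.closure_eq, Subgroup.zpowers_eq_closure]
  intro x hx
  rw [hsup] at hx
  induction hx using Subgroup.closure_induction with
  | mem x hx =>
    rcases hx with hx | hx
    · exact Or.inl hx
    · rw [Set.mem_singleton_iff] at hx
      exact Or.inr ⟨1, K.one_mem, by rw [hx, one_mul]⟩
  | one => exact Or.inl K.one_mem
  | mul x y _ _ ihx ihy =>
    rcases ihx with hx | ⟨a, ha, rfl⟩
    · rcases ihy with hy | ⟨b, hb, rfl⟩
      · exact Or.inl (K.mul_mem hx hy)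
      · exact Or.inr ⟨x * b, K.mul_mem hx hb, by rw [mul_assoc]⟩
    · rcases ihy with hy | ⟨b, hb, rfl⟩
      · refine Or.inr ⟨a * (s * y * s⁻¹), K.mul_mem ha (hinvK y hy), ?_⟩
        group
      · refine Or.inl ?_
        have : a * s * (b * s) = a * (s * b * s⁻¹) := by
          have h1 : a * s * (b * s) = a * (s * b * s⁻¹) * (s * s) := by group
          rw [h1, hs2, mul_one]
        rw [this]
        exact K.mul_mem ha (hinvK b hb)
  | inv x _ ih =>
    rcases ih with hx | ⟨a, ha, rfl⟩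
    · exact Or.inl (K.inv_mem hx)
    · refine Or.inr ⟨s * a⁻¹ * s⁻¹, hinvK _ (K.inv_mem ha), ?_⟩
      rw [mul_inv_rev, hsinv]
      have : s * a⁻¹ * s * s = s * a⁻¹ * (s * s) := by group
      rw [this, hs2, mul_one]

theorem bswd_hypB {G : Type*} [Group G] [Finite G] (t : G) (ht : orderOf t = 2)
    (O K : Subgroup G) (s : G) (hs : orderOf s = 2)
    (hKab : IsMulCommutative ↥K) (htK : t ∈ K)
    (hH : K ⊔ Subgroup.zpowers s = Subgroup.centralizer ({t} : Set G))
    (hinv : ∀ x ∈ K, s * x * s⁻¹ = x⁻¹)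
    (hinvol : ∀ x ∈ K, orderOf x = 2 → x = t)
    (hodd : ∀ x ∈ K, Odd (orderOf x) → x ∈ O)
    (hc : ∀ Y : Subgroup G, Y ≤ O → Y ≠ ⊥ →
      Subgroup.normalizer (Y : Set G) ≤ Subgroup.centralizer ({t} : Set G)) :
    ∀ g : G, g ∉ Subgroup.centralizer ({t} : Set G) →
      K ⊓ K.map (MulAut.conj g).toMonoidHom = ⊥ := by
  intro g hg
  by_contra hne
  have hKcomm : ∀ a ∈ K, ∀ b ∈ K, a * b = b * a := by
    intro a ha b hb
    exact congrArg Subtype.val (mul_comm' (⟨a, ha⟩ : K) ⟨b, hb⟩)
  have hs2 : s * s = 1 := by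
    have := pow_orderOf_eq_one s
    rwa [hs, pow_two] at this
  have hcent : ∀ x : G, x ∈ Subgroup.centralizer ({t} : Set G) ↔ t * x = x * t := by
    intro x
    rw [Subgroup.mem_centralizer_iff]
    constructor
    · intro h; exact h t rfl
    · intro h y hy
      rw [Set.mem_singleton_iff] at hy
      rw [hy]; exact h
  have hconjord : ∀ (a x : G), orderOf (a * x * a⁻¹) = orderOf x := by
    intro a x
    have := (MulAut.conj a).orderOf_eq x
    rwa [MulAut.conj_apply] at this
  obtain ⟨k, hk, hk1⟩ : ∃ k ∈ K ⊓ K.map (MulAut.conj g).toMonoidHom, k ≠ 1 := by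
    by_contra hcon
    push Not at hcon
    exact hne ((Subgroup.eq_bot_iff_forall _).mpr hcon)
  -- reduce to prime order
  have key : ∃ k ∈ K, k ≠ 1 ∧ (orderOf k).Prime ∧ g⁻¹ * k * g ∈ K := by
    obtain ⟨hkK, hkg⟩ := hk
    obtain ⟨k', hk'K, hk'⟩ := hkg
    have hk'eq : g⁻¹ * k * g = k' := by
      rw [← hk']
      show g⁻¹ * (g * k' * g⁻¹) * g = k'
      group
    have hord : orderOf k ≠ 1 := by rwa [Ne, orderOf_eq_one_iff]
    obtain ⟨l, hl, hldvd⟩ := Nat.exists_prime_and_dvd hord
    obtain ⟨m, hm⟩ := hldvd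
    have hm0 : m ≠ 0 := by
      rintro rfl
      rw [mul_zero] at hm
      exact (orderOf_pos k).ne' hm
    have hordm : orderOf (k ^ m) = l := by
      rw [orderOf_pow_of_dvd hm0 (Dvd.intro_left l hm.symm), hm,
        Nat.mul_div_cancel _ (Nat.pos_of_ne_zero hm0)]
    refine ⟨k ^ m, K.pow_mem hkK m, ?_, ?_, ?_⟩
    · intro h
      rw [← orderOf_eq_one_iff, hordm] at h
      exact hl.one_lt.ne' h
    · rw [hordm]; exact hl
    · have : g⁻¹ * k ^ m * g = (g⁻¹ * k * g) ^ m := by
        have h1 := conj_pow (a := g⁻¹) (b := k) (i := m)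
        rw [inv_inv] at h1
        exact h1.symm
      rw [this, hk'eq]
      exact K.pow_mem hk'K m
  obtain ⟨k, hkK, hk1, hkp, hk'K⟩ := key
  have hk'ord : orderOf (g⁻¹ * k * g) = orderOf k := by
    have := hconjord g⁻¹ k
    rwa [inv_inv] at this
  rcases hkp.eq_two_or_odd' with h2 | hoddk
  · -- order two
    have e1 : k = t := hinvol k hkK h2
    have e2 : g⁻¹ * k * g = t := hinvol _ hk'K (by rw [hk'ord, h2])
    apply hg
    rw [hcent]
    rw [e1] at e2
    calc t * g = g * (g⁻¹ * t * g) := by group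
      _ = g * t := by rw [e2]
  · -- odd prime order
    have hk'O : g⁻¹ * k * g ∈ O := hodd _ hk'K (by rw [hk'ord]; exact hoddk)
    have hk'1 : g⁻¹ * k * g ≠ 1 := by
      intro h
      apply hk1
      have : k = g * (g⁻¹ * k * g) * g⁻¹ := by group
      rw [this, h]; group
    have hN := hc (Subgroup.zpowers (g⁻¹ * k * g)) (by rw [Subgroup.zpowers_le]; exact hk'O)
      (by rw [Ne, Subgroup.zpowers_eq_bot]; exact hk'1)
    -- `g t g⁻¹` commutes with `K`
    have hclaim : ∀ x ∈ K, (g * t * g⁻¹) * x = x * (g * t * g⁻¹) := by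
      intro x hx
      have hxk : x * k = k * x := hKcomm x hx k hkK
      have hcomm : Commute (g⁻¹ * x * g) (g⁻¹ * k * g) := by
        show g⁻¹ * x * g * (g⁻¹ * k * g) = g⁻¹ * k * g * (g⁻¹ * x * g)
        calc g⁻¹ * x * g * (g⁻¹ * k * g) = g⁻¹ * (x * k) * g := by group
          _ = g⁻¹ * (k * x) * g := by rw [hxk]
          _ = g⁻¹ * k * g * (g⁻¹ * x * g) := by group
      have hmemC : g⁻¹ * x * g ∈ Subgroup.centralizer
          ((Subgroup.zpowers (g⁻¹ * k * g) : Subgroup G) : Set G) := by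
        rw [Subgroup.mem_centralizer_iff]
        intro h hh
        obtain ⟨j, rfl⟩ := Subgroup.mem_zpowers_iff.mp hh
        exact ((hcomm.zpow_right j).eq).symm
      have hmem := hN (Subgroup.centralizer_le_normalizer _ hmemC)
      rw [hcent] at hmem
      calc g * t * g⁻¹ * x = g * (t * (g⁻¹ * x * g)) * g⁻¹ := by group
        _ = g * ((g⁻¹ * x * g) * t) * g⁻¹ := by rw [hmem]
        _ = x * (g * t * g⁻¹) := by group
    have ht'C : g * t * g⁻¹ ∈ Subgroup.centralizer ({t} : Set G) := by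
      rw [hcent]
      exact (hclaim t htK).symm
    rw [← hH] at ht'C
    rcases bswd_mem_sup_zpowers K s hs2 (fun x hx => by rw [hinv x hx]; exact K.inv_mem hx)
      _ ht'C with ht'K | ⟨k₀, hk₀, ht'⟩
    · have e1 : g * t * g⁻¹ = t := hinvol _ ht'K (by rw [hconjord, ht])
      apply hg
      rw [hcent]
      calc t * g = (g * t * g⁻¹) * g := by rw [e1]
        _ = g * t := by group
    · have h5 := hclaim k hkK
      rw [ht'] at h5
      have h6 : s * k = k⁻¹ * s := by
        have := hinv k hkK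
        calc s * k = (s * k * s⁻¹) * s := by group
          _ = k⁻¹ * s := by rw [this]
      have h7 : k₀ * k⁻¹ = k₀ * k := by
        have h8 : k₀ * k⁻¹ * s = k₀ * k * s := by
          calc k₀ * k⁻¹ * s = k₀ * (k⁻¹ * s) := by group
            _ = k₀ * (s * k) := by rw [h6]
            _ = k₀ * s * k := by group
            _ = k * (k₀ * s) := h5
            _ = (k * k₀) * s := by group
            _ = k₀ * k * s := by rw [hKcomm k hkK k₀ hk₀]
        exact mul_right_cancel h8
      have h9 : k⁻¹ = k := mul_left_cancel h7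
      have h10 : k ^ 2 = 1 := by
        rw [pow_two]
        nth_rewrite 1 [← h9]
        exact inv_mul_cancel k
      have h11 : orderOf k ∣ 2 := orderOf_dvd_of_pow_eq_one h10
      have h12 : orderOf k = 2 := by
        have := Nat.le_of_dvd (by norm_num) h11
        have := hkp.two_le
        omega
      rw [h12] at hoddk
      exact absurd hoddk (by decide)

end Cfsg.Agent.Helper46
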