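import Cfsg.Agent.Helper46.Gross2ClaimA

set_option autoImplicit false

namespace Cfsg.Agent.Helper46

open Cfsg.Agent.Helper63.Gross2 Cfsg.Agent.Helper63.Gross Cfsg.Agent.Helper63.Fpf4
  Cfsg.Agent.Helper63.Shult

open scoped commutatorElement Pointwise

universe u

/-- a minimal invariant normal subgroup of a solvable group is elementary abelian
(extracted from `Helper63.Gross.claimK`) -/
theorem g2c_exists_min {G : Type u} [Group G] [Finite G] [Nontrivial G]
    (hsol : Group.IsSolvable G) (σ : MulAut G) :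
    ∃ M : Subgroup G, M.Normal ∧ M ≠ ⊥ ∧ (∀ x ∈ M, σ x ∈ M) ∧
      (∀ N : Subgroup G, N.Normal → N ≠ ⊥ → (∀ x ∈ N, σ x ∈ N) → N ≤ M → N = M) ∧
      (∀ x ∈ M, ∀ y ∈ M, x * y = y * x) ∧
      ∃ ℓ : ℕ, ℓ.Prime ∧ ℓ ∣ Nat.card M ∧ ∀ x ∈ M, x ^ ℓ = 1 := by
  obtain ⟨M, ⟨hMn, hMne, hMσ⟩, hmin⟩ := wellFounded_lt.has_min
    {N : Subgroup G | N.Normal ∧ N ≠ ⊥ ∧ ∀ x ∈ N, σ x ∈ N}
    ⟨⊤, inferInstance, top_ne_bot, fun _ _ => Subgroup.mem_top _⟩
  have hMmin : ∀ N : Subgroup G, N.Normal → N ≠ ⊥ → (∀ x ∈ N, σ x ∈ N) → N ≤ M → N = M :=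
    fun N h1 h2 h3 h4 => (lt_or_eq_of_le h4).resolve_left (hmin N ⟨h1, h2, h3⟩)
  have := hMn
  have hMab : ∀ x ∈ M, ∀ y ∈ M, x * y = y * x := by
    have hcomm_ne : ⁅M, M⁆ ≠ M := by
      intro heq
      have : Nontrivial M := (Subgroup.nontrivial_iff_ne_bot M).mpr hMne
      have h1 := Group.IsSolvable.commutator_lt_top_of_nontrivial M
      have h2 : (commutator M).map M.subtype = M := by
        rw [Subgroup.map_subtype_commutator, heq]
      have h3 : commutator M = ⊤ := by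
        apply Subgroup.map_injective M.subtype_injective
        rw [h2, ← MonoidHom.range_eq_map, Subgroup.range_subtype]
      exact h1.ne h3
    have hbot : ⁅M, M⁆ = ⊥ := by
      by_contra hne
      refine hcomm_ne (hMmin ⁅M, M⁆ inferInstance hne ?_ (Subgroup.commutator_le_right M M))
      intro x hx
      have h1 : σ x ∈ (⁅M, M⁆).map σ.toMonoidHom := Subgroup.mem_map_of_mem _ hx
      rw [Subgroup.map_commutator] at h1
      have h2 : M.map σ.toMonoidHom ≤ M := by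
        rintro _ ⟨y, hy, rfl⟩
        exact hMσ y hy
      exact Subgroup.commutator_mono h2 h2 h1
    intro x hx y hy
    have : ⁅x, y⁆ ∈ ⁅M, M⁆ := Subgroup.commutator_mem_commutator hx hy
    rw [hbot, Subgroup.mem_bot, commutatorElement_eq_one_iff_commute] at this
    exact this.eq
  have hcard1 : Nat.card M ≠ 1 := fun h => hMne (Subgroup.card_eq_one.mp h)
  obtain ⟨ℓ, hℓ, hℓM⟩ : ∃ ℓ, ℓ.Prime ∧ ℓ ∣ Nat.card M :=
    ⟨(Nat.card M).minFac, Nat.minFac_prime hcard1, Nat.minFac_dvd _⟩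
  have : Fact ℓ.Prime := ⟨hℓ⟩
  have hMp : ∀ x ∈ M, x ^ ℓ = 1 := by
    let Ω : Subgroup G :=
      { carrier := {x | x ∈ M ∧ x ^ ℓ = 1}
        one_mem' := ⟨M.one_mem, one_pow _⟩
        mul_mem' := by
          rintro a b ⟨ha, ha'⟩ ⟨hb, hb'⟩
          refine ⟨M.mul_mem ha hb, ?_⟩
          rw [(show Commute a b from hMab a ha b hb).mul_pow, ha', hb', one_mul]
        inv_mem' := by
          rintro a ⟨ha, ha'⟩
          exact ⟨M.inv_mem ha, by rw [inv_pow, ha', inv_one]⟩ }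
    have hΩM : Ω ≤ M := fun x hx => hx.1
    have hΩn : Ω.Normal :=
      ⟨fun x hx g => ⟨hMn.conj_mem x hx.1 g, by rw [conj_pow, hx.2, mul_one, mul_inv_cancel]⟩⟩
    have hΩne : Ω ≠ ⊥ := by
      obtain ⟨x, hx⟩ := exists_prime_orderOf_dvd_card' (G := M) ℓ hℓM
      intro hbot
      have hxΩ : (x : G) ∈ Ω := by
        refine ⟨x.2, ?_⟩
        rw [← Subgroup.coe_pow, ← hx, pow_orderOf_eq_one]
        rfl
      rw [hbot, Subgroup.mem_bot] at hxΩ
      have hx1 : x = 1 := Subtype.ext hxΩ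
      rw [hx1, orderOf_one] at hx
      exact hℓ.one_lt.ne hx
    have hΩσ : ∀ x ∈ Ω, σ x ∈ Ω := fun x hx =>
      ⟨hMσ x hx.1, by rw [← map_pow, hx.2, map_one]⟩
    have hΩeq := hMmin Ω hΩn hΩne hΩσ hΩM
    intro x hx
    have : x ∈ Ω := by
      rw [hΩeq]
      exact hx
    exact this.2
  exact ⟨M, hMn, hMne, hMσ, hMmin, hMab, ℓ, hℓ, hℓM, hMp⟩

/-- no nontrivial invariant normal `ℓ`-subgroup modulo the centralizer
(extracted from `Helper63.Gross.claimK`) -/
theorem g2c_no_normal_l {G : Type u} [Group G] [Finite G] (σ : MulAut G) (M : Subgroup G)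
    [hMn : M.Normal] (hMne : M ≠ ⊥) (hMσ : ∀ x ∈ M, σ x ∈ M)
    (hMmin : ∀ N : Subgroup G, N.Normal → N ≠ ⊥ → (∀ x ∈ N, σ x ∈ N) → N ≤ M → N = M)
    (ℓ : ℕ) (hℓ : ℓ.Prime) (hℓM : ℓ ∣ Nat.card M)
    (C : Subgroup G) [C.Normal] (hC : C = Subgroup.centralizer (M : Set G))
    (hCmap : C.map σ.toMonoidHom = C)
    (P : Subgroup (G ⧸ C)) (hPn : P.Normal) (hPp : IsPGroup ℓ P)
    (hPσ : ∀ x ∈ P, QuotientGroup.congr C C σ hCmap x ∈ P) : P = ⊥ := by
  have : Fact ℓ.Prime := ⟨hℓ⟩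
  have hCmem : ∀ c, c ∈ C ↔ ∀ x ∈ M, x * c = c * x := by
    intro c
    rw [hC, Subgroup.mem_centralizer_iff]
    rfl
  obtain ⟨σC, hσCdef⟩ : ∃ σC : MulAut (G ⧸ C), σC = QuotientGroup.congr C C σ hCmap :=
    ⟨_, rfl⟩
  have hσCmk : ∀ g : G, σC (g : G ⧸ C) = ((σ g : G) : G ⧸ C) := by
    intro g
    rw [hσCdef]
    exact congr_mk' σ C hCmap g
  have hPφ : ∀ x ∈ P, σC x ∈ P := by
    rw [hσCdef]
    exact hPσ
  have hPφs := symm_mem_of_finite σC P hPφ
  let D : Subgroup G :=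
    { carrier := {x | x ∈ M ∧ ∀ g : G, (g : G ⧸ C) ∈ P → g * x * g⁻¹ = x}
      one_mem' := ⟨M.one_mem, fun g _ => by group⟩
      mul_mem' := by
        rintro a b ⟨ha, ha'⟩ ⟨hb, hb'⟩
        refine ⟨M.mul_mem ha hb, fun g hg => ?_⟩
        calc g * (a * b) * g⁻¹ = (g * a * g⁻¹) * (g * b * g⁻¹) := by group
          _ = a * b := by rw [ha' g hg, hb' g hg]
      inv_mem' := by
        rintro a ⟨ha, ha'⟩
        refine ⟨M.inv_mem ha, fun g hg => ?_⟩
        calc g * a⁻¹ * g⁻¹ = (g * a * g⁻¹)⁻¹ := by group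
          _ = a⁻¹ := by rw [ha' g hg] }
  have hDM : D ≤ M := fun x hx => hx.1
  have hDn : D.Normal := by
    constructor
    intro x hx y
    refine ⟨hMn.conj_mem x hx.1 y, fun g hg => ?_⟩
    have hg' : ((y⁻¹ * g * y : G) : G ⧸ C) ∈ P := by
      have := hPn.conj_mem _ hg ((y⁻¹ : G) : G ⧸ C)
      simpa using this
    have := hx.2 _ hg'
    calc g * (y * x * y⁻¹) * g⁻¹
        = y * ((y⁻¹ * g * y) * x * (y⁻¹ * g * y)⁻¹) * y⁻¹ := by group
      _ = y * x * y⁻¹ := by rw [this]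
  have hDσ : ∀ x ∈ D, σ x ∈ D := by
    intro x hx
    refine ⟨hMσ x hx.1, fun g hg => ?_⟩
    have hg' : ((σ.symm g : G) : G ⧸ C) ∈ P := by
      have h1 := hPφs _ hg
      have h2 : σC.symm (g : G ⧸ C) = ((σ.symm g : G) : G ⧸ C) := by
        apply σC.injective
        rw [MulEquiv.apply_symm_apply, hσCmk, MulEquiv.apply_symm_apply]
      rw [h2] at h1
      exact h1
    have h3 := congrArg σ (hx.2 _ hg')
    rwa [map_mul, map_mul, map_inv, MulEquiv.apply_symm_apply] at h3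
  have hDne : D ≠ ⊥ := by
    let ρM : (G ⧸ C) →* MulAut M :=
      QuotientGroup.lift _ (MulAut.conjNormal (H := M)) (by
        intro g hg
        rw [MonoidHom.mem_ker]
        ext x
        rw [MulAut.conjNormal_apply]
        have := (hCmem g).mp hg x x.2
        rw [← this]
        simp)
    let _ : MulAction P M := MulAction.compHom M (ρM.comp P.subtype)
    have hfix1 : (1 : M) ∈ MulAction.fixedPoints P M := by
      intro x
      show (ρM.comp P.subtype) x • (1 : M) = 1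
      rw [MulAut.smul_def, map_one]
    obtain ⟨b, hb, hb1⟩ :=
      hPp.exists_fixed_point_of_prime_dvd_card_of_fixed_point (α := M) hℓM hfix1
    intro hbot
    have hbD : (b : G) ∈ D := by
      refine ⟨b.2, fun g hg => ?_⟩
      have h1 : (⟨(g : G ⧸ C), hg⟩ : P) • b = b := hb ⟨_, hg⟩
      have h2 : ((ρM (g : G ⧸ C)) b : G) = g * b * g⁻¹ := by
        rw [show ρM (g : G ⧸ C) = MulAut.conjNormal g from rfl, MulAut.conjNormal_apply]
      rw [← h2]
      exact congrArg Subtype.val h1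
    rw [hbot, Subgroup.mem_bot] at hbD
    exact hb1 (Subtype.ext hbD.symm)
  have hDeq : D = M := hMmin D hDn hDne hDσ hDM
  rw [Subgroup.eq_bot_iff_forall]
  intro q hq
  induction q using QuotientGroup.induction_on with
  | _ g =>
    rw [QuotientGroup.eq_one_iff, hCmem]
    intro x hx
    have hxD : x ∈ D := hDeq ▸ hx
    have := hxD.2 g hq
    exact (mul_inv_eq_iff_eq_mul.mp this).symm

end Cfsg.Agent.Helper46
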