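import Cfsg.Agent.Helper46.Gross2ClaimB
import Cfsg.Agent.Helper46.Gross2ClaimC
import Cfsg.Agent.Helper31.G2CLCOMB
import Cfsg.Agent.Helper31.G2CLCOMM

set_option autoImplicit false

namespace Cfsg.Agent.Helper46

open Cfsg.Agent.Helper63.Gross2 Cfsg.Agent.Helper63.Gross Cfsg.Agent.Helper63.Fpf4
  Cfsg.Agent.Helper63.Shult

universe u

attribute [local instance] g2c_fit_normal

/-- the Fitting form of the key step: `σ ^ 2 ^ n` acts trivially modulo `F₂(G)` -/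
theorem g2c_main (HG : GroupStmt.{u}) (HF : FitStmt.{u}) (n : ℕ) :
    ∀ m : ℕ, ∀ (G : Type u) [Group G] [Finite G], Nat.card G = m → Group.IsSolvable G →
    ∀ σ : MulAut G, σ ^ 2 ^ (n + 1) = 1 → (∀ g, σ g = g → g = 1) →
    ∀ g : G, g⁻¹ * (σ ^ 2 ^ n) g ∈ g2cFit2 G := by
  intro m
  induction m using Nat.strong_induction_on with
  | _ m ih =>
  intro G _ _ hm hsol σ hσ hfpf
  by_cases htriv : Subsingleton G
  · intro g
    have e : g⁻¹ * (σ ^ 2 ^ n) g = 1 := Subsingleton.elim _ _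
    rw [e]; exact Subgroup.one_mem _
  have : Nontrivial G := not_subsingleton_iff_nontrivial.mp htriv
  have h2G : ¬ 2 ∣ Nat.card G := not_dvd_card_of_fpf Nat.prime_two σ (n + 1) hσ hfpf
  obtain ⟨M, hMn, hMne, hMσ, hMmin, hMab, ℓ, hℓ, hℓM, hMℓ⟩ := g2c_exists_min hsol σ
  have := hMn
  have hℓ2 : ℓ ≠ 2 := by
    rintro rfl
    exact h2G (hℓM.trans (Subgroup.card_subgroup_dvd_card M))
  have hMσs := symm_mem_of_finite σ M hMσ
  obtain ⟨C, hCdef⟩ : ∃ C : Subgroup G, C = Subgroup.centralizer (M : Set G) := ⟨_, rfl⟩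
  have hCmem : ∀ c, c ∈ C ↔ ∀ x ∈ M, x * c = c * x := by
    intro c
    rw [hCdef, Subgroup.mem_centralizer_iff]
    rfl
  have hCn : C.Normal := by
    rw [hCdef]
    infer_instance
  have := hCn
  have hMC : M ≤ C := by
    intro x hx
    rw [hCmem]
    intro y hy
    exact hMab y hy x hx
  have hCσ : ∀ x ∈ C, σ x ∈ C := by
    intro c hc
    rw [hCmem] at hc ⊢
    intro x hx
    have h1 := congrArg σ (hc _ (hMσs x hx))
    rwa [map_mul, map_mul, MulEquiv.apply_symm_apply] at h1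
  have hCmap := map_eq_of_finite σ C hCσ
  have hMmap := map_eq_of_finite σ M hMσ
  have hCne : C ≠ ⊥ := ne_bot_of_le_ne_bot hMne hMC
  -- induction hypothesis for `G ⧸ M`
  have hIHM := ih (Nat.card (G ⧸ M)) (hm ▸ card_quot_lt M hMne) (G ⧸ M) rfl inferInstance
    (QuotientGroup.congr M M σ hMmap : MulAut (G ⧸ M))
    (congr_pow_eq_one σ M hMmap _
      (fun g => by rw [hσ, MulAut.one_apply, inv_mul_cancel]; exact M.one_mem))
    (congr_fpf σ hfpf M hMσ hMmap)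
  -- induction hypothesis for `G ⧸ C`
  have hσCp : (QuotientGroup.congr C C σ hCmap : MulAut (G ⧸ C)) ^ 2 ^ (n + 1) = 1 :=
    congr_pow_eq_one σ C hCmap _
      (fun g => by rw [hσ, MulAut.one_apply, inv_mul_cancel]; exact C.one_mem)
  have hσCfpf : ∀ x : G ⧸ C, (QuotientGroup.congr C C σ hCmap : MulAut (G ⧸ C)) x = x → x = 1 :=
    congr_fpf σ hfpf C hCσ hCmap
  have hIHC := ih (Nat.card (G ⧸ C)) (hm ▸ card_quot_lt C hCne) (G ⧸ C) rfl inferInstance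
    (QuotientGroup.congr C C σ hCmap : MulAut (G ⧸ C)) hσCp hσCfpf
  have h2C : ¬ 2 ∣ Nat.card (G ⧸ C) :=
    not_dvd_card_of_fpf Nat.prime_two _ (n + 1) hσCp hσCfpf
  have hOℓ : Cfsg.pCore ℓ (G ⧸ C) = ⊥ := by
    apply g2c_no_normal_l σ M hMne hMσ hMmin ℓ hℓ hℓM C hCdef hCmap
    · have := Cfsg.Agent.Helper22.pCore_characteristic ℓ (G ⧸ C)
      exact Subgroup.normal_of_characteristic _
    · exact Cfsg.Agent.Helper22.pCore_isPGroup ℓ _
    · intro x hx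
      exact g2c_pcore_aut ℓ _ x hx
  have hstar := g2c_star HF h2C (QuotientGroup.congr C C σ hCmap : MulAut (G ⧸ C)) n hσCp ℓ hOℓ
    hIHC (by
      intro q r hq hr hq2 hr2 hqr hqℓ S hS hSσ s hs t ht
      exact Cfsg.Agent.Helper31.g2c_comm_of_group HG σ n hσ hfpf M hMσ hMab ℓ hℓ hℓ2 hMℓ C hCdef hCmap q r hq hr
        hq2 hr2 hqr hqℓ S hS hSσ s hs t ht)
  intro g
  apply Cfsg.Agent.Helper31.g2c_combine M C (fun c hc x hx => (hCmem c).mp hc x hx)
  refine ⟨?_, ?_⟩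
  · show ((g⁻¹ * (σ ^ 2 ^ n) g : G) : G ⧸ C) ∈ Cfsg.fittingSubgroup (G ⧸ C)
    have h1 := hstar (g : G ⧸ C)
    rw [congr_pow_mk] at h1
    rw [QuotientGroup.mk_mul, QuotientGroup.mk_inv]
    exact h1
  · show ((g⁻¹ * (σ ^ 2 ^ n) g : G) : G ⧸ M) ∈ g2cFit2 (G ⧸ M)
    have h1 := hIHM (g : G ⧸ M)
    rw [congr_pow_mk] at h1
    rw [QuotientGroup.mk_mul, QuotientGroup.mk_inv]
    exact h1

/-- PIECE CLAIM -/
theorem claim_of_group (HG : GroupStmt.{u}) (HF : FitStmt.{u}) (n : ℕ) : ClaimStmt.{u} n := by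
  intro G _ _ hsol σ hσ hfpf
  refine ⟨Cfsg.fittingSubgroup G, g2cFit2 G, g2c_fit_normal G, g2c_fit2_normal G, ?_, ?_,
    g2c_fit2_lcs, g2c_fit2_aut σ, g2c_main HG HF n _ G rfl hsol σ hσ hfpf⟩
  · intro x hx
    rw [g2c_mem_fit2, (QuotientGroup.eq_one_iff x).mpr hx]
    exact Subgroup.one_mem _
  · exact (Subgroup.isNilpotent_iff_lowerCentralSeries _).mp
      (Cfsg.Agent.Helper22.fittingSubgroup_isNilpotent G)

end Cfsg.Agent.Helper46
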