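import Cfsg.Agent.Helper63.Gross2Defs

set_option autoImplicit false

namespace Cfsg.Agent.Helper46

open Cfsg.Agent.Helper63.Gross2

universe u

section Fit2

variable {G : Type u} [Group G]

theorem g2c_fit_normal (G : Type u) [Group G] : (Cfsg.fittingSubgroup G).Normal :=
  haveI := Cfsg.Agent.Helper22.fittingSubgroup_characteristic G
  Subgroup.normal_of_characteristic _

attribute [local instance] g2c_fit_normal

/-- the second Fitting subgroup -/
def g2cFit2 (G : Type u) [Group G] : Subgroup G :=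
  (Cfsg.fittingSubgroup (G ⧸ Cfsg.fittingSubgroup G)).comap
    (QuotientGroup.mk' (Cfsg.fittingSubgroup G))

theorem g2c_mem_fit2 (g : G) :
    g ∈ g2cFit2 G ↔ (g : G ⧸ Cfsg.fittingSubgroup G) ∈
      Cfsg.fittingSubgroup (G ⧸ Cfsg.fittingSubgroup G) := Iff.rfl

theorem g2c_fit2_normal (G : Type u) [Group G] : (g2cFit2 G).Normal := by
  unfold g2cFit2
  infer_instance

theorem g2c_lcs_mono {S T : Subgroup G} (h : S ≤ T) (k : ℕ) :
    S.lowerCentralSeries k ≤ T.lowerCentralSeries k := by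
  induction k with
  | zero => exact h
  | succ k ih =>
    rw [Subgroup.lowerCentralSeries_succ, Subgroup.lowerCentralSeries_succ]
    exact Subgroup.commutator_mono ih h

theorem g2c_lcs_comap {K : Type*} [Group K] (f : G →* K) (T B : Subgroup K) (k : ℕ)
    (h : T.lowerCentralSeries k ≤ B) : (T.comap f).lowerCentralSeries k ≤ B.comap f := by
  rw [← Subgroup.map_le_iff_le_comap, Subgroup.map_lowerCentralSeries]
  exact (g2c_lcs_mono (Subgroup.map_comap_le f T) k).trans h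

theorem g2c_fit2_lcs [Finite G] :
    ∃ k, (g2cFit2 G).lowerCentralSeries k ≤ Cfsg.fittingSubgroup G := by
  obtain ⟨k, hk⟩ := (Subgroup.isNilpotent_iff_lowerCentralSeries _).mp
    (Cfsg.Agent.Helper22.fittingSubgroup_isNilpotent (G ⧸ Cfsg.fittingSubgroup G))
  refine ⟨k, ?_⟩
  have h1 := g2c_lcs_comap (QuotientGroup.mk' (Cfsg.fittingSubgroup G))
    (Cfsg.fittingSubgroup (G ⧸ Cfsg.fittingSubgroup G)) ⊥ k (le_of_eq hk)
  rw [MonoidHom.comap_bot, QuotientGroup.ker_mk'] at h1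
  exact h1

theorem g2c_le_fit2 [Finite G] (N : Subgroup G) [N.Normal] (N₁ : Subgroup G)
    (hN₁ : N₁ ≤ Cfsg.fittingSubgroup G) (k : ℕ) (hk : N.lowerCentralSeries k ≤ N₁) :
    N ≤ g2cFit2 G := by
  have hnormal : (N.map (QuotientGroup.mk' (Cfsg.fittingSubgroup G))).Normal :=
    Subgroup.Normal.map inferInstance _ (QuotientGroup.mk'_surjective _)
  have hnil : Group.IsNilpotent ↥(N.map (QuotientGroup.mk' (Cfsg.fittingSubgroup G))) := by
    rw [Subgroup.isNilpotent_iff_lowerCentralSeries]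
    refine ⟨k, ?_⟩
    rw [← Subgroup.map_lowerCentralSeries, eq_bot_iff]
    rintro _ ⟨x, hx, rfl⟩
    rw [Subgroup.mem_bot]
    exact (QuotientGroup.eq_one_iff x).mpr (hN₁ (hk hx))
  have hle := Cfsg.Agent.Helper22.le_fittingSubgroup_of_isSubnormal hnormal.isSubnormal hnil
  intro x hx
  rw [g2c_mem_fit2]
  exact hle (Subgroup.mem_map_of_mem _ hx)

theorem g2c_fit_aut (σ : MulAut G) : ∀ x ∈ Cfsg.fittingSubgroup G, σ x ∈ Cfsg.fittingSubgroup G := by
  intro x hx
  have h1 := Subgroup.characteristic_iff_map_eq.mp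
    (Cfsg.Agent.Helper22.fittingSubgroup_characteristic G) σ
  rw [← h1]
  exact Subgroup.mem_map_of_mem _ hx

theorem g2c_pcore_aut (p : ℕ) (σ : MulAut G) : ∀ x ∈ Cfsg.pCore p G, σ x ∈ Cfsg.pCore p G := by
  intro x hx
  have h1 := Subgroup.characteristic_iff_map_eq.mp
    (Cfsg.Agent.Helper22.pCore_characteristic p G) σ
  rw [← h1]
  exact Subgroup.mem_map_of_mem _ hx

theorem g2c_fit_map (σ : MulAut G) :
    (Cfsg.fittingSubgroup G).map σ.toMonoidHom = Cfsg.fittingSubgroup G :=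
  Subgroup.characteristic_iff_map_eq.mp
    (Cfsg.Agent.Helper22.fittingSubgroup_characteristic G) σ

theorem g2c_fit2_aut (σ : MulAut G) : ∀ x ∈ g2cFit2 G, σ x ∈ g2cFit2 G := by
  intro x hx
  rw [g2c_mem_fit2] at hx ⊢
  have h1 := g2c_fit_aut (QuotientGroup.congr _ _ σ (g2c_fit_map σ) :
    MulAut (G ⧸ Cfsg.fittingSubgroup G)) _ hx
  rw [Cfsg.Agent.Helper63.Fpf4.congr_mk'] at h1
  exact h1

end Fit2

end Cfsg.Agent.Helper46
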