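import Cfsg.Agent.Helper46.Gross2ClaimA

set_option autoImplicit false

namespace Cfsg.Agent.Helper46

open Cfsg.Agent.Helper63.Gross2 Cfsg.Agent.Helper63.Gross Cfsg.Agent.Helper63.Fpf4
  Cfsg.Agent.Helper63.Shult

open scoped Pointwise

universe u

attribute [local instance] g2c_fit_normal

/-- a `2`-element of a group of odd order is trivial -/
theorem g2c_two_elt_trivial {K : Type*} [Group K] [Finite K] (hodd : ¬ 2 ∣ Nat.card K) (y : K)
    (k : ℕ) (hy : y ^ 2 ^ k = 1) : y = 1 := by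
  have h1 : orderOf y ∣ 2 ^ k := orderOf_dvd_of_pow_eq_one hy
  have h2 : orderOf y ∣ Nat.card K := orderOf_dvd_natCard y
  have hcop : Nat.Coprime (2 ^ k) (Nat.card K) :=
    Nat.Coprime.pow_left k ((Nat.Prime.coprime_iff_not_dvd Nat.prime_two).mpr hodd)
  have h3 := Nat.dvd_gcd h1 h2
  rw [hcop.gcd_eq_one] at h3
  exact orderOf_eq_one_iff.mp (Nat.dvd_one.mp h3)

/-- the `p`-core lies in every Sylow `p`-subgroup -/
theorem g2c_pcore_le_sylow {K : Type*} [Group K] {r : ℕ} [Fact r.Prime] (P : Sylow r K) :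
    Cfsg.pCore r K ≤ P := by
  have hn : (Cfsg.pCore r K).Normal := by
    have := Cfsg.Agent.Helper22.pCore_characteristic r K
    exact Subgroup.normal_of_characteristic _
  have h1 : IsPGroup r ↥(Cfsg.pCore r K ⊔ (P : Subgroup K)) :=
    IsPGroup.to_sup_of_normal_left (Cfsg.Agent.Helper22.pCore_isPGroup r K) P.isPGroup'
  have h2 := P.is_maximal' h1 le_sup_right
  rw [← h2]
  exact le_sup_left

/-- an automorphism of `2`-power order of a group of odd order fixes a Sylow `r`-subgroup -/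
theorem g2c_exists_inv_sylow {H : Type u} [Group H] [Finite H] (hodd : ¬ 2 ∣ Nat.card H)
    (σ : MulAut H) (m : ℕ) (hσ : σ ^ 2 ^ m = 1) (r : ℕ) [Fact r.Prime] :
    ∃ S : Sylow r H, ∀ s ∈ (S : Subgroup H), σ s ∈ (S : Subgroup H) := by
  have hZ : IsPGroup 2 ↥(Subgroup.zpowers σ) := by
    rintro ⟨g, hg⟩
    obtain ⟨k, rfl⟩ := Subgroup.mem_zpowers_iff.mp hg
    refine ⟨m, ?_⟩
    apply Subtype.ext
    show (σ ^ k) ^ 2 ^ m = 1
    rw [← zpow_natCast, ← zpow_mul, mul_comm, zpow_mul, zpow_natCast, hσ, one_zpow]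
  obtain ⟨P₀⟩ : Nonempty (Sylow r H) := inferInstance
  have hnd : ¬ 2 ∣ Nat.card (Sylow r H) := by
    intro h
    apply hodd
    exact dvd_trans h (dvd_trans (Sylow.card_dvd_index P₀) (Subgroup.index_dvd_card _))
  have : Fact (Nat.Prime 2) := ⟨Nat.prime_two⟩
  obtain ⟨S, hS⟩ := hZ.nonempty_fixed_point_of_prime_not_dvd_card (Sylow r H) hnd
  refine ⟨S, ?_⟩
  intro s hs
  have h1 : (⟨σ, Subgroup.mem_zpowers σ⟩ : ↥(Subgroup.zpowers σ)) • S = S := hS _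
  have h2 : σ • S = S := h1
  have h3 : σ • s ∈ σ • (S : Subgroup H) := Subgroup.smul_mem_pointwise_smul s σ _ hs
  rw [← Sylow.pointwise_smul_def, h2] at h3
  exact h3

/-- the core of STAR: the involution `τ` induced on `H / F(H)` fixes `O_r(H / F(H))` -/
theorem g2c_star_core (HF : FitStmt.{u}) {H : Type u} [Group H] [Finite H]
    (hodd : ¬ 2 ∣ Nat.card H)
    (σ : MulAut H) (n : ℕ) (hσ : σ ^ 2 ^ (n + 1) = 1) (ℓ : ℕ)
    (hℓ : Cfsg.pCore ℓ H = ⊥)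
    (hcomm : ∀ q r : ℕ, q.Prime → r.Prime → q ≠ 2 → r ≠ 2 → q ≠ r → q ≠ ℓ →
      ∀ S : Subgroup H, IsPGroup r S → (∀ s ∈ S, σ s ∈ S) →
      ∀ s ∈ S, ∀ t ∈ Cfsg.pCore q H,
        (s⁻¹ * (σ ^ 2 ^ n) s) * t = t * (s⁻¹ * (σ ^ 2 ^ n) s))
    (r : ℕ) (hr : r.Prime) (y : H ⧸ Cfsg.fittingSubgroup H)
    (hy : y ∈ Cfsg.pCore r (H ⧸ Cfsg.fittingSubgroup H)) :
    ((QuotientGroup.congr _ _ σ (g2c_fit_map σ) : MulAut (H ⧸ Cfsg.fittingSubgroup H)) ^ 2 ^ n) y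
      = y := by
  have hoddb : ¬ 2 ∣ Nat.card (H ⧸ Cfsg.fittingSubgroup H) :=
    fun h => hodd (h.trans (Subgroup.card_quotient_dvd_card _))
  by_cases hr2 : r = 2
  · subst hr2
    obtain ⟨k, hk⟩ := (Cfsg.Agent.Helper22.pCore_isPGroup 2 (H ⧸ Cfsg.fittingSubgroup H)) ⟨y, hy⟩
    have hk' : y ^ 2 ^ k = 1 := congrArg Subtype.val hk
    rw [g2c_two_elt_trivial hoddb y k hk', map_one]
  have : Fact r.Prime := ⟨hr⟩
  obtain ⟨S, hSσ⟩ := g2c_exists_inv_sylow hodd σ (n + 1) hσ r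
  -- `y` lifts to `S`
  have hyS : y ∈ ((S.mapSurjective (QuotientGroup.mk'_surjective (Cfsg.fittingSubgroup H)) :
      Sylow r (H ⧸ Cfsg.fittingSubgroup H)) : Subgroup (H ⧸ Cfsg.fittingSubgroup H)) :=
    g2c_pcore_le_sylow _ hy
  rw [Sylow.coe_mapSurjective] at hyS
  obtain ⟨s, hs, rfl⟩ := hyS
  -- the element `kk`
  obtain ⟨kk, hkk⟩ : ∃ kk : H, kk = s⁻¹ * (σ ^ 2 ^ n) s := ⟨_, rfl⟩
  have hmk : ((QuotientGroup.congr _ _ σ (g2c_fit_map σ) :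
      MulAut (H ⧸ Cfsg.fittingSubgroup H)) ^ 2 ^ n) (QuotientGroup.mk' (Cfsg.fittingSubgroup H) s)
      = (((σ ^ 2 ^ n) s : H) : H ⧸ Cfsg.fittingSubgroup H) :=
    congr_pow_mk σ _ (g2c_fit_map σ) (2 ^ n) s
  have hWn : ((Cfsg.pCore r (H ⧸ Cfsg.fittingSubgroup H)).comap
      (QuotientGroup.mk' (Cfsg.fittingSubgroup H))).Normal := by
    have := Cfsg.Agent.Helper22.pCore_characteristic r (H ⧸ Cfsg.fittingSubgroup H)
    have hn : (Cfsg.pCore r (H ⧸ Cfsg.fittingSubgroup H)).Normal :=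
      Subgroup.normal_of_characteristic _
    exact Subgroup.Normal.comap hn _
  have hkkW : kk ∈ (Cfsg.pCore r (H ⧸ Cfsg.fittingSubgroup H)).comap
      (QuotientGroup.mk' (Cfsg.fittingSubgroup H)) := by
    show ((kk : H) : H ⧸ Cfsg.fittingSubgroup H) ∈ Cfsg.pCore r (H ⧸ Cfsg.fittingSubgroup H)
    rw [hkk, QuotientGroup.mk_mul, QuotientGroup.mk_inv]
    refine Subgroup.mul_mem _ (Subgroup.inv_mem _ hy) ?_
    have h1 := g2c_pcore_aut r ((QuotientGroup.congr _ _ σ (g2c_fit_map σ) :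
      MulAut (H ⧸ Cfsg.fittingSubgroup H)) ^ 2 ^ n) _ hy
    rw [hmk] at h1
    exact h1
  have hkkF : kk ∈ Cfsg.fittingSubgroup H := by
    apply HF H r hr _ hWn _ kk hkkW
    · intro q hq hqr t ht
      by_cases hq2 : q = 2
      · subst hq2
        obtain ⟨k, hk⟩ := (Cfsg.Agent.Helper22.pCore_isPGroup 2 H) ⟨t, ht⟩
        have hk' : t ^ 2 ^ k = 1 := congrArg Subtype.val hk
        rw [g2c_two_elt_trivial hodd t k hk', mul_one, one_mul]
      by_cases hqℓ : q = ℓ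
      · subst hqℓ
        rw [hℓ, Subgroup.mem_bot] at ht
        rw [ht, mul_one, one_mul]
      rw [hkk]
      exact hcomm q r hq hr hq2 hr2 hqr hqℓ S S.isPGroup' hSσ s hs t ht
    · intro w hw
      have hw' : ((w : H) : H ⧸ Cfsg.fittingSubgroup H) ∈
          Cfsg.pCore r (H ⧸ Cfsg.fittingSubgroup H) := hw
      obtain ⟨a, ha⟩ := (Cfsg.Agent.Helper22.pCore_isPGroup r (H ⧸ Cfsg.fittingSubgroup H))
        ⟨_, hw'⟩
      have ha' : ((w : H) : H ⧸ Cfsg.fittingSubgroup H) ^ r ^ a = 1 := congrArg Subtype.val ha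
      refine ⟨a, ?_⟩
      rw [← QuotientGroup.mk_pow] at ha'
      exact (QuotientGroup.eq_one_iff _).mp ha'
  rw [hmk]
  have e : (σ ^ 2 ^ n) s = s * kk := by rw [hkk]; group
  rw [e, QuotientGroup.mk_mul, (QuotientGroup.eq_one_iff kk).mpr hkkF, mul_one]
  rfl

/-- abstract STAR -/
theorem g2c_star (HF : FitStmt.{u}) {H : Type u} [Group H] [Finite H]
    (hodd : ¬ 2 ∣ Nat.card H)
    (σ : MulAut H) (n : ℕ) (hσ : σ ^ 2 ^ (n + 1) = 1) (ℓ : ℕ)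
    (hℓ : Cfsg.pCore ℓ H = ⊥)
    (hIH : ∀ h : H, h⁻¹ * (σ ^ 2 ^ n) h ∈ g2cFit2 H)
    (hcomm : ∀ q r : ℕ, q.Prime → r.Prime → q ≠ 2 → r ≠ 2 → q ≠ r → q ≠ ℓ →
      ∀ S : Subgroup H, IsPGroup r S → (∀ s ∈ S, σ s ∈ S) →
      ∀ s ∈ S, ∀ t ∈ Cfsg.pCore q H,
        (s⁻¹ * (σ ^ 2 ^ n) s) * t = t * (s⁻¹ * (σ ^ 2 ^ n) s)) :
    ∀ h : H, h⁻¹ * (σ ^ 2 ^ n) h ∈ Cfsg.fittingSubgroup H := by
  have hoddb : ¬ 2 ∣ Nat.card (H ⧸ Cfsg.fittingSubgroup H) :=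
    fun h => hodd (h.trans (Subgroup.card_quotient_dvd_card _))
  obtain ⟨τb, hτb⟩ : ∃ τb : MulAut (H ⧸ Cfsg.fittingSubgroup H),
      τb = (QuotientGroup.congr _ _ σ (g2c_fit_map σ) :
        MulAut (H ⧸ Cfsg.fittingSubgroup H)) ^ 2 ^ n := ⟨_, rfl⟩
  have hτbmk : ∀ x : H, τb (x : H ⧸ Cfsg.fittingSubgroup H) =
      (((σ ^ 2 ^ n) x : H) : H ⧸ Cfsg.fittingSubgroup H) := by
    intro x
    rw [hτb]
    exact congr_pow_mk σ _ (g2c_fit_map σ) (2 ^ n) x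
  have hτb2 : τb ^ 2 = 1 := by
    rw [hτb, ← pow_mul, ← pow_succ]
    exact congr_pow_eq_one σ _ (g2c_fit_map σ) _
      (fun g => by rw [hσ, MulAut.one_apply, inv_mul_cancel]; exact Subgroup.one_mem _)
  -- the fixed points of `τb`
  let Fix : Subgroup (H ⧸ Cfsg.fittingSubgroup H) :=
    { carrier := {y | τb y = y}
      one_mem' := map_one τb
      mul_mem' := by
        intro a b ha hb
        show τb (a * b) = a * b
        rw [map_mul, ha, hb]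
      inv_mem' := by
        intro a ha
        show τb a⁻¹ = a⁻¹
        rw [map_inv, ha] }
  have hFix : Cfsg.fittingSubgroup (H ⧸ Cfsg.fittingSubgroup H) ≤ Fix := by
    rw [Cfsg.Agent.Helper22.fittingSubgroup_eq_iSup_pCore (H ⧸ Cfsg.fittingSubgroup H)]
    apply iSup_le
    intro p y hy
    show τb y = y
    rw [hτb]
    exact g2c_star_core HF hodd σ n hσ ℓ hℓ hcomm p.1 p.2 y hy
  intro h
  obtain ⟨k, hk⟩ : ∃ k : H, k = h⁻¹ * (σ ^ 2 ^ n) h := ⟨_, rfl⟩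
  rw [← hk]
  have hkF2 : ((k : H) : H ⧸ Cfsg.fittingSubgroup H) ∈
      Cfsg.fittingSubgroup (H ⧸ Cfsg.fittingSubgroup H) := by
    rw [hk]
    exact (g2c_mem_fit2 _).mp (hIH h)
  have h10 : τb (k : H ⧸ Cfsg.fittingSubgroup H) = (k : H ⧸ Cfsg.fittingSubgroup H) :=
    hFix hkF2
  have h9 : τb (h : H ⧸ Cfsg.fittingSubgroup H) =
      (h : H ⧸ Cfsg.fittingSubgroup H) * (k : H ⧸ Cfsg.fittingSubgroup H) := by
    rw [hτbmk, ← QuotientGroup.mk_mul, hk]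
    congr 1
    group
  have h11 := aut_pow_apply_of τb _ _ h9 h10 2
  rw [hτb2, MulAut.one_apply] at h11
  have h12 : ((k : H ⧸ Cfsg.fittingSubgroup H)) ^ 2 = 1 := left_eq_mul.mp h11
  have h13 : (k : H ⧸ Cfsg.fittingSubgroup H) = 1 :=
    g2c_two_elt_trivial hoddb _ 1 (by rw [pow_one]; exact h12)
  exact (QuotientGroup.eq_one_iff k).mp h13

end Cfsg.Agent.Helper46
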