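import Mathlib
import Cfsg.Agent.Helper90.HTDefs
import Cfsg.Agent.Helper90.HTDefs2
import Cfsg.Agent.Helper47.HTNEG1
import Cfsg.Agent.Helper19.HTDIAGOBS
import Cfsg.Agent.Helper43.HermAdj

set_option autoImplicit false

/-!
# S5953 (helper90 call), piece B2: the bad involution `w • diag(-1, 1, …, 1)`
-/

namespace Cfsg.Agent.Helper46.HT5953

open Module Polynomial Cfsg.Agent.Helper90.HT

section models

variable {F : Type*} [Field F] [Fintype F] (q : ℕ) (hq : Fintype.card F = q ^ 2)

include hq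

/-- B2 (uses NEG1, HINV or a direct argument): the bad involution `w • diag(-1, 1, …, 1)`. -/
theorem bad_two_u (h2 : (2 : F) ≠ 0) (n : ℕ) (hn : 3 ≤ n)
    (hv : padicValNat 2 n < padicValNat 2 (q + 1)) :
    ∃ x : Matrix.SpecialLinearGroup (Fin n) F, x ∈ Cfsg.SU n F q ∧
      (∃ z : F, ((x ^ 2 : Matrix.SpecialLinearGroup (Fin n) F) : Matrix (Fin n) (Fin n) F) =
        z • (1 : Matrix (Fin n) (Fin n) F)) ∧
      (∀ z : F, (x : Matrix (Fin n) (Fin n) F) ≠ z • 1) ∧
      ∀ W : Submodule F (Fin n → F), (∀ u ∈ W, ∀ v ∈ W, Cfsg.hermForm n F q u v = 0) →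
        W.map (Matrix.toLin' (x : Matrix (Fin n) (Fin n) F)) ≤ W → 2 * finrank F W < n := by
  classical
  obtain ⟨σ, hσ⟩ := Cfsg.Agent.Helper43.HermAdj.exists_frobQ hq
  obtain ⟨w, hw1, hwn⟩ :=
    (Cfsg.Agent.Helper47.HT5953.ht_neg_one_pow q hq σ hσ h2 n (by omega)).2 hv
  have hw0 : w ≠ 0 := by
    rintro rfl
    rw [zero_mul] at hw1
    exact zero_ne_one hw1
  have hneg : (-1 : F) ≠ 1 := by
    intro h
    apply h2
    have h3 : (2 : F) = 1 - (-1) := by norm_num
    rw [h3, h, sub_self]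
  obtain ⟨i0, hi0⟩ : ∃ i0 : Fin n, i0 = ⟨0, by omega⟩ := ⟨_, rfl⟩
  obtain ⟨i1, hi1⟩ : ∃ i1 : Fin n, i1 = ⟨1, by omega⟩ := ⟨_, rfl⟩
  have h01 : i1 ≠ i0 := by
    rw [hi0, hi1]
    intro h
    have := congrArg Fin.val h
    simp at this
  obtain ⟨d, hd⟩ : ∃ d : Fin n → F, d = fun k => if k = i0 then -1 else 1 := ⟨_, rfl⟩
  have hd0 : d i0 = -1 := by rw [hd]; simp
  have hd1 : ∀ k, k ≠ i0 → d k = 1 := by
    intro k hk
    rw [hd]
    simp [hk]
  have hdcases : ∀ k, d k = -1 ∨ d k = 1 := by
    intro k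
    by_cases hk : k = i0
    · left; rw [hk, hd0]
    · right; exact hd1 k hk
  have hdd : ∀ k, d k * σ (d k) = 1 := by
    intro k
    rcases hdcases k with h | h <;> rw [h] <;> simp
  have hd2 : ∀ k, d k * d k = 1 := by
    intro k
    rcases hdcases k with h | h <;> rw [h] <;> simp
  obtain ⟨M, hM⟩ : ∃ M : Matrix (Fin n) (Fin n) F, M = w • Matrix.diagonal d := ⟨_, rfl⟩
  have hMv : ∀ (u : Fin n → F) (k : Fin n), M.mulVec u k = w * (d k * u k) := by
    intro u k
    rw [hM, Matrix.smul_mulVec, Pi.smul_apply, Matrix.mulVec_diagonal, smul_eq_mul]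
  have hprod : ∏ k, d k = -1 := by
    rw [Finset.prod_eq_single i0, hd0]
    · intro k _ hk
      exact hd1 k hk
    · intro h
      exact absurd (Finset.mem_univ _) h
  have hdet : M.det = 1 := by
    rw [hM, Matrix.det_smul, Matrix.det_diagonal, Fintype.card_fin, hwn, hprod]
    simp
  have hpres : ∀ u v, Cfsg.hermForm n F q (M.mulVec u) (M.mulVec v) = Cfsg.hermForm n F q u v := by
    intro u v
    unfold Cfsg.hermForm
    apply Finset.sum_congr rfl
    intro k _
    rw [hMv, hMv, ← hσ, map_mul, map_mul, hσ (v k)]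
    calc w * (d k * u k) * (σ w * (σ (d k) * v k ^ q))
        = (w * σ w) * (d k * σ (d k)) * (u k * v k ^ q) := by ring
      _ = u k * v k ^ q := by rw [hw1, hdd, one_mul, one_mul]
  obtain ⟨x, hxSU, hxM⟩ := exists_SU_of_matrix n M hdet hpres
  refine ⟨x, hxSU, ⟨w ^ 2, ?_⟩, ?_, ?_⟩
  · rw [Matrix.SpecialLinearGroup.coe_pow, hxM, hM, _root_.smul_pow, Matrix.diagonal_pow]
    have h3 : d ^ 2 = 1 := by
      funext k
      rw [Pi.pow_apply, pow_two, hd2, Pi.one_apply]
    rw [h3]
    congr 1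
  · intro z hz
    rw [hxM, hM] at hz
    have e0 := congrFun (congrFun hz i0) i0
    have e1 := congrFun (congrFun hz i1) i1
    rw [Matrix.smul_apply, Matrix.diagonal_apply_eq, Matrix.smul_apply, Matrix.one_apply_eq, hd0,
      smul_eq_mul, smul_eq_mul, mul_one, mul_neg, mul_one] at e0
    rw [Matrix.smul_apply, Matrix.diagonal_apply_eq, Matrix.smul_apply, Matrix.one_apply_eq,
      hd1 i1 h01, smul_eq_mul, smul_eq_mul, mul_one, mul_one] at e1
    have h3 : (2 : F) * w = 0 := by
      have h4 : w = -w := by rw [e0, e1]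
      calc (2 : F) * w = w + w := by ring
        _ = w + -w := by rw [← h4]
        _ = 0 := by ring
    rcases mul_eq_zero.1 h3 with h | h
    · exact h2 h
    · exact hw0 h
  · intro W hTI hW
    have hW' : W.map (Matrix.toLin' (Matrix.diagonal d)) ≤ W := by
      rintro _ ⟨u, hu, rfl⟩
      have h1 : Matrix.toLin' (x : Matrix (Fin n) (Fin n) F) u ∈ W := hW ⟨u, hu, rfl⟩
      rw [hxM, hM, map_smul, LinearMap.smul_apply] at h1
      have h3 := W.smul_mem w⁻¹ h1
      rwa [smul_smul, inv_mul_cancel₀ hw0, one_smul] at h3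
    have h1 := Cfsg.Agent.Helper19.HT5953.ht_diag_obs q hq n d W hTI hW'
    have himg : Finset.univ.image d ⊆ ({(-1 : F), 1} : Finset F) := by
      intro a ha
      rw [Finset.mem_image] at ha
      obtain ⟨k, _, rfl⟩ := ha
      rcases hdcases k with h | h <;> rw [h] <;> simp
    have h3 : ∑ a ∈ Finset.univ.image d, (Finset.univ.filter (fun k => d k = a)).card / 2
        ≤ ∑ a ∈ ({(-1 : F), 1} : Finset F), (Finset.univ.filter (fun k => d k = a)).card / 2 :=
      Finset.sum_le_sum_of_subset himg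
    rw [Finset.sum_pair hneg] at h3
    have hc1 : (Finset.univ.filter (fun k => d k = -1)).card = 1 := by
      have h4 : Finset.univ.filter (fun k => d k = -1) = {i0} := by
        ext k
        rw [Finset.mem_filter, Finset.mem_singleton]
        constructor
        · rintro ⟨_, hk⟩
          by_contra hne
          rw [hd1 k hne] at hk
          exact hneg hk.symm
        · rintro rfl
          exact ⟨Finset.mem_univ _, hd0⟩
      rw [h4, Finset.card_singleton]
    have hc2 : (Finset.univ.filter (fun k => d k = 1)).card ≤ n - 1 := by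
      have h4 : Finset.univ.filter (fun k => d k = 1) ⊆ Finset.univ.erase i0 := by
        intro k hk
        rw [Finset.mem_filter] at hk
        rw [Finset.mem_erase]
        refine ⟨?_, Finset.mem_univ _⟩
        rintro rfl
        rw [hd0] at hk
        exact hneg hk.2
      have h5 := Finset.card_le_card h4
      rwa [Finset.card_erase_of_mem (Finset.mem_univ _), Finset.card_univ, Fintype.card_fin] at h5
    rw [hc1] at h3
    omega

end models

end Cfsg.Agent.Helper46.HT5953
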