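import Mathlib
import Cfsg.Agent.Helper90.IMDefs

/-!
# S5958 piece E2B (for helper90): a decomposition permuted by `T` from a cyclic basis
-/

set_option autoImplicit false

namespace Cfsg.Agent.Helper46

open Module Polynomial Cfsg.Agent.Helper90.IM

section
variable {F : Type*} [Field F] {V : Type*} [AddCommGroup V] [Module F V] [FiniteDimensional F V]

omit [FiniteDimensional F V] in
/-- Transport of a decomposition indexed by an arbitrary type to `Fin t`. -/
theorem e2b_reindex (T : V →ₗ[F] V) (a : ℕ) {ι : Type*} (D : ι → Submodule F V)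
    (τ : Equiv.Perm ι) (h1 : ∀ i, finrank F (D i) = a) (h2 : iSupIndep D) (h3 : iSup D = ⊤)
    (h4 : ∀ j, (D j).map T = D (τ j)) {t : ℕ} (e : Fin t ≃ ι) :
    IsDec T a (fun j => D (e j)) ((e.trans τ).trans e.symm) := by
  refine ⟨fun i => h1 _, h2.comp e.injective, ?_, fun j => ?_⟩
  · rw [← h3]
    exact e.iSup_comp (g := D)
  · rw [h4]
    simp

omit [FiniteDimensional F V] in
/-- The spans of the blocks of a basis form a decomposition. -/
theorem e2b_blocks {κ ι : Type*} (b : Basis κ F V) (a : ℕ) (ψ : ι × Fin a ≃ κ) :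
    (∀ i, finrank F (Submodule.span F (Set.range fun k : Fin a => b (ψ (i, k)))) = a) ∧
    iSupIndep (fun i => Submodule.span F (Set.range fun k : Fin a => b (ψ (i, k)))) ∧
    (⨆ i, Submodule.span F (Set.range fun k : Fin a => b (ψ (i, k)))) = ⊤ := by
  refine ⟨fun i => ?_, ?_, ?_⟩
  · have hli : LinearIndependent F (fun k : Fin a => b (ψ (i, k))) :=
      b.linearIndependent.comp (fun k : Fin a => ψ (i, k)) (fun k k' h => by
        have := ψ.injective h
        simpa using this)
    rw [finrank_span_eq_card hli, Fintype.card_fin]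
  · rw [iSupIndep_def]
    intro i
    have h1 : Submodule.span F (Set.range fun k : Fin a => b (ψ (i, k))) =
        Submodule.span F (b '' (Set.range fun k : Fin a => ψ (i, k))) := by
      rw [← Set.range_comp]
      rfl
    have h2 : (⨆ j, ⨆ (_ : j ≠ i),
        Submodule.span F (Set.range fun k : Fin a => b (ψ (j, k)))) ≤
        Submodule.span F (b '' (Set.range fun k : Fin a => ψ (i, k))ᶜ) := by
      refine iSup₂_le fun j hj => Submodule.span_mono ?_
      rintro _ ⟨k, rfl⟩
      refine ⟨ψ (j, k), ?_, rfl⟩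
      rintro ⟨k', hk'⟩
      have := ψ.injective hk'
      exact hj (by simpa using (congrArg Prod.fst this).symm)
    show Disjoint (Submodule.span F (Set.range fun k : Fin a => b (ψ (i, k)))) _
    rw [h1]
    exact (b.linearIndependent.disjoint_span_image disjoint_compl_right).mono_right h2
  · refine top_le_iff.mp ?_
    rw [← b.span_eq]
    refine Submodule.span_le.mpr ?_
    rintro _ ⟨x, rfl⟩
    obtain ⟨⟨i, k⟩, rfl⟩ := ψ.surjective x
    exact (le_iSup (fun i => Submodule.span F (Set.range fun k : Fin a => b (ψ (i, k)))) i)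
      (Submodule.subset_span ⟨k, rfl⟩)

/-- PIECE E2B of S5958. -/
theorem dec_of_cyc_basis (T : V →ₗ[F] V) (r : ℕ) (hr : 0 < r) (z : F) (hz : z ≠ 0)
    (hT : T ^ r = z • (1 : Module.End F V)) {s : ℕ} (b : Basis (Fin s × Fin r) F V)
    (hb : ∀ j i, b (j, i) = (T ^ (i : ℕ)) (b (j, ⟨0, hr⟩))) (a u : ℕ) (hs : s = a * u) :
    ∃ (D : Fin (r * u) → Submodule F V) (σ : Equiv.Perm (Fin (r * u))), IsDec T a D σ := by
  subst hs
  obtain ⟨n, rfl⟩ := Nat.exists_eq_succ_of_ne_zero hr.ne'
  let ψ : (Fin (n + 1) × Fin u) × Fin a ≃ Fin (a * u) × Fin (n + 1) :=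
    { toFun := fun p => (finProdFinEquiv (p.2, p.1.2), p.1.1)
      invFun := fun q => ((q.2, (finProdFinEquiv.symm q.1).2), (finProdFinEquiv.symm q.1).1)
      left_inv := by intro p; simp
      right_inv := fun q => Prod.ext (finProdFinEquiv.apply_symm_apply q.1) rfl }
  have hψ : ∀ (i : Fin (n + 1)) (g : Fin u) (k : Fin a),
      ψ ((i, g), k) = (finProdFinEquiv (k, g), i) := fun _ _ _ => rfl
  obtain ⟨h1, h2, h3⟩ := e2b_blocks b a ψ
  have hTb : ∀ (j : Fin (a * u)) (i : Fin (n + 1)), T (b (j, i)) =
      if i = Fin.last n then z • b (j, ⟨0, hr⟩) else b (j, finRotate (n + 1) i) := by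
    intro j i
    have h1 : T (b (j, i)) = (T ^ ((i : ℕ) + 1)) (b (j, ⟨0, hr⟩)) := by
      rw [hb j i, pow_succ', Module.End.mul_apply]
    split_ifs with hi
    · rw [h1, hi, Fin.val_last, hT]
      simp
    · rw [h1, hb j (finRotate (n + 1) i), coe_finRotate_of_ne_last hi]
  have h4 : ∀ p : Fin (n + 1) × Fin u,
      (Submodule.span F (Set.range fun k : Fin a => b (ψ (p, k)))).map T =
        Submodule.span F (Set.range fun k : Fin a =>
          b (ψ (((finRotate (n + 1)).prodCongr (Equiv.refl (Fin u))) p, k))) := by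
    rintro ⟨i, g⟩
    show Submodule.map T (Submodule.span F (Set.range fun k : Fin a => b (ψ ((i, g), k)))) =
      Submodule.span F (Set.range fun k : Fin a => b (ψ ((finRotate (n + 1) i, g), k)))
    rw [Submodule.map_span, ← Set.range_comp]
    by_cases hi : i = Fin.last n
    · have hfun : (⇑T ∘ fun k : Fin a => b (ψ ((i, g), k))) =
          fun k : Fin a => z • b (ψ ((finRotate (n + 1) i, g), k)) := by
        funext k
        show T (b (ψ ((i, g), k))) = z • b (ψ ((finRotate (n + 1) i, g), k))
        rw [hψ, hψ, hTb, if_pos hi, hi, finRotate_last]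
        rfl
      rw [hfun]
      apply le_antisymm
      · refine Submodule.span_le.mpr ?_
        rintro _ ⟨k, rfl⟩
        exact Submodule.smul_mem _ _ (Submodule.subset_span ⟨k, rfl⟩)
      · refine Submodule.span_le.mpr ?_
        rintro _ ⟨k, rfl⟩
        have hk : b (ψ ((finRotate (n + 1) i, g), k)) =
            z⁻¹ • (z • b (ψ ((finRotate (n + 1) i, g), k))) := by
          rw [smul_smul, inv_mul_cancel₀ hz, one_smul]
        have hmem : z⁻¹ • (z • b (ψ ((finRotate (n + 1) i, g), k))) ∈
            Submodule.span F (Set.range fun k : Fin a =>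
              z • b (ψ ((finRotate (n + 1) i, g), k))) :=
          Submodule.smul_mem _ _ (Submodule.subset_span ⟨k, rfl⟩)
        show b (ψ ((finRotate (n + 1) i, g), k)) ∈ _
        rw [hk]
        exact hmem
    · have hfun : (⇑T ∘ fun k : Fin a => b (ψ ((i, g), k))) =
          fun k : Fin a => b (ψ ((finRotate (n + 1) i, g), k)) := by
        funext k
        show T (b (ψ ((i, g), k))) = b (ψ ((finRotate (n + 1) i, g), k))
        rw [hψ, hψ, hTb, if_neg hi]
      rw [hfun]
  exact ⟨_, _, e2b_reindex T a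
    (fun p : Fin (n + 1) × Fin u => Submodule.span F (Set.range fun k : Fin a => b (ψ (p, k))))
    ((finRotate (n + 1)).prodCongr (Equiv.refl (Fin u))) h1 h2 h3 h4 finProdFinEquiv.symm⟩

end

end Cfsg.Agent.Helper46
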