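import Cfsg.Agent.Helper33.WCQuad
import Cfsg.Agent.Helper33.KInfKey2
import Cfsg.Agent.Helper33.CritSub
import Cfsg.Agent.Helper33.KIso
import Cfsg.Agent.Helper33.KTransport

set_option autoImplicit false

/-!
Helper46: the lower K-infinity functor satisfies the hypotheses of helper33's weak closure theorem
for quadratic elements (`Helper33.wc_quadratic_main`).

* `kinfq_exists`: the quadratic part of S1983 (proof copied from helper33's `S1983.lean`, built on
  `Helper33.kinf_key` and `Helper33.exists_critical_subgroup`).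
* `kinfq_hloc`: the same inside a subgroup `H` of `G` with Sylow `p`-subgroup `T`.
* `kinfq_center_le`: `Z(P) ≤ K_∞(P)`.
* `kinfq_wc_of_functor`: the statement of S1974 (proof copied from helper33's `S1974.lean`).
-/

namespace Cfsg.Agent.Helper46

universe u

open scoped commutatorElement

/-- The quadratic part of S1983 (helper33). -/
theorem kinfq_exists {G : Type u} [Group G] [Finite G] {p : ℕ} [Fact p.Prime] (S : Sylow p G)
    (hK : ¬ (Cfsg.inducedFunctor Cfsg.kInfLower (S : Subgroup G)).Normal) :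
    ∃ g : G, g ∈ (S : Subgroup G) ∧ g ∉ Cfsg.pCore p G ∧
      ⁅⁅Cfsg.pCore p G ⊓ Subgroup.centralizer ((Cfsg.pCore p G : Subgroup G) : Set G),
        Subgroup.zpowers g⁆, Subgroup.zpowers g⁆ = ⊥ := by
  have hTn : (Cfsg.pCore p G).Normal := Cfsg.Agent.Helper33.pCore_normal p
  have hT : IsPGroup p (Cfsg.pCore p G) := Cfsg.Agent.Helper48.isPGroup_pCore p G
  obtain ⟨A, hAT, hAn, hA2, hA3, hA4, hA5⟩ :=
    Cfsg.Agent.Helper33.exists_critical_subgroup (Cfsg.pCore p G) hT
  have := hAn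
  obtain ⟨g, hgS, hgT, -, hZq, -⟩ :=
    Cfsg.Agent.Helper33.kinf_key S A hAT hA2 hA3 hA5 (Or.inl hK)
  refine ⟨g, hgS, hgT, ?_⟩
  have hle : Cfsg.pCore p G ⊓ Subgroup.centralizer ((Cfsg.pCore p G : Subgroup G) : Set G) ≤
      A ⊓ Subgroup.centralizer (A : Set G) :=
    (inf_le_inf le_rfl (Subgroup.centralizer_le (SetLike.coe_subset_coe.mpr hAT))).trans hA4
  exact le_bot_iff.mp ((Subgroup.commutator_mono (Subgroup.commutator_mono hle le_rfl)
    le_rfl).trans hZq.le)

/-- `kinfq_exists` inside a subgroup `H` with Sylow `p`-subgroup `T`. -/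
theorem kinfq_hloc {G : Type u} [Group G] [Finite G] {p : ℕ} [Fact p.Prime] (H T : Subgroup G)
    (hTH : T ≤ H) (hT : IsPGroup p ↥T) (hidx : ¬ p ∣ T.relIndex H)
    (hn : ¬ H ≤ Subgroup.normalizer
      ((Cfsg.inducedFunctor Cfsg.kInfLower T : Subgroup G) : Set G)) :
    ∃ g : G, g ∈ T ∧ g ∉ Cfsg.pCoreOf p H ∧
      ⁅⁅Cfsg.pCoreOf p H ⊓ Subgroup.centralizer ((Cfsg.pCoreOf p H : Subgroup G) : Set G),
        Subgroup.zpowers g⁆, Subgroup.zpowers g⁆ = ⊥ := by
  have hW : Cfsg.IsCharPFunctor.{u} p Cfsg.kInfLower :=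
    Cfsg.Agent.Helper33.isCharPFunctor_kInfLower p
  have hT' : IsPGroup p ↥(T.subgroupOf H) := hT.comap_subtype
  let S' : Sylow p ↥H := hT'.toSylow hidx
  have hS' : (S' : Subgroup ↥H) = T.subgroupOf H := rfl
  have hmapT : (T.subgroupOf H).map H.subtype = T := Subgroup.map_subgroupOf_eq_of_le hTH
  have hind : Cfsg.inducedFunctor Cfsg.kInfLower T =
      (Cfsg.inducedFunctor Cfsg.kInfLower (T.subgroupOf H)).map H.subtype := by
    have h1 := Cfsg.Agent.Helper33.inducedFunctor_map_subtype hW H (T.subgroupOf H) hT'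
    rw [hmapT] at h1
    exact h1
  have hK : ¬ (Cfsg.inducedFunctor Cfsg.kInfLower (S' : Subgroup ↥H)).Normal := by
    intro hnorm
    apply hn
    rw [hind]
    have h2 : (⊤ : Subgroup ↥H) ≤ Subgroup.normalizer
        ((Cfsg.inducedFunctor Cfsg.kInfLower (T.subgroupOf H) : Subgroup ↥H) : Set ↥H) := by
      rw [hS'] at hnorm
      rw [Subgroup.normalizer_eq_top]
    have h3 := (Cfsg.Agent.Helper33.map_le_normalizer_iff H.subtype_injective ⊤
      (Cfsg.inducedFunctor Cfsg.kInfLower (T.subgroupOf H))).mpr h2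
    rw [← MonoidHom.range_eq_map, Subgroup.range_subtype] at h3
    exact h3
  obtain ⟨g', hg'S, hg'P, hq⟩ := kinfq_exists S' hK
  refine ⟨(g' : G), Subgroup.mem_subgroupOf.mp hg'S, ?_, ?_⟩
  · rintro ⟨q, hq1, hq2⟩
    have : q = g' := Subtype.ext hq2
    exact hg'P (this ▸ hq1)
  · have h4 : Cfsg.pCoreOf p H ⊓ Subgroup.centralizer ((Cfsg.pCoreOf p H : Subgroup G) : Set G) =
        (Cfsg.pCore p ↥H ⊓ Subgroup.centralizer ((Cfsg.pCore p ↥H : Subgroup ↥H) : Set ↥H)).map
          H.subtype :=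
      (Cfsg.Agent.Helper33.map_inf_centralizer H.subtype_injective (Cfsg.pCore p ↥H)).symm
    have h5 : Subgroup.zpowers (g' : G) = (Subgroup.zpowers g').map H.subtype := by
      rw [MonoidHom.map_zpowers]
      rfl
    rw [h4, h5, ← Subgroup.map_commutator, ← Subgroup.map_commutator, hq, Subgroup.map_bot]

/-- `Z(P) ≤ K_∞(P)` for the functor induced by the lower K-infinity subgroup. -/
theorem kinfq_center_le {G : Type u} [Group G] [Finite G] {p : ℕ} [Fact p.Prime] (P : Subgroup G)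
    (hP : IsPGroup p ↥P) :
    P ⊓ Subgroup.centralizer (P : Set G) ≤ Cfsg.inducedFunctor Cfsg.kInfLower P := by
  intro z hz
  obtain ⟨hz1, hz2⟩ := Subgroup.mem_inf.mp hz
  obtain ⟨h1, h2, -, -⟩ := Cfsg.Agent.S1978.result hP
  have hzc : (⟨z, hz1⟩ : ↥P) ∈ Subgroup.center ↥P := by
    rw [Subgroup.mem_center_iff]
    intro y
    apply Subtype.ext
    exact Subgroup.mem_centralizer_iff.mp hz2 (y : G) y.2
  exact ⟨⟨z, hz1⟩, h1 (h2 hzc), rfl⟩

/-- The statement of S1974 (helper33; proof copied from helper33's `S1974.lean`, which derives it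
from `Helper33.wc_quadratic_main`). -/
theorem kinfq_wc_of_functor {G : Type*} [Group G] [Finite G] {p : ℕ} [Fact p.Prime] (S : Sylow p G) (W : Subgroup G → Subgroup G) (hW : Cfsg.IsConjugacyFunctor p W) (hWZ : ∀ P : Subgroup G, IsPGroup p ↥P → P ⊓ Subgroup.centralizer ((P : Subgroup G) : Set G) ≤ W P) (hloc : ∀ (H T : Subgroup G), T ≤ H → IsPGroup p ↥T → ¬ p ∣ (T).relIndex (H) → ¬ H ≤ Subgroup.normalizer ((W T : Subgroup G) : Set G) → ∃ g : G, g ∈ T ∧ g ∉ Cfsg.pCoreOf p H ∧ ⁅⁅Cfsg.pCoreOf p H ⊓ Subgroup.centralizer ((Cfsg.pCoreOf p H : Subgroup G) : Set G), Subgroup.zpowers g⁆, Subgroup.zpowers g⁆ = ⊥) (Z : Subgroup G) (hZ : Z = Subgroup.closure ((fun z : G => z ^ p) '' (((S : Subgroup G) ⊓ Subgroup.centralizer (((S : Subgroup G) : Subgroup G) : Set G) : Subgroup G) : Set G))) : (∀ x ∈ Z ⊓ Subgroup.centralizer ((Subgroup.normalizer ((W (S : Subgroup G) : Subgroup G) : Set G) : Subgroup G) : Set G), ∀ g : G, g * x * g⁻¹ ∈ (S : Subgroup G) → g *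 x * g⁻¹ = x) ∧ ∀ A : Subgroup G, A ≤ Z → Subgroup.normalizer ((W (S : Subgroup G) : Subgroup G) : Set G) ≤ Subgroup.normalizer ((A : Subgroup G) : Set G) → Cfsg.IsWeaklyClosed A (S : Subgroup G) := by
  have hmain := Cfsg.Agent.Helper33.wc_quadratic_main W hW hWZ hloc
  have hclZ : Subgroup.closure ((fun z : G => z ^ p) ''
      (((S : Subgroup G) ⊓ Subgroup.centralizer ((S : Subgroup G) : Set G) : Subgroup G) : Set G)) ≤
      (S : Subgroup G) ⊓ Subgroup.centralizer ((S : Subgroup G) : Set G) := by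
    rw [Subgroup.closure_le]
    rintro _ ⟨z, hz, rfl⟩
    exact Subgroup.pow_mem _ hz p
  have part2 : ∀ A : Subgroup G, A ≤ Z →
      Subgroup.normalizer ((W (S : Subgroup G) : Subgroup G) : Set G) ≤
        Subgroup.normalizer ((A : Subgroup G) : Set G) →
      Cfsg.IsWeaklyClosed A (S : Subgroup G) := by
    intro A hA hAN
    have hAZ : A ≤ Subgroup.closure ((fun z : G => z ^ p) ''
        (((S : Subgroup G) ⊓ Subgroup.centralizer ((S : Subgroup G) : Set G) : Subgroup G) :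
          Set G)) := hZ ▸ hA
    refine ⟨(hAZ.trans hclZ).trans inf_le_left, fun g hg => ?_⟩
    have h1 := hmain _ ⊤ (S : Subgroup G) rfl le_top S.2
      (by rw [Subgroup.relIndex_top_right]; exact S.not_dvd_index) A hAZ
      (by rw [top_inf_eq]; exact hAN) g⁻¹ (Subgroup.mem_top _)
      (by rw [Cfsg.Agent.Helper33.conjSet_coe, inv_inv]; exact SetLike.coe_subset_coe.mpr hg)
    rw [Cfsg.Agent.Helper33.conjSet_coe, inv_inv] at h1
    exact SetLike.coe_injective h1
  refine ⟨?_, part2⟩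
  intro x hx g hgx
  obtain ⟨hxZ, hxC⟩ := Subgroup.mem_inf.mp hx
  have hxZS : x ∈ (S : Subgroup G) ⊓ Subgroup.centralizer ((S : Subgroup G) : Set G) :=
    hclZ (hZ ▸ hxZ)
  have hwc := part2 (Subgroup.zpowers x) ((Subgroup.zpowers_le).mpr hxZ) (by
    intro n hn
    apply Subgroup.centralizer_le_normalizer
    apply Subgroup.mem_centralizer_iff.mpr
    intro h hh
    obtain ⟨k, rfl⟩ := Subgroup.mem_zpowers_iff.mp hh
    have hc : Commute x n := (Subgroup.mem_centralizer_iff.mp hxC n hn).symm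
    exact (hc.zpow_left k).eq)
  have hmap : (Subgroup.zpowers x).map (MulAut.conj g).toMonoidHom =
      Subgroup.zpowers (g * x * g⁻¹) := by
    rw [MonoidHom.map_zpowers]
    rfl
  have hle : (Subgroup.zpowers x).map (MulAut.conj g).toMonoidHom ≤ (S : Subgroup G) := by
    rw [hmap, Subgroup.zpowers_le]
    exact hgx
  have heq := hwc.2 g hle
  have hy : g * x * g⁻¹ ∈ Subgroup.zpowers x := by
    rw [← heq, hmap]
    exact Subgroup.mem_zpowers _
  have hyZS : g * x * g⁻¹ ∈ (S : Subgroup G) ⊓ Subgroup.centralizer ((S : Subgroup G) : Set G) :=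
    (Subgroup.zpowers_le).mpr hxZS hy
  -- Burnside's argument
  have hS1 : (S : Subgroup G) ≤ Subgroup.centralizer ({g * x * g⁻¹} : Set G) := by
    intro s hs
    apply Subgroup.mem_centralizer_iff.mpr
    intro h hh
    rw [Set.mem_singleton_iff] at hh
    subst hh
    exact (Subgroup.mem_centralizer_iff.mp (Subgroup.mem_inf.mp hyZS).2 s hs).symm
  have hS2 : (S : Subgroup G).map (MulAut.conj g).toMonoidHom ≤
      Subgroup.centralizer ({g * x * g⁻¹} : Set G) := by
    rintro _ ⟨s, hs, rfl⟩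
    apply Subgroup.mem_centralizer_iff.mpr
    intro h hh
    rw [Set.mem_singleton_iff] at hh
    subst hh
    have h1 : s * x = x * s := Subgroup.mem_centralizer_iff.mp (Subgroup.mem_inf.mp hxZS).2 s hs
    show g * x * g⁻¹ * (g * s * g⁻¹) = g * s * g⁻¹ * (g * x * g⁻¹)
    calc g * x * g⁻¹ * (g * s * g⁻¹) = g * (x * s) * g⁻¹ := by group
      _ = g * (s * x) * g⁻¹ := by rw [h1]
      _ = g * s * g⁻¹ * (g * x * g⁻¹) := by group
  obtain ⟨c, hc, hcS⟩ := Cfsg.Agent.Helper33.exists_cj_le_of_relIndex hS1 S.2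
    (Cfsg.Agent.Helper33.sylow_not_dvd_relIndex S hS1) hS2
    (Cfsg.Agent.Helper33.isPGroup_cj S.2 g)
  have hcg : c * g ∈ Subgroup.normalizer ((S : Subgroup G) : Set G) := by
    apply Cfsg.Agent.Helper33.mem_normalizer_of_cj_le
    intro z hz
    apply hcS
    obtain ⟨s, hs, rfl⟩ := hz
    exact ⟨g * s * g⁻¹, ⟨s, hs, rfl⟩, by simp [mul_assoc]⟩
  have hcgW := Cfsg.Agent.Helper33.normalizer_le_normalizer_functor hW S.2 hcg
  have h1 : c * g * x = x * (c * g) := Subgroup.mem_centralizer_iff.mp hxC _ hcgW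
  have h2 : g * x * g⁻¹ * c = c * (g * x * g⁻¹) :=
    Subgroup.mem_centralizer_iff.mp hc _ (Set.mem_singleton _)
  have h3 : c * g * x * (c * g)⁻¹ = x := by
    rw [h1]
    group
  have h4 : c * (g * x * g⁻¹) * c⁻¹ = g * x * g⁻¹ := by
    rw [← h2]
    group
  calc g * x * g⁻¹ = c * (g * x * g⁻¹) * c⁻¹ := h4.symm
    _ = c * g * x * (c * g)⁻¹ := by group
    _ = x := h3


end Cfsg.Agent.Helper46
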