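import Mathlib
import Cfsg.Prelude.Def_GeometricClasses
import Cfsg.Prelude.Def_Classical
import Cfsg.Agent.Helper58.TSDefs
import Cfsg.Agent.Helper65.TSOBDefs
import Cfsg.Agent.Helper98.OPar
import Cfsg.Agent.Helper43.OTDefs
import Cfsg.Agent.Helper34.HTHFIX
import Cfsg.Agent.Helper47.HTHTIB

set_option autoImplicit false

/-!
# Sub-CALL OB (helper65) of CALL TS (helper58): piece CC (helper46)
-/

namespace Cfsg.Agent.Helper46.OB

open Module Cfsg Cfsg.Geo Cfsg.Agent.Helper58.TS Cfsg.Agent.Helper65.TSOB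

section geo

variable {ι : Type} [Fintype ι] [DecidableEq ι] {F : Type*} [Field F] [Fintype F]

/-- CC: a totally singular subspace `W` of the fixed space `C = ker (T - 1)`, when
`D = range (T - 1)` has dimension `2 m` and contains a totally singular `m`-space `U`:
`dim W ≤ d - m - δ`. -/
theorem ob_cc (Q : (ι → F) → F) (hQ : IsNondegenerateQuadraticForm Q) (d δ : ℕ)
    (hcard : Fintype.card ι = 2 * d) (hδ : TypeDefect Q δ)
    (T : Module.End F (ι → F)) (hT : ∀ v, Q (T v) = Q v) (r : ℕ) (hrF : (r : F) ≠ 0)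
    (hTr : T ^ r = 1) (m : ℕ) (hdim : finrank F (LinearMap.range (T - 1)) = 2 * m)
    (hplus : ∃ U : Submodule F (ι → F), U ≤ LinearMap.range (T - 1) ∧ (∀ w ∈ U, Q w = 0) ∧
      finrank F U = m)
    (W : Submodule F (ι → F)) (hW0 : ∀ w ∈ W, Q w = 0) (hW : W ≤ LinearMap.ker (T - 1)) :
    finrank F W + m + δ ≤ d := by
  obtain ⟨h, hhdef⟩ : ∃ h : (ι → F) → (ι → F) → F,
      h = Cfsg.Agent.Helper43.OT.ph (Cfsg.Agent.Helper98.op_qf Q hQ) := ⟨_, rfl⟩
  have hh : Cfsg.Agent.Helper90.HT.IsHerm (RingHom.id F) h := by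
    rw [hhdef]
    exact Cfsg.Agent.Helper43.OT.isHerm_ph _
  have hpol : ∀ u v, h u v = Q (u + v) - Q u - Q v := by
    intro u v
    rw [hhdef]
    rfl
  have hnd : ∀ v, (∀ w, h v w = 0) → v = 0 := by
    intro v hv
    by_contra h0
    obtain ⟨x, hx⟩ := (hQ.nondegenerate v h0).2
    apply hx
    have := hv x
    rw [hpol] at this
    exact this
  have hTh : Cfsg.Agent.Helper90.HT.HPres h T := by
    rw [hhdef]
    exact Cfsg.Agent.Helper43.OT.hpres_ph (Cfsg.Agent.Helper98.op_qf Q hQ) T hT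
  obtain ⟨-, hcompl, horth, -, hCnd, -⟩ :=
    Cfsg.Agent.Helper34.HT5953.ht_fix (RingHom.id F) h hh hnd T hTh r hrF hTr
  have hV : finrank F (ι → F) = 2 * d := by
    rw [Module.finrank_fintype_fun_eq_card, hcard]
  have hsum : finrank F (LinearMap.ker (T - 1)) + finrank F (LinearMap.range (T - 1)) = 2 * d := by
    rw [← hV]
    exact Submodule.finrank_add_eq_of_isCompl hcompl
  have hTI : Cfsg.Agent.Helper90.HT.HTI h W := by
    intro u hu v hv
    rw [hpol, hW0 _ (W.add_mem hu hv), hW0 u hu, hW0 v hv]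
    simp
  have hb := Cfsg.Agent.Helper47.HT5953.ht_bound (RingHom.id F) h hh (LinearMap.ker (T - 1)) W
    hCnd hW hTI
  rcases hδ with ⟨rfl, -⟩ | ⟨rfl, hnp⟩
  · omega
  · by_contra hcon
    have hWd : finrank F W + m = d := by omega
    obtain ⟨U, hUD, hU0, hUd⟩ := hplus
    apply hnp
    refine ⟨U ⊔ W, le_top, ?_, ?_⟩
    · intro x hx
      obtain ⟨u, hu, w, hw, rfl⟩ := Submodule.mem_sup.1 hx
      have h1 : h w u = 0 := horth w (hW hw) u (hUD hu)
      have h2 : h u w = 0 := by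
        rw [hh.symm w u, h1]
        simp
      have h3 := hpol u w
      rw [h2, hU0 u hu, hW0 w hw] at h3
      simpa using h3.symm
    · have hinf : U ⊓ W = ⊥ := by
        rw [eq_bot_iff]
        rintro x ⟨hxU, hxW⟩
        have h5 : x ∈ LinearMap.ker (T - 1) ⊓ LinearMap.range (T - 1) := ⟨hW hxW, hUD hxU⟩
        rw [hcompl.inf_eq_bot] at h5
        exact h5
      have h4 := Submodule.finrank_sup_add_finrank_inf_eq U W
      rw [hinf, finrank_bot, add_zero] at h4
      rw [finrank_top, hV, h4, hUd]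
      omega

end geo

end Cfsg.Agent.Helper46.OB
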