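import Mathlib
import Cfsg.Prelude.Def_GeometricClasses
import Cfsg.Agent.Helper96.SpCore
import Cfsg.Agent.Helper94.OAE

/-!
Piece ZAOp of CALL S5871 (helper97): the analysis of the centre of the centraliser of a normal
subgroup of an irreducible group of isometries of a quadratic form in odd characteristic, with the
pair of complementary totally singular subspaces made explicit.  The proof is
`Cfsg.Agent.Helper94.OA.o12_z_odd` (helper94) with a new ending of the singular branch.
-/

set_option autoImplicit false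
set_option linter.unusedSectionVars false
set_option linter.unusedVariables false
open Cfsg Cfsg.Geo Matrix
open scoped Kronecker
open Cfsg.Agent.Helper96
open Cfsg.Agent.Helper94.OA

namespace Cfsg.Agent.Helper46

variable {F : Type*} [Field F]

theorem o12_z_odd_pair [Fintype F] (h2 : (2 : F) ≠ 0) {n : ℕ} (hn : 2 ≤ n) (Q : (Fin n → F) → F)
    (hQ : IsNondegenerateQuadraticForm Q) (H N : Subgroup (GL (Fin n) F))
    (hH : ∀ h ∈ H, ∀ x, Q ((h : Matrix (Fin n) (Fin n) F) *ᵥ x) = Q x)
    (hirr : ActsIrreducibly (matrixSet H)) (hNH : N ≤ H)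
    (hNn : ∀ h ∈ H, ∀ x ∈ N, h * x * h⁻¹ ∈ N) :
    (∃ (t k : ℕ) (D : Fin t → Submodule F (Fin n → F)),
      IsNondegenerateMDecomposition (QuadraticMap.polar Q) k D ∧ H ≤ decompositionStabilizer D) ∨
    (∃ (r : ℕ) (K : Subalgebra F (Matrix (Fin n) (Fin n) F)), r.Prime ∧ IsFieldSubalgebra r K ∧
      H ≤ subalgebraNormalizer K) ∨
    (∃ (m : ℕ) (D : Fin 2 → Submodule F (Fin n → F)), IsMDecomposition m D ∧
      (∀ i, IsTotallySingularQuad Q (D i)) ∧ H ≤ decompositionStabilizer D) ∨
    (∀ k, Cfsg.Agent.Helper96.ZCent (matrixSet N) k →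
      ∃ c : F, k = c • (1 : Matrix (Fin n) (Fin n) F)) := by
  classical
  obtain ⟨f, hfdef⟩ : ∃ f, f = QuadraticMap.polar Q := ⟨_, rfl⟩
  have hf : IsSymmetricForm f :=
    hfdef ▸ ⟨hQ.polar_bilinear, fun u v => QuadraticMap.polar_comm Q u v, hQ.nondegenerate⟩
  have hH' : H ≤ Sy.isoSub f := by
    intro g hg
    rw [Sy.mem_isoSub, hfdef]
    exact Helper97.Gen.polar_isometry ((Helper97.Gen.mem_isometryGroup_iff Q g).mpr (hH g hg))
  have hQf : ∀ x, f x x = 0 → Q x = 0 := by
    intro x hx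
    have h1 : QuadraticMap.polar Q x x = 2 * Q x := by
      unfold QuadraticMap.polar
      have h3 : x + x = (2 : F) • x := (two_smul F x).symm
      rw [h3, hQ.smul]
      ring
    rw [hfdef, h1] at hx
    exact (mul_eq_zero.mp hx).resolve_left h2
  rw [← hfdef]
  have hH := hH'
  have hne : NeZero n := ⟨by omega⟩
  obtain ⟨T, hT⟩ : ∃ T, T = matrixSet N := ⟨_, rfl⟩
  rw [← hT]
  have hconj1 : ∀ g ∈ H, ∀ s ∈ T, (g : Matrix (Fin n) (Fin n) F) * s *
      ((g⁻¹ : GL (Fin n) F) : Matrix (Fin n) (Fin n) F) ∈ T := by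
    intro g hg
    rw [hT]
    exact matrixSet_conj N g (hNn g hg)
  have hconj2 : ∀ g ∈ H, ∀ s ∈ T, ((g⁻¹ : GL (Fin n) F) : Matrix (Fin n) (Fin n) F) * s *
      (g : Matrix (Fin n) (Fin n) F) ∈ T := by
    intro g hg
    rw [hT]
    have := matrixSet_conj N g⁻¹ (hNn g⁻¹ (H.inv_mem hg))
    simpa using this
  have hiso : Sy.IsoSet f T := by
    intro s hs
    rw [hT] at hs ⊢
    obtain ⟨x, hx, rfl⟩ := hs
    exact ⟨x, hH (hNH hx), rfl, Helper97.coe_mem_matrixSet (N.inv_mem hx)⟩
  have hZconj : ∀ g ∈ H, ∀ a, ZCent T a → ZCent T ((g : Matrix (Fin n) (Fin n) F) * a *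
      ((g⁻¹ : GL (Fin n) F) : Matrix (Fin n) (Fin n) F)) :=
    fun g hg a ha => zcent_conj T g (hconj2 g hg) (hconj1 g hg) a ha
  have hZadj : ∀ a, ZCent T a → ZCent T (Sy.adj f a) := fun a ha => zcent_adj hf hiso ha
  have hZcomm : ∀ a, ZCent T a → ∀ b, ZCent T b → a * b = b * a := fun a ha b hb => ha.2 b hb.1
  by_cases hD1 : ∃ M, (ZCent T M ∧ Sy.adj f M = M) ∧ M ≠ 0 ∧ ∃ v : Fin n → F, v ≠ 0 ∧ M *ᵥ v = 0
  · left
    obtain ⟨M, hM, hM0, v, hv0, hMv⟩ := hD1
    exact nondeg_decomp hf H hH hirr {M | ZCent T M ∧ Sy.adj f M = M}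
      (fun a ha b hb => hZcomm a ha.1 b hb.1)
      (fun g hg a ha => ⟨hZconj g hg a ha.1, by rw [adj_conj hf (hH hg), ha.2]⟩)
      (fun a ha => ha.2) M hM hM0 v hv0 hMv
  have hZp : ∀ M, ZCent T M → Sy.adj f M = M → M ≠ 0 → ∀ v : Fin n → F, M *ᵥ v = 0 → v = 0 := by
    intro M hM hM' hM0 v hv
    by_contra hv0
    exact hD1 ⟨M, ⟨hM, hM'⟩, hM0, v, hv0, hv⟩
  have hFSp : Helper98.IsFS (zcp f hf T) := by
    constructor
    · intro x hx y hy
      exact hZcomm x hx.1 y hy.1
    · intro x hx hx0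
      have hdet : x.det ≠ 0 := Helper97.det_ne_zero_of_injective x (hZp x hx.1 hx.2 hx0)
      have hu : IsUnit x.det := isUnit_iff_ne_zero.mpr hdet
      refine ⟨x⁻¹, ⟨⟨fun s hs => inv_comm_of_comm x s hdet (hx.1.1 s hs),
        fun c hc => inv_comm_of_comm x c hdet (hx.1.2 c hc)⟩, ?_⟩, Matrix.mul_nonsing_inv x hu⟩
      have h1 : Sy.adj f x⁻¹ * x = 1 := by
        have h2 := adj_mul hf x x⁻¹
        rw [Matrix.mul_nonsing_inv x hu, adj_one hf, hx.2] at h2
        exact h2.symm
      exact (Matrix.inv_eq_left_inv h1).symm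
  have hpconj : ∀ g ∈ H, ∀ k, k ∈ zcp f hf T → (g : Matrix (Fin n) (Fin n) F) * k *
      ((g⁻¹ : GL (Fin n) F) : Matrix (Fin n) (Fin n) F) ∈ zcp f hf T :=
    fun g hg k hk => ⟨hZconj g hg k hk.1, by rw [adj_conj hf (hH hg), hk.2]⟩
  have hHnormp : H ≤ subalgebraNormalizer (zcp f hf T) := by
    intro g hg k
    constructor
    · exact hpconj g hg k
    · intro hk
      have h3 := hpconj g⁻¹ (H.inv_mem hg) _ hk
      have h4 : ((g⁻¹ : GL (Fin n) F) : Matrix (Fin n) (Fin n) F) * ((g : Matrix (Fin n) (Fin n) F) * k *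
          ((g⁻¹ : GL (Fin n) F) : Matrix (Fin n) (Fin n) F)) *
          (((g⁻¹)⁻¹ : GL (Fin n) F) : Matrix (Fin n) (Fin n) F) = k := by
        rw [inv_inv]
        simp only [mul_assoc, Units.inv_mul, mul_one]
        rw [← mul_assoc, Units.inv_mul, one_mul]
      rw [h4] at h3
      exact h3
  by_cases hA : ∃ k ∈ zcp f hf T, ∀ c : F, k ≠ c • (1 : Matrix (Fin n) (Fin n) F)
  · right; left
    obtain ⟨r, K₀, hr, hK₀, hle, hnorm⟩ := Sy.exists_prime_subfield' (zcp f hf T) hFSp hA
    have hsa : ∀ k ∈ K₀, Sy.adj f k = k := fun k hk => (hle hk).2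
    exact ⟨r, K₀, hr, hK₀, hHnormp.trans hnorm⟩
  have hsc : ∀ k, ZCent T k → Sy.adj f k = k → ∃ c : F, k = c • (1 : Matrix (Fin n) (Fin n) F) := by
    intro k hk hk'
    by_contra hcon
    exact hA ⟨k, ⟨hk, hk'⟩, fun c hc => hcon ⟨c, hc⟩⟩
  by_cases hsing : ∃ M, ZCent T M ∧ M ≠ 0 ∧ ∃ v : Fin n → F, v ≠ 0 ∧ M *ᵥ v = 0
  · -- a singular element of `Z`: a pair of complementary totally singular subspaces
    right; right; left
    obtain ⟨s₀, hs₀Z, hs₀0, v, hv0, hMv⟩ := hsing
    have : Fact (Fintype.card (Fin n) = n) := ⟨Fintype.card_fin n⟩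
    obtain ⟨t, m, D, hD, -, hpres, hsep⟩ :=
      Helper97.Gen.exists_decomp_of_comm_stable_sep H hirr {M | ZCent T M}
        (fun a ha b hb => hZcomm a ha b hb) (fun g hg a ha => hZconj g hg a ha) s₀ hs₀Z hs₀0 v hv0 hMv
    have ht := hD.two_le
    obtain ⟨a, haZ, hkill, hinj⟩ := hsep ⟨0, by omega⟩ ⟨1, by omega⟩ (by simp [Fin.ext_iff])
    have hex : ∀ i, ∃ w ∈ D i, w ≠ 0 := by
      intro i
      have h1 := hD.finrank_eq i
      have h2' := hD.pos
      by_contra hcon
      push Not at hcon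
      have h3 : D i = ⊥ := (Submodule.eq_bot_iff _).mpr hcon
      rw [h3, finrank_bot] at h1
      omega
    obtain ⟨w0, hw0, hw00⟩ := hex ⟨0, by omega⟩
    obtain ⟨w1, hw1, hw10⟩ := hex ⟨1, by omega⟩
    obtain ⟨c₁, hc₁⟩ := hsc (Sy.adj f a * a) ((zc T).mul_mem (hZadj a haZ) haZ)
      (by rw [adj_mul hf, adj_adj hf])
    have hc₁0 : c₁ = 0 := by
      have h3 : (Sy.adj f a * a) *ᵥ w0 = 0 := by
        rw [← Matrix.mulVec_mulVec, hkill w0 hw0, Matrix.mulVec_zero]
      rw [hc₁, Matrix.smul_mulVec, Matrix.one_mulVec] at h3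
      exact (smul_eq_zero.mp h3).resolve_right hw00
    rw [hc₁0, zero_smul] at hc₁
    obtain ⟨c, hc⟩ := hsc (a + Sy.adj f a) ((zc T).add_mem haZ (hZadj a haZ))
      (by rw [Sy.adj_add, adj_adj hf, add_comm])
    have hc0 : c ≠ 0 := by
      rintro rfl
      rw [zero_smul] at hc
      have h3 : Sy.adj f a = -a := eq_neg_of_add_eq_zero_right hc
      rw [h3, neg_mul, neg_eq_zero] at hc₁
      have h4 : a *ᵥ (a *ᵥ w1) = 0 := by rw [Matrix.mulVec_mulVec, hc₁, Matrix.zero_mulVec]
      exact hw10 (hinj w1 hw1 (hinj _ (hpres a haZ _ w1 hw1) h4))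
    obtain ⟨e, hedef⟩ : ∃ e, e = c⁻¹ • a := ⟨_, rfl⟩
    have he1 : e + Sy.adj f e = 1 := by
      rw [hedef, Sy.adj_smul, ← smul_add, hc, smul_smul, inv_mul_cancel₀ hc0, one_smul]
    have he2 : Sy.adj f e * e = 0 := by
      rw [hedef, Sy.adj_smul, Matrix.smul_mul, Matrix.mul_smul, hc₁, smul_zero, smul_zero]
    have hadj : Sy.adj f e = 1 - e := eq_sub_of_add_eq' he1
    have hidem : e * e = e := by
      have h3 := he2
      rw [hadj, Matrix.sub_mul, Matrix.one_mul] at h3
      exact (sub_eq_zero.mp h3).symm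
    obtain ⟨A, hA'⟩ : ∃ A : Submodule F (Fin n → F), A = LinearMap.range (Matrix.toLin' e) := ⟨_, rfl⟩
    obtain ⟨B, hB⟩ : ∃ B : Submodule F (Fin n → F), B = LinearMap.ker (Matrix.toLin' e) := ⟨_, rfl⟩
    have memA : ∀ x, x ∈ A ↔ ∃ y, e *ᵥ y = x := by
      intro x
      rw [hA', LinearMap.mem_range]
      simp only [Matrix.toLin'_apply]
    have memB : ∀ x, x ∈ B ↔ e *ᵥ x = 0 := by
      intro x
      rw [hB, LinearMap.mem_ker, Matrix.toLin'_apply]
    have hAts : IsTotallySingularFor f A := by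
      intro u hu v hv
      obtain ⟨y, rfl⟩ := (memA u).mp hu
      obtain ⟨z, rfl⟩ := (memA v).mp hv
      rw [adj_spec hf, Matrix.mulVec_mulVec, he2, Matrix.zero_mulVec, zero_right hf]
    have hBts : IsTotallySingularFor f B := by
      intro u hu v hv
      have h1 : Sy.adj f e *ᵥ u = u := by
        rw [hadj, Matrix.sub_mulVec, Matrix.one_mulVec, (memB u).mp hu, sub_zero]
      rw [← h1, ← adj_spec' hf, (memB v).mp hv, zero_right hf]
    have hrn := LinearMap.finrank_range_add_finrank_ker (Matrix.toLin' e)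
    rw [← hA', ← hB, Module.finrank_fintype_fun_eq_card, Fintype.card_fin] at hrn
    have hA2 := finrank_ts hf A hAts
    have hB2 := finrank_ts hf B hBts
    rw [Fintype.card_fin] at hA2 hB2
    -- the pair `A`, `B`
    have hAB : Module.finrank F A = Module.finrank F B := by omega
    have heZ : ZCent T e := by
      rw [hedef]
      exact (zc T).smul_mem haZ c⁻¹
    have hdisj : Disjoint A B := by
      rw [Submodule.disjoint_def]
      intro x hxA hxB
      obtain ⟨y, rfl⟩ := (memA x).mp hxA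
      have h3 := (memB _).mp hxB
      rw [Matrix.mulVec_mulVec, hidem] at h3
      exact h3
    have hsup : ∀ x : Fin n → F, ∃ a ∈ A, ∃ b ∈ B, x = a + b := by
      intro x
      refine ⟨e *ᵥ x, (memA _).mpr ⟨x, rfl⟩, x - e *ᵥ x, (memB _).mpr ?_, by abel⟩
      rw [Matrix.mulVec_sub, Matrix.mulVec_mulVec, hidem, sub_self]
    refine ⟨Module.finrank F A, ![A, B], ⟨le_refl 2, by omega, ?_, ?_, ?_⟩, ?_, ?_⟩
    · intro i
      fin_cases i
      · rfl
      · exact hAB.symm
    · rw [iSupIndep_pair (i := (0 : Fin 2)) (j := 1) (by decide) (by intro k; fin_cases k <;> simp)]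
      exact hdisj
    · rw [eq_top_iff]
      intro x _
      obtain ⟨a', ha', b', hb', rfl⟩ := hsup x
      exact Submodule.add_mem _ (le_iSup (![A, B] : Fin 2 → Submodule F (Fin n → F)) 0 ha')
        (le_iSup (![A, B] : Fin 2 → Submodule F (Fin n → F)) 1 hb')
    · intro i
      fin_cases i
      · exact fun w hw => hQf w (hAts w hw w hw)
      · exact fun w hw => hQf w (hBts w hw w hw)
    · intro g hg
      have hgi : (g : Matrix (Fin n) (Fin n) F) * ((g⁻¹ : GL (Fin n) F) : Matrix (Fin n) (Fin n) F) = 1 := by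
        rw [← Units.val_mul, mul_inv_cancel, Units.val_one]
      have hig : ((g⁻¹ : GL (Fin n) F) : Matrix (Fin n) (Fin n) F) * (g : Matrix (Fin n) (Fin n) F) = 1 := by
        rw [← Units.val_mul, inv_mul_cancel, Units.val_one]
      obtain ⟨z, hzdef⟩ : ∃ z, z = (g : Matrix (Fin n) (Fin n) F) * e *
          ((g⁻¹ : GL (Fin n) F) : Matrix (Fin n) (Fin n) F) := ⟨_, rfl⟩
      have hzZ : ZCent T z := hzdef ▸ hZconj g hg e heZ
      have hzadj : Sy.adj f z = 1 - z := by
        rw [hzdef, adj_conj hf (hH hg), hadj, Matrix.mul_sub, Matrix.sub_mul, Matrix.mul_one, hgi]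
      have hzidem : z * z = z := by
        rw [hzdef]
        calc (g : Matrix (Fin n) (Fin n) F) * e * ((g⁻¹ : GL (Fin n) F) : Matrix (Fin n) (Fin n) F) *
              ((g : Matrix (Fin n) (Fin n) F) * e * ((g⁻¹ : GL (Fin n) F) : Matrix (Fin n) (Fin n) F))
            = (g : Matrix (Fin n) (Fin n) F) * e * (((g⁻¹ : GL (Fin n) F) : Matrix (Fin n) (Fin n) F) *
              (g : Matrix (Fin n) (Fin n) F)) * e * ((g⁻¹ : GL (Fin n) F) : Matrix (Fin n) (Fin n) F) := by
              simp only [mul_assoc]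
          _ = (g : Matrix (Fin n) (Fin n) F) * e * ((g⁻¹ : GL (Fin n) F) : Matrix (Fin n) (Fin n) F) := by
              rw [hig, mul_one, mul_assoc (g : Matrix (Fin n) (Fin n) F) e e, hidem]
      have hze : z * e = e * z := hZcomm z hzZ e heZ
      -- `(z - e) ^ 2` is self-adjoint, hence a scalar
      obtain ⟨δ, hδ⟩ := hsc ((z - e) * (z - e)) ((zc T).mul_mem ((zc T).sub_mem hzZ heZ)
        ((zc T).sub_mem hzZ heZ)) (by
          rw [adj_mul hf, Sy.adj_sub, hzadj, hadj]
          noncomm_ring)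
      have h5 : δ • e = e - z * e := by
        have : (z - e) * (z - e) * e = e - z * e := by
          calc (z - e) * (z - e) * e = z * z * e - z * (e * e) - e * z * e + e * (e * e) := by
                noncomm_ring
            _ = z * e - z * e - z * e + e := by
                rw [hzidem, hidem, hidem, ← hze, mul_assoc z e e, hidem]
            _ = e - z * e := by abel
        rw [← this, hδ, Matrix.smul_mul, Matrix.one_mul]
      have h6 : δ • z = z - z * e := by
        have : (z - e) * (z - e) * z = z - z * e := by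
          calc (z - e) * (z - e) * z = z * (z * z) - z * (e * z) - e * (z * z) + e * (e * z) := by
                noncomm_ring
            _ = z - z * e - z * e + z * e := by
                rw [hzidem, hzidem, ← hze, ← mul_assoc z z e, hzidem, ← mul_assoc e z e, ← hze,
                  mul_assoc z e e, hidem]
            _ = z - z * e := by abel
        rw [← this, hδ, Matrix.smul_mul, Matrix.one_mul]
      have hcases : z = e ∨ z = 1 - e := by
        by_cases hδ1 : δ = 1
        · right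
          rw [hδ1, one_smul] at h5
          have hze0 : z * e = 0 := by
            have := h5
            rw [eq_sub_iff_add_eq, add_eq_left] at this
            exact this
          have h7 : (z - e) * (z - e) = z + e := by
            calc (z - e) * (z - e) = z * z - z * e - e * z + e * e := by noncomm_ring
              _ = z + e := by rw [hzidem, hidem, ← hze, hze0]; abel
          rw [hδ, hδ1, one_smul] at h7
          rw [h7]; abel
        · left
          have h7 : (1 - δ) • z = (1 - δ) • e := by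
            rw [sub_smul, sub_smul, one_smul, one_smul, h5, h6]; abel
          have h8 : (1 - δ) ≠ 0 := fun h => hδ1 (sub_eq_zero.mp h).symm
          have := congrArg (fun M => (1 - δ)⁻¹ • M) h7
          simpa [smul_smul, inv_mul_cancel₀ h8] using this
      rcases hcases with hz | hz
      · -- `g` commutes with `e`
        have hc1 : (g : Matrix (Fin n) (Fin n) F) * e = e * (g : Matrix (Fin n) (Fin n) F) := by
          calc (g : Matrix (Fin n) (Fin n) F) * e
              = (g : Matrix (Fin n) (Fin n) F) * e * (((g⁻¹ : GL (Fin n) F) : Matrix (Fin n) (Fin n) F) *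
                (g : Matrix (Fin n) (Fin n) F)) := by rw [hig, mul_one]
            _ = z * (g : Matrix (Fin n) (Fin n) F) := by rw [hzdef]; simp only [mul_assoc]
            _ = e * (g : Matrix (Fin n) (Fin n) F) := by rw [hz]
        have hc2 : e * ((g⁻¹ : GL (Fin n) F) : Matrix (Fin n) (Fin n) F)
            = ((g⁻¹ : GL (Fin n) F) : Matrix (Fin n) (Fin n) F) * e := by
          calc e * ((g⁻¹ : GL (Fin n) F) : Matrix (Fin n) (Fin n) F)
              = (((g⁻¹ : GL (Fin n) F) : Matrix (Fin n) (Fin n) F) * (g : Matrix (Fin n) (Fin n) F)) * e *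
                ((g⁻¹ : GL (Fin n) F) : Matrix (Fin n) (Fin n) F) := by rw [hig, one_mul]
            _ = ((g⁻¹ : GL (Fin n) F) : Matrix (Fin n) (Fin n) F) * z := by rw [hzdef]; simp only [mul_assoc]
            _ = ((g⁻¹ : GL (Fin n) F) : Matrix (Fin n) (Fin n) F) * e := by rw [hz]
        refine ⟨1, fun i => ?_⟩
        fin_cases i
        · show A.map (Matrix.toLin' (g : Matrix (Fin n) (Fin n) F)) = A
          ext x
          rw [Submodule.mem_map]
          constructor
          · rintro ⟨y, hy, rfl⟩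
            obtain ⟨y', rfl⟩ := (memA y).mp hy
            rw [Matrix.toLin'_apply, memA]
            exact ⟨(g : Matrix (Fin n) (Fin n) F) *ᵥ y', by
              rw [Matrix.mulVec_mulVec, Matrix.mulVec_mulVec, hc1]⟩
          · intro hx
            obtain ⟨y, rfl⟩ := (memA x).mp hx
            refine ⟨e *ᵥ (((g⁻¹ : GL (Fin n) F) : Matrix (Fin n) (Fin n) F) *ᵥ y),
              (memA _).mpr ⟨_, rfl⟩, ?_⟩
            rw [Matrix.toLin'_apply, Matrix.mulVec_mulVec, Matrix.mulVec_mulVec, ← hzdef, hz]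
        · show B.map (Matrix.toLin' (g : Matrix (Fin n) (Fin n) F)) = B
          ext x
          rw [Submodule.mem_map]
          constructor
          · rintro ⟨y, hy, rfl⟩
            rw [Matrix.toLin'_apply, memB, Matrix.mulVec_mulVec, ← hc1, ← Matrix.mulVec_mulVec,
              (memB y).mp hy, Matrix.mulVec_zero]
          · intro hx
            refine ⟨((g⁻¹ : GL (Fin n) F) : Matrix (Fin n) (Fin n) F) *ᵥ x, (memB _).mpr ?_, ?_⟩
            · rw [Matrix.mulVec_mulVec, hc2, ← Matrix.mulVec_mulVec, (memB x).mp hx,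
                Matrix.mulVec_zero]
            · rw [Matrix.toLin'_apply, Matrix.mulVec_mulVec, hgi, Matrix.one_mulVec]
      · -- `g` swaps `A` and `B`
        have hc1 : e * (g : Matrix (Fin n) (Fin n) F) = (g : Matrix (Fin n) (Fin n) F) * (1 - e) := by
          have h9 : (g : Matrix (Fin n) (Fin n) F) * e = (1 - e) * (g : Matrix (Fin n) (Fin n) F) := by
            calc (g : Matrix (Fin n) (Fin n) F) * e
                = (g : Matrix (Fin n) (Fin n) F) * e * (((g⁻¹ : GL (Fin n) F) : Matrix (Fin n) (Fin n) F) *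
                  (g : Matrix (Fin n) (Fin n) F)) := by rw [hig, mul_one]
              _ = z * (g : Matrix (Fin n) (Fin n) F) := by rw [hzdef]; simp only [mul_assoc]
              _ = (1 - e) * (g : Matrix (Fin n) (Fin n) F) := by rw [hz]
          rw [Matrix.mul_sub, Matrix.mul_one, h9, Matrix.sub_mul, Matrix.one_mul, sub_sub_cancel]
        have hc2 : e * ((g⁻¹ : GL (Fin n) F) : Matrix (Fin n) (Fin n) F)
            = ((g⁻¹ : GL (Fin n) F) : Matrix (Fin n) (Fin n) F) * (1 - e) := by
          calc e * ((g⁻¹ : GL (Fin n) F) : Matrix (Fin n) (Fin n) F)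
              = (((g⁻¹ : GL (Fin n) F) : Matrix (Fin n) (Fin n) F) * (g : Matrix (Fin n) (Fin n) F)) * e *
                ((g⁻¹ : GL (Fin n) F) : Matrix (Fin n) (Fin n) F) := by rw [hig, one_mul]
            _ = ((g⁻¹ : GL (Fin n) F) : Matrix (Fin n) (Fin n) F) * z := by rw [hzdef]; simp only [mul_assoc]
            _ = ((g⁻¹ : GL (Fin n) F) : Matrix (Fin n) (Fin n) F) * (1 - e) := by rw [hz]
        have h1e : (1 - e) * e = 0 := by
          rw [Matrix.sub_mul, Matrix.one_mul, hidem, sub_self]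
        refine ⟨Equiv.swap 0 1, fun i => ?_⟩
        fin_cases i
        · show A.map (Matrix.toLin' (g : Matrix (Fin n) (Fin n) F)) = B
          ext x
          rw [Submodule.mem_map]
          constructor
          · rintro ⟨y, hy, rfl⟩
            obtain ⟨y', rfl⟩ := (memA y).mp hy
            rw [Matrix.toLin'_apply, memB, Matrix.mulVec_mulVec, Matrix.mulVec_mulVec, hc1,
              mul_assoc, h1e, mul_zero, Matrix.zero_mulVec]
          · intro hx
            refine ⟨((g⁻¹ : GL (Fin n) F) : Matrix (Fin n) (Fin n) F) *ᵥ x, (memA _).mpr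
              ⟨((g⁻¹ : GL (Fin n) F) : Matrix (Fin n) (Fin n) F) *ᵥ x, ?_⟩, ?_⟩
            · rw [Matrix.mulVec_mulVec, hc2, ← Matrix.mulVec_mulVec, Matrix.sub_mulVec,
                Matrix.one_mulVec, (memB x).mp hx, sub_zero]
            · rw [Matrix.toLin'_apply, Matrix.mulVec_mulVec, hgi, Matrix.one_mulVec]
        · show B.map (Matrix.toLin' (g : Matrix (Fin n) (Fin n) F)) = A
          ext x
          rw [Submodule.mem_map]
          constructor
          · rintro ⟨y, hy, rfl⟩
            rw [Matrix.toLin'_apply, memA]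
            refine ⟨(g : Matrix (Fin n) (Fin n) F) *ᵥ y, ?_⟩
            rw [Matrix.mulVec_mulVec, hc1, ← Matrix.mulVec_mulVec, Matrix.sub_mulVec,
              Matrix.one_mulVec, (memB y).mp hy, sub_zero]
          · intro hx
            obtain ⟨x', rfl⟩ := (memA x).mp hx
            refine ⟨((g⁻¹ : GL (Fin n) F) : Matrix (Fin n) (Fin n) F) *ᵥ (e *ᵥ x'), (memB _).mpr ?_, ?_⟩
            · rw [Matrix.mulVec_mulVec, Matrix.mulVec_mulVec, hc2, mul_assoc, h1e, mul_zero,
                Matrix.zero_mulVec]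
            · rw [Matrix.toLin'_apply, Matrix.mulVec_mulVec, hgi, Matrix.one_mulVec]
  by_cases hns : ∃ k₀, ZCent T k₀ ∧ ∀ c : F, k₀ ≠ c • (1 : Matrix (Fin n) (Fin n) F)
  · -- `Z` is a field
    right; left
    obtain ⟨k₀, hk₀, hk₀ns⟩ := hns
    have hFS : Helper98.IsFS (zc T) := isFS_zc T (fun M hM hM0 v hv => by
      by_contra hv0
      exact hsing ⟨M, hM, hM0, v, hv0, hv⟩)
    obtain ⟨r, K₀, hr, hK₀, hle, hnorm⟩ := Sy.exists_prime_subfield' (zc T) hFS ⟨k₀, hk₀, hk₀ns⟩
    have hHnorm : H ≤ subalgebraNormalizer (zc T) := hT ▸ le_normalizer_zc H N hNn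
    exact ⟨r, K₀, hr, hK₀, hHnorm.trans hnorm⟩
  · right; right; right
    intro k hk
    by_contra hcon
    exact hns ⟨k, hk, fun c hc => hcon ⟨c, hc⟩⟩

end Cfsg.Agent.Helper46
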