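import Mathlib.LinearAlgebra.Matrix.SpecialLinearGroup
import Mathlib.GroupTheory.Perm.Sign
import Cfsg.Prelude.Def_PLocal

set_option autoImplicit false

namespace Cfsg.Agent.Helper46.Qd2

open Cfsg Matrix

/-- The four points of the affine plane over `ZMod 2`, as vectors with last coordinate `1`. -/
def pt : Fin 4 → (Fin 3 → ZMod 2) := ![![0, 0, 1], ![1, 0, 1], ![0, 1, 1], ![1, 1, 1]]

/-- The index of a point. -/
def idx (u : Fin 3 → ZMod 2) : Fin 4 :=
  if u 0 = 0 then (if u 1 = 0 then 0 else 2) else (if u 1 = 0 then 1 else 3)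

theorem idx_pt : ∀ i : Fin 4, idx (pt i) = i := by decide

theorem zmod2_cases : ∀ a : ZMod 2, a = 0 ∨ a = 1 := by decide

theorem pt_last : ∀ i : Fin 4, pt i 2 = 1 := by decide

theorem pt_idx (u : Fin 3 → ZMod 2) (hu : u 2 = 1) : pt (idx u) = u := by
  funext j
  rcases zmod2_cases (u 0) with h0 | h0 <;> rcases zmod2_cases (u 1) with h1 | h1 <;>
    fin_cases j <;> simp [idx, pt, h0, h1, hu]

theorem sl_coe_mul (A B : SpecialLinearGroup (Fin 3) (ZMod 2)) :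
    ((A * B : SpecialLinearGroup (Fin 3) (ZMod 2)) : Matrix (Fin 3) (Fin 3) (ZMod 2)) =
    (A : Matrix (Fin 3) (Fin 3) (ZMod 2)) * (B : Matrix (Fin 3) (Fin 3) (ZMod 2)) := rfl

theorem sl_coe_one :
    ((1 : SpecialLinearGroup (Fin 3) (ZMod 2)) : Matrix (Fin 3) (Fin 3) (ZMod 2)) = 1 := rfl

theorem sl_mul_inv (A : SpecialLinearGroup (Fin 3) (ZMod 2)) :
    (A : Matrix (Fin 3) (Fin 3) (ZMod 2)) *
      ((A⁻¹ : SpecialLinearGroup (Fin 3) (ZMod 2)) : Matrix (Fin 3) (Fin 3) (ZMod 2)) = 1 := by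
  have h := congrArg (fun M : SpecialLinearGroup (Fin 3) (ZMod 2) =>
    (M : Matrix (Fin 3) (Fin 3) (ZMod 2))) (mul_inv_cancel A)
  exact h

theorem lr_mul (A B : SpecialLinearGroup (Fin 3) (ZMod 2)) (v : Fin 3 → ZMod 2)
    (hA : v ᵥ* (A : Matrix (Fin 3) (Fin 3) (ZMod 2)) = v)
    (hB : v ᵥ* (B : Matrix (Fin 3) (Fin 3) (ZMod 2)) = v) :
    v ᵥ* ((A * B : SpecialLinearGroup (Fin 3) (ZMod 2)) : Matrix (Fin 3) (Fin 3) (ZMod 2)) = v := by
  rw [sl_coe_mul, ← vecMul_vecMul, hA, hB]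

theorem lr_one (v : Fin 3 → ZMod 2) :
    v ᵥ* ((1 : SpecialLinearGroup (Fin 3) (ZMod 2)) : Matrix (Fin 3) (Fin 3) (ZMod 2)) = v := by
  rw [sl_coe_one, vecMul_one]

theorem lr_inv (A : SpecialLinearGroup (Fin 3) (ZMod 2)) (v : Fin 3 → ZMod 2)
    (hA : v ᵥ* (A : Matrix (Fin 3) (Fin 3) (ZMod 2)) = v) :
    v ᵥ* ((A⁻¹ : SpecialLinearGroup (Fin 3) (ZMod 2)) : Matrix (Fin 3) (Fin 3) (ZMod 2)) = v := by
  have h : (v ᵥ* (A : Matrix (Fin 3) (Fin 3) (ZMod 2))) ᵥ*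
      ((A⁻¹ : SpecialLinearGroup (Fin 3) (ZMod 2)) : Matrix (Fin 3) (Fin 3) (ZMod 2)) = v := by
    rw [vecMul_vecMul, sl_mul_inv, vecMul_one]
  rw [hA] at h
  exact h

/-- The matrices fixing the last coordinate functional. -/
def lastRow : Subgroup (SpecialLinearGroup (Fin 3) (ZMod 2)) where
  carrier := {M | (Pi.single 2 1 : Fin 3 → ZMod 2) ᵥ* (M : Matrix (Fin 3) (Fin 3) (ZMod 2)) =
    Pi.single 2 1}
  mul_mem' := fun {A B} hA hB => lr_mul A B _ hA hB
  one_mem' := lr_one _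
  inv_mem' := fun {A} hA => lr_inv A _ hA

theorem qd_le_lastRow : qd 2 ≤ lastRow := by
  unfold qd
  rw [Subgroup.closure_le]
  rintro M ⟨h0, h1, h2⟩
  show (Pi.single 2 1 : Fin 3 → ZMod 2) ᵥ* (M : Matrix (Fin 3) (Fin 3) (ZMod 2)) = Pi.single 2 1
  rw [single_one_vecMul]
  funext j
  fin_cases j
  · simpa using h0
  · simpa using h1
  · simpa using h2

theorem mulVec_last (g : SpecialLinearGroup (Fin 3) (ZMod 2)) (hg : g ∈ qd 2)
    (u : Fin 3 → ZMod 2) : ((g : Matrix (Fin 3) (Fin 3) (ZMod 2)) *ᵥ u) 2 = u 2 := by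
  have h' : (Pi.single 2 1 : Fin 3 → ZMod 2) ᵥ* (g : Matrix (Fin 3) (Fin 3) (ZMod 2)) =
    Pi.single 2 1 := qd_le_lastRow hg
  rw [← single_one_dotProduct (2 : Fin 3) ((g : Matrix (Fin 3) (Fin 3) (ZMod 2)) *ᵥ u),
    dotProduct_mulVec, h', single_one_dotProduct]

/-- The action of `Qd(2)` on the four points. -/
def act (g : ↥(qd 2)) (i : Fin 4) : Fin 4 :=
  idx (((g : SpecialLinearGroup (Fin 3) (ZMod 2)) : Matrix (Fin 3) (Fin 3) (ZMod 2)) *ᵥ pt i)

theorem pt_act (g : ↥(qd 2)) (i : Fin 4) :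
    pt (act g i) =
      ((g : SpecialLinearGroup (Fin 3) (ZMod 2)) : Matrix (Fin 3) (Fin 3) (ZMod 2)) *ᵥ pt i :=
  pt_idx _ (by rw [mulVec_last _ g.2, pt_last])

theorem coe_one' : (((1 : ↥(qd 2)) : SpecialLinearGroup (Fin 3) (ZMod 2)) :
    Matrix (Fin 3) (Fin 3) (ZMod 2)) = 1 := rfl

theorem coe_mul' (g h : ↥(qd 2)) : (((g * h : ↥(qd 2)) : SpecialLinearGroup (Fin 3) (ZMod 2)) :
    Matrix (Fin 3) (Fin 3) (ZMod 2)) =
    ((g : SpecialLinearGroup (Fin 3) (ZMod 2)) : Matrix (Fin 3) (Fin 3) (ZMod 2)) *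
    ((h : SpecialLinearGroup (Fin 3) (ZMod 2)) : Matrix (Fin 3) (Fin 3) (ZMod 2)) := rfl

theorem act_one (i : Fin 4) : act 1 i = i := by
  unfold act
  rw [coe_one', one_mulVec, idx_pt]

theorem act_mul (g h : ↥(qd 2)) (i : Fin 4) : act (g * h) i = act g (act h i) := by
  have h1 : act g (act h i) = idx (((g : SpecialLinearGroup (Fin 3) (ZMod 2)) :
      Matrix (Fin 3) (Fin 3) (ZMod 2)) *ᵥ pt (act h i)) := rfl
  have h2 : act (g * h) i = idx ((((g * h : ↥(qd 2)) : SpecialLinearGroup (Fin 3) (ZMod 2)) :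
      Matrix (Fin 3) (Fin 3) (ZMod 2)) *ᵥ pt i) := rfl
  rw [h1, h2, pt_act, mulVec_mulVec, coe_mul']

/-- The permutation of the four points induced by an element of `Qd(2)`. -/
def actPerm (g : ↥(qd 2)) : Equiv.Perm (Fin 4) where
  toFun := act g
  invFun := act g⁻¹
  left_inv := fun i => (act_mul g⁻¹ g i).symm.trans ((congrArg (fun x => act x i)
    (inv_mul_cancel g)).trans (act_one i))
  right_inv := fun i => (act_mul g g⁻¹ i).symm.trans ((congrArg (fun x => act x i)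
    (mul_inv_cancel g)).trans (act_one i))

theorem actPerm_apply (g : ↥(qd 2)) (i : Fin 4) : actPerm g i = act g i := rfl

theorem actPerm_one : actPerm 1 = 1 := by
  apply Equiv.ext
  intro i
  rw [actPerm_apply, act_one]
  rfl

theorem actPerm_mul (g h : ↥(qd 2)) : actPerm (g * h) = actPerm g * actPerm h := by
  apply Equiv.ext
  intro i
  rw [Equiv.Perm.mul_apply, actPerm_apply, actPerm_apply, actPerm_apply, act_mul]

/-- The permutation representation. -/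
def permHom : ↥(qd 2) →* Equiv.Perm (Fin 4) where
  toFun := actPerm
  map_one' := actPerm_one
  map_mul' := actPerm_mul

theorem permHom_apply (g : ↥(qd 2)) (i : Fin 4) : permHom g i = act g i := rfl

theorem permHom_injective : Function.Injective permHom := by
  rw [injective_iff_map_eq_one]
  intro g hg
  have hfix : ∀ i, ((g : SpecialLinearGroup (Fin 3) (ZMod 2)) : Matrix (Fin 3) (Fin 3) (ZMod 2)) *ᵥ
      pt i = pt i := by
    intro i
    rw [← pt_act, ← permHom_apply, hg]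
    rfl
  have e2 : (Pi.single 2 1 : Fin 3 → ZMod 2) = pt 0 := by decide
  have e0 : (Pi.single 0 1 : Fin 3 → ZMod 2) = pt 1 - pt 0 := by decide
  have e1 : (Pi.single 1 1 : Fin 3 → ZMod 2) = pt 2 - pt 0 := by decide
  have hcol : ∀ j : Fin 3, ((g : SpecialLinearGroup (Fin 3) (ZMod 2)) :
      Matrix (Fin 3) (Fin 3) (ZMod 2)) *ᵥ Pi.single j 1 = Pi.single j 1 := by
    intro j
    fin_cases j
    · show _ *ᵥ (Pi.single 0 1 : Fin 3 → ZMod 2) = Pi.single 0 1
      rw [e0, mulVec_sub, hfix, hfix]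
    · show _ *ᵥ (Pi.single 1 1 : Fin 3 → ZMod 2) = Pi.single 1 1
      rw [e1, mulVec_sub, hfix, hfix]
    · show _ *ᵥ (Pi.single 2 1 : Fin 3 → ZMod 2) = Pi.single 2 1
      rw [e2, hfix]
  apply Subtype.ext
  apply Subtype.ext
  show ((g : SpecialLinearGroup (Fin 3) (ZMod 2)) : Matrix (Fin 3) (Fin 3) (ZMod 2)) = 1
  ext i j
  have := congrFun (hcol j) i
  rw [mulVec_single_one] at this
  rw [Matrix.one_apply]
  rw [Pi.single_apply] at this
  exact this

/-- Matrices inducing the three adjacent transpositions. -/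
def genMat : Fin 3 → Matrix (Fin 3) (Fin 3) (ZMod 2) :=
  ![!![1, 1, 1; 0, 1, 0; 0, 0, 1], !![0, 1, 0; 1, 0, 0; 0, 0, 1], !![1, 1, 0; 0, 1, 0; 0, 0, 1]]

theorem genMat_det : ∀ k : Fin 3, (genMat k).det = 1 := by
  intro k
  rw [Matrix.det_fin_three]
  revert k
  decide

theorem genMat_mem (k : Fin 3) :
    (⟨genMat k, genMat_det k⟩ : SpecialLinearGroup (Fin 3) (ZMod 2)) ∈ qd 2 := by
  apply Subgroup.subset_closure
  show genMat k 2 0 = 0 ∧ genMat k 2 1 = 0 ∧ genMat k 2 2 = 1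
  revert k
  decide

/-- The generators, as elements of `Qd(2)`. -/
def gen (k : Fin 3) : ↥(qd 2) := ⟨⟨genMat k, genMat_det k⟩, genMat_mem k⟩

theorem act_gen : ∀ (k : Fin 3) (i : Fin 4),
    idx (genMat k *ᵥ pt i) = Equiv.swap k.castSucc k.succ i := by
  decide

theorem actPerm_gen (k : Fin 3) : actPerm (gen k) = Equiv.swap k.castSucc k.succ := by
  apply Equiv.ext
  intro i
  rw [actPerm_apply]
  exact act_gen k i

theorem permHom_surjective : Function.Surjective permHom := by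
  rw [← MonoidHom.range_eq_top, eq_top_iff,
    ← Subgroup.closure_eq_top_of_mclosure_eq_top (Equiv.Perm.mclosure_swap_castSucc_succ 3),
    Subgroup.closure_le]
  rintro _ ⟨k, rfl⟩
  exact ⟨gen k, actPerm_gen k⟩

/-- `Qd(2) ≃ S₄`. -/
theorem qd_two_equiv : Nonempty (↥(qd 2) ≃* Equiv.Perm (Fin 4)) :=
  ⟨MulEquiv.ofBijective permHom ⟨permHom_injective, permHom_surjective⟩⟩

end Cfsg.Agent.Helper46.Qd2
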