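import Mathlib
import Cfsg.Agent.Helper79.S4705Defs
import Cfsg.Agent.Helper15.B42Main
import Cfsg.Agent.Helper74.S4504CEN
import Cfsg.Agent.Helper15.BergerTools

/-!
# CALL S4705SH piece MULT (helper46)

`sh_mult`: if the `θ`-coefficient of `χ` at `1` is a natural number `N ≥ deg χ` then `χ`
restricted to `K` is `N • θ` with `θ` linear, hence `‖χ k‖ = deg χ` on `K`.
-/

set_option autoImplicit false
open Cfsg Cfsg.Agent.Helper77 Cfsg.Agent.Helper15
open scoped ComplexConjugate

universe u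

namespace Cfsg.Agent.Helper46.S4705SHMULT

variable {H : Type u} [Group H] [Finite H]

/-- An irreducible character of degree one has all values of norm one. -/
theorem irr_linear_norm_one {T : Type u} [Group T] [Finite T] (θ : Cfsg.IrrCharacter T)
    (hdeg : Cfsg.charDegree (θ : T → ℂ) = 1) (k : T) : ‖(θ : T → ℂ) k‖ = 1 := by
  classical
  have : Fintype T := Fintype.ofFinite T
  have hle : ∀ g : T, ‖(θ : T → ℂ) g‖ ≤ 1 := by
    intro g
    have := Cfsg.Agent.Helper80.isCharacter_norm_le (Cfsg.Agent.Helper80.isCharacter_of_irr θ.2) g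
    rw [hdeg] at this
    simpa using this
  have hself := Cfsg.Agent.Helper15.irr_inner_self θ.2
  unfold Cfsg.classInner at hself
  have hcard : (Nat.card T : ℂ) ≠ 0 := by exact_mod_cast Nat.card_pos.ne'
  have hsum : ∑ g : T, (θ : T → ℂ) g * conj ((θ : T → ℂ) g) = (Nat.card T : ℂ) := by
    field_simp at hself
    exact hself
  have hsum2 : ∑ g : T, ‖(θ : T → ℂ) g‖ ^ 2 = (Nat.card T : ℝ) := by
    have h1 : ((∑ g : T, ‖(θ : T → ℂ) g‖ ^ 2 : ℝ) : ℂ) = ((Nat.card T : ℝ) : ℂ) := by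
      push_cast
      rw [← hsum]
      apply Finset.sum_congr rfl
      intro g _
      rw [Complex.mul_conj, Complex.normSq_eq_norm_sq]
      push_cast
      rfl
    exact_mod_cast h1
  have hzero : ∑ g : T, (1 - ‖(θ : T → ℂ) g‖ ^ 2) = 0 := by
    rw [Finset.sum_sub_distrib, hsum2]
    simp [Nat.card_eq_fintype_card]
  have hnn : ∀ g ∈ (Finset.univ : Finset T), 0 ≤ 1 - ‖(θ : T → ℂ) g‖ ^ 2 := by
    intro g _
    have h1 := hle g
    have h2 := norm_nonneg ((θ : T → ℂ) g)
    nlinarith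
  have hall := (Finset.sum_eq_zero_iff_of_nonneg hnn).1 hzero k (Finset.mem_univ k)
  have h1 := hle k
  have h2 := norm_nonneg ((θ : T → ℂ) k)
  nlinarith

theorem sh_mult (K : Subgroup H) (χ : H → ℂ) (hχ : Cfsg.IsCharacter H χ)
    (θ : Cfsg.IrrCharacter K) (N : ℕ) (hN : dco K (θ : K → ℂ) χ 1 = (N : ℂ))
    (hle : Cfsg.charDegree χ ≤ N) :
    ∀ k ∈ K, ‖χ k‖ = (Cfsg.charDegree χ : ℝ) := by
  classical
  have : Fintype K := Fintype.ofFinite K
  set ψ : K → ℂ := fun k => χ k with hψdef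
  have hψ : Cfsg.IsCharacter K ψ := Cfsg.Agent.Helper79.isCharacter_restrict hχ K
  have hinner : Cfsg.classInner ψ (θ : K → ℂ) = N := by
    rw [← hN]
    unfold Cfsg.classInner dco
    rw [finsum_eq_sum_of_fintype]
    simp [hψdef]
  have hdegψ : Cfsg.charDegree ψ = Cfsg.charDegree χ := by
    simp [Cfsg.charDegree, hψdef]
  have hθpos := Cfsg.Agent.Helper80.irr_degree_pos θ
  have heq := char_eq_smul_of_degree_le ψ hψ (θ : K → ℂ) θ.2 N hinner
    (by rw [hdegψ]; nlinarith)
  have hval : ∀ k : K, χ k = (N : ℂ) * (θ : K → ℂ) k := by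
    intro k
    have := congrFun heq k
    simpa [hψdef] using this
  have hdegeq : Cfsg.charDegree χ = N * Cfsg.charDegree (θ : K → ℂ) := by
    have h1 := hval 1
    rw [Cfsg.Agent.Helper80.irr_one_eq θ] at h1
    have h2 : χ 1 = (Cfsg.charDegree χ : ℂ) := Cfsg.Agent.Helper80.isCharacter_one_eq hχ
    have h3 : ((Cfsg.charDegree χ : ℕ) : ℂ) = ((N * Cfsg.charDegree (θ : K → ℂ) : ℕ) : ℂ) := by
      rw [← h2]
      push_cast
      exact h1
    exact_mod_cast h3
  intro k hk
  rcases Nat.eq_zero_or_pos N with hN0 | hNpos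
  · have := hval ⟨k, hk⟩
    simp only [hN0] at this hdegeq
    simp at this hdegeq
    rw [this, hdegeq]
    simp
  · have hθ1 : Cfsg.charDegree (θ : K → ℂ) = 1 := by
      have : N * Cfsg.charDegree (θ : K → ℂ) ≤ N * 1 := by omega
      have := Nat.le_of_mul_le_mul_left this hNpos
      omega
    have hnorm := irr_linear_norm_one θ hθ1 ⟨k, hk⟩
    have := hval ⟨k, hk⟩
    simp only at this
    rw [this, norm_mul, hnorm, hdegeq, hθ1]
    simp

end Cfsg.Agent.Helper46.S4705SHMULT
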