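/-
helper46: piece ISO of sub-CALL S88OE (helper43; stages OEG/OEB of row S5988): an isometric linear
equivalence transports nondegeneracy and totally singular subspaces.
-/
import Mathlib
import Cfsg.Prelude.Def_GeometricClasses
import Cfsg.Prelude.Def_Classical
import Cfsg.Agent.Helper43.PrimeOrdO3

set_option autoImplicit false

namespace Cfsg.Agent.Helper46.S88OE

open Module Polynomial Cfsg Cfsg.Geo
open Cfsg.Agent.Helper43 Cfsg.Agent.Helper43.OrthEven
open scoped MatrixGroups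

universe u

section lin

variable {F : Type*} [Field F] {Va Vb : Type*} [AddCommGroup Va] [Module F Va] [AddCommGroup Vb]
  [Module F Vb]

/-- One direction of ISO for nondegeneracy. -/
theorem iso_nd_aux (Qa : QuadraticForm F Va) (Qb : QuadraticForm F Vb) (e : Va ≃ₗ[F] Vb)
    (he : ∀ v, Qb (e v) = Qa v) (h : PolarNondeg Qa) : PolarNondeg Qb := by
  intro v' hv'
  have h1 : e.symm v' = 0 := by
    apply h
    intro w
    have h2 := hv' (e w)
    unfold QuadraticMap.polar at h2 ⊢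
    rw [← he, ← he, ← he, map_add, LinearEquiv.apply_symm_apply]
    exact h2
  have h3 := congrArg e h1
  rwa [LinearEquiv.apply_symm_apply, map_zero] at h3

/-- One direction of ISO for totally singular subspaces. -/
theorem iso_ts_aux (Qa : QuadraticForm F Va) (Qb : QuadraticForm F Vb) (e : Va ≃ₗ[F] Vb)
    (he : ∀ v, Qb (e v) = Qa v) (d : ℕ) (h : HasTS Qa d) : HasTS Qb d := by
  obtain ⟨U, hUd, hU0⟩ := h
  refine ⟨U.map e.toLinearMap, ?_, ?_⟩
  · rw [LinearEquiv.finrank_map_eq]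
    exact hUd
  · rintro _ ⟨u, hu, rfl⟩
    show Qb (e u) = 0
    rw [he]
    exact hU0 u hu

/-- ISO [S, generic]. -/
theorem oe_iso (Qa : QuadraticForm F Va) (Qb : QuadraticForm F Vb) (e : Va ≃ₗ[F] Vb)
    (he : ∀ v, Qb (e v) = Qa v) :
    (PolarNondeg Qa ↔ PolarNondeg Qb) ∧ ∀ d, HasTS Qa d ↔ HasTS Qb d := by
  have he' : ∀ v', Qa (e.symm v') = Qb v' := by
    intro v'
    rw [← he, LinearEquiv.apply_symm_apply]
  exact ⟨⟨iso_nd_aux Qa Qb e he, iso_nd_aux Qb Qa e.symm he'⟩,
    fun d => ⟨iso_ts_aux Qa Qb e he d, iso_ts_aux Qb Qa e.symm he' d⟩⟩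

end lin

end Cfsg.Agent.Helper46.S88OE
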