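/-
helper46: piece MODEL of sub-CALL S88OO (helper35; stage OOB of row S5988): the model of the bad
element: a plus-type space of dimension `2 (k₀ + i a)` with an isometry of order `r` whose fixed
space has dimension `2 k₀`.
-/
import Mathlib
import Cfsg.Prelude.Def_GeometricClasses
import Cfsg.Prelude.Def_Classical
import Cfsg.Agent.Helper37.TBBLKO
import Cfsg.Agent.Helper31.TBPRODND
import Cfsg.Agent.Helper93.TBTYPEPROD

set_option autoImplicit false

namespace Cfsg.Agent.Helper46.S88OO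

open Module Polynomial Cfsg Cfsg.Geo
open Cfsg.Agent.Helper43 Cfsg.Agent.Helper43.OrthEven Cfsg.Agent.Helper43.CycFactors
open scoped MatrixGroups

universe u

/-- A fixed vector of `T₁` with `Φ_r(T₁) = 0`, `r ≠ 0` in `F`, is zero. -/
theorem model_fix_zero {F : Type u} [Field F] (r : ℕ) [Fact r.Prime] (hrF : (r : F) ≠ 0)
    {V₁ : Type u} [AddCommGroup V₁] [Module F V₁] (T₁ : Module.End F V₁)
    (hcyc : aeval T₁ (cyclotomic r F) = 0) (y : V₁) (hy : T₁ y = y) : y = 0 := by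
  by_contra hy0
  have hev : Module.End.HasEigenvector T₁ 1 y :=
    ⟨Module.End.mem_eigenspace_iff.2 (by rw [hy, one_smul]), hy0⟩
  have h1 := Module.End.aeval_apply_of_hasEigenvector (p := cyclotomic r F) hev
  rw [hcyc, LinearMap.zero_apply, eval_one_cyclotomic_prime] at h1
  rcases smul_eq_zero.mp h1.symm with h5 | h5
  · exact hrF h5
  · exact hy0 h5

/-- The fixed space of `1 × T₁` when `T₁` has no nonzero fixed vector. -/
theorem model_ker {F : Type u} [Field F] {V₀ V₁ : Type u} [AddCommGroup V₀] [Module F V₀]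
    [AddCommGroup V₁] [Module F V₁] (T₁ : Module.End F V₁) (h0 : ∀ y, T₁ y = y → y = 0) :
    LinearMap.ker ((1 : Module.End F V₀).prodMap T₁ - 1) =
      LinearMap.range (LinearMap.inl F V₀ V₁) := by
  ext ⟨x, y⟩
  constructor
  · intro h
    simp only [LinearMap.mem_ker, LinearMap.sub_apply, LinearMap.prodMap_apply,
      Module.End.one_apply, Prod.mk_sub_mk, Prod.mk_eq_zero, sub_self, true_and,
      sub_eq_zero] at h
    have hy := h0 y h
    subst hy
    exact ⟨x, rfl⟩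
  · rintro ⟨x', hx'⟩
    rw [LinearMap.inl_apply, Prod.mk.injEq] at hx'
    obtain ⟨rfl, rfl⟩ := hx'
    simp only [LinearMap.mem_ker, LinearMap.sub_apply, LinearMap.prodMap_apply,
      Module.End.one_apply, Prod.mk_sub_mk, Prod.mk_eq_zero, sub_self, true_and, map_zero]

/-- MODEL. -/
theorem oo_bad_model {F : Type u} [Field F] [Fintype F] (p : ℕ) [Fact p.Prime] [CharP F p]
    (r : ℕ) [Fact r.Prime] (hr2 : 2 < r) (hrp : r ≠ p)
    (hodd : Odd (orderOf ((Fintype.card F : ℕ) : ZMod r))) (k₀ a : ℕ) :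
    ∃ (V' : Type u) (_ : AddCommGroup V') (_ : Module F V') (_ : FiniteDimensional F V')
      (Q' : QuadraticForm F V') (T : Module.End F V'),
      PolarNondeg Q' ∧
      finrank F V' = 2 * (k₀ + orderOf ((Fintype.card F : ℕ) : ZMod r) * a) ∧
      HasTS Q' (k₀ + orderOf ((Fintype.card F : ℕ) : ZMod r) * a) ∧
      (∀ v, Q' (T v) = Q' v) ∧ T ^ r = 1 ∧
      finrank F (LinearMap.ker (T - 1)) = 2 * k₀ := by
  classical
  have hr : r.Prime := Fact.out
  have hrF : (r : F) ≠ 0 := natCast_ne_zero_of_ne (p := p) hr hrp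
  obtain ⟨V₁, _, _, _, Q₁, T₁, hnd, hT, hcyc, hV₁, hTS, -⟩ :=
    Cfsg.Agent.Helper37.TB.tb_blk_odd (F := F) p r hr2 hrp hodd a
  have hdim₀ : finrank F (Fin k₀ ⊕ Fin k₀ → F) = 2 * k₀ := by
    rw [Module.finrank_fintype_fun_eq_card, Fintype.card_sum, Fintype.card_fin]
    ring
  have hnd₀ : PolarNondeg (plusQF k₀ F) := polarNondeg_of_nondegenerate _ (plusQF_nondeg k₀)
  have hT₁r : T₁ ^ r = 1 := by
    have h1 : aeval T₁ (X ^ r - 1 : F[X]) = 0 := by
      rw [← cyclotomic_prime_mul_X_sub_one F r, map_mul, hcyc, zero_mul]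
    simpa [sub_eq_zero] using h1
  refine ⟨(Fin k₀ ⊕ Fin k₀ → F) × V₁, inferInstance, inferInstance, inferInstance,
    (plusQF k₀ F).prod Q₁, (1 : Module.End F (Fin k₀ ⊕ Fin k₀ → F)).prodMap T₁,
    Cfsg.Agent.Helper31.TB.tb_prod_nd (plusQF k₀ F) Q₁ hnd₀ hnd, ?_, ?_, ?_, ?_, ?_⟩
  · rw [Module.finrank_prod, hdim₀, hV₁]
    ring
  · exact (Cfsg.Agent.Helper93.TB.tb_type_prod (plusQF k₀ F) Q₁ hnd₀ hnd k₀ _ hdim₀ hV₁).2
      ⟨fun _ => hTS, fun _ => hasTS_plus k₀⟩
  · rintro ⟨x, y⟩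
    rw [LinearMap.prodMap_apply, QuadraticMap.prod_apply, QuadraticMap.prod_apply, hT]
    rfl
  · have key : ∀ n : ℕ, ((1 : Module.End F (Fin k₀ ⊕ Fin k₀ → F)).prodMap T₁) ^ n
        = (1 : Module.End F (Fin k₀ ⊕ Fin k₀ → F)).prodMap (T₁ ^ n) := by
      intro n
      induction n with
      | zero =>
        rw [pow_zero, pow_zero]
        exact LinearMap.prodMap_one.symm
      | succ n ih =>
        rw [pow_succ, ih, pow_succ, LinearMap.prodMap_mul, mul_one]
    rw [key r, hT₁r]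
    exact LinearMap.prodMap_one
  · rw [model_ker T₁ (model_fix_zero r hrF T₁ hcyc),
      LinearMap.finrank_range_of_inj LinearMap.inl_injective, hdim₀]

end Cfsg.Agent.Helper46.S88OO
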