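/-
helper46: piece XFER of sub-CALL S88OO (helper35; stage OOB of row S5988): transfer of an
isometry of a plus-type model to the isometry group of `Q`, keeping the dimension of the fixed
space.
-/
import Mathlib
import Cfsg.Prelude.Def_GeometricClasses
import Cfsg.Prelude.Def_Classical
import Cfsg.Agent.Helper58.TSDefs
import Cfsg.Agent.Helper43.OrthStd
import Cfsg.Agent.Helper43.TBXISO

set_option autoImplicit false

namespace Cfsg.Agent.Helper46.S88OO

open Module Polynomial Cfsg Cfsg.Geo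
open Cfsg.Agent.Helper43 Cfsg.Agent.Helper43.OrthEven
open scoped MatrixGroups

universe u

/-- The fixed space of the matrix of `T` in the basis given by `Φ`. -/
theorem xfer_ker {ι : Type} [Fintype ι] [DecidableEq ι] {F : Type u} [Field F]
    {V' : Type u} [AddCommGroup V'] [Module F V'] (Φ : V' ≃ₗ[F] (ι → F)) (T : Module.End F V')
    (A : Matrix ι ι F) (hAΦ : ∀ v, A.mulVec (Φ v) = Φ (T v)) :
    LinearMap.ker (Matrix.toLin' A - 1) = (LinearMap.ker (T - 1)).map Φ.toLinearMap := by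
  ext x
  constructor
  · intro hx
    rw [LinearMap.mem_ker, LinearMap.sub_apply, Matrix.toLin'_apply, Module.End.one_apply,
      sub_eq_zero] at hx
    refine ⟨Φ.symm x, ?_, LinearEquiv.apply_symm_apply Φ x⟩
    rw [SetLike.mem_coe, LinearMap.mem_ker, LinearMap.sub_apply, Module.End.one_apply, sub_eq_zero]
    apply Φ.injective
    rw [← hAΦ, LinearEquiv.apply_symm_apply]
    exact hx
  · rintro ⟨v, hv, rfl⟩
    rw [SetLike.mem_coe, LinearMap.mem_ker, LinearMap.sub_apply, Module.End.one_apply,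
      sub_eq_zero] at hv
    rw [LinearMap.mem_ker, LinearMap.sub_apply, Matrix.toLin'_apply, Module.End.one_apply,
      sub_eq_zero]
    show A.mulVec (Φ v) = Φ v
    rw [hAΦ, hv]

/-- XFER. -/
theorem oo_xfer {ι : Type} [Fintype ι] [DecidableEq ι] {F : Type u} [Field F] [Fintype F]
    (Q : (ι → F) → F) (hQ : IsNondegenerateQuadraticForm Q) (d : ℕ) (hd : 1 ≤ d)
    (hcard : Fintype.card ι = 2 * d) (hplus : IsPlusTypeOn Q ⊤) (r : ℕ) (hr0 : 0 < r)
    {V' : Type u} [AddCommGroup V'] [Module F V'] [FiniteDimensional F V']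
    (Q' : QuadraticForm F V') (hnd : PolarNondeg Q') (hdim : finrank F V' = 2 * d)
    (htype : HasTS Q' d) (T : Module.End F V') (hT : ∀ v, Q' (T v) = Q' v) (hTr : T ^ r = 1) :
    ∃ x : GL ι F, x ∈ Cfsg.isometryGroup F Q ∧ x ^ r = 1 ∧
      finrank F (LinearMap.ker (Matrix.toLin' (x : Matrix ι ι F) - 1)) =
        finrank F (LinearMap.ker (T - 1)) := by
  classical
  obtain ⟨Φ, hΦ⟩ := Cfsg.Agent.Helper43.TB.tb_xiso Q hQ d 0 hd hcard
    (Cfsg.Agent.Helper58.TS.typeDefect_plus hplus) Q' hnd hdim ⟨fun _ => rfl, fun _ => htype⟩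
  let b : Module.Basis ι F V' := Module.Basis.ofEquivFun Φ
  obtain ⟨A, hAdef⟩ : ∃ A : Matrix ι ι F, A = LinearMap.toMatrix b b T := ⟨_, rfl⟩
  have hAΦ : ∀ v, A.mulVec (Φ v) = Φ (T v) := by
    intro v
    rw [hAdef]
    exact LinearMap.toMatrix_mulVec_repr b b T v
  have hA : ∀ x, Q (A.mulVec x) = Q x := by
    intro x
    obtain ⟨v, rfl⟩ := Φ.surjective x
    rw [hAΦ, hΦ, hΦ, hT]
  have hAr : A ^ r = 1 := by
    rw [hAdef, ← Cfsg.Agent.Helper43.OrthStd.toMatrix_pow', hTr, LinearMap.toMatrix_one]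
  have hr1 : r - 1 + 1 = r := Nat.sub_add_cancel hr0
  let g0 : GL ι F := ⟨A, A ^ (r - 1), by rw [← pow_succ', hr1, hAr], by rw [← pow_succ, hr1, hAr]⟩
  have hg0 : g0 ∈ Cfsg.isometryGroup F Q := by
    intro u v
    exact hA u
  have hg0r : g0 ^ r = 1 := by
    apply Units.ext
    rw [Units.val_pow_eq_pow_val]
    exact hAr
  refine ⟨g0, hg0, hg0r, ?_⟩
  show finrank F (LinearMap.ker (Matrix.toLin' A - 1)) = _
  rw [xfer_ker Φ T A hAΦ, LinearEquiv.finrank_map_eq]

end Cfsg.Agent.Helper46.S88OO
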