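/-
helper46: CALL S90 (helper98; row S5990), stage OEG: the generic part, mirrored from
`Cfsg.Agent.Helper96.S88G` (`s88g_even_arith`, `s88g_even_good`) with the ambient form of MINUS
type (target: ELLIPTIC `m`-spaces, `m + 2 ≤ 2 d`).
-/
import Mathlib
import Cfsg.Agent.Helper96.S88Good

set_option autoImplicit false

namespace Cfsg.Agent.Helper46.S90

open Module Polynomial Cfsg Cfsg.Geo
open Cfsg.Agent.Helper13.TIu Cfsg.Agent.Helper96.OH Cfsg.Agent.Helper96.OHAll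
open Cfsg.Agent.Helper96.S88G

variable {ι : Type} [Fintype ι] [DecidableEq ι] {F : Type*} [Field F] (Q : (ι → F) → F)

/-- the profile arithmetic for `i` even, minus ambient, elliptic target, when `ρ < m / i`. -/
theorem s90g_arith_lt (d m i ρ m' l : ℕ) (hi0 : 0 < i) (hmn : m + 2 ≤ 2 * d)
    (hρ : i * ρ ≤ 2 * d) (hml : i * m' + l = m) (h : ρ < m') :
    ∃ s, s ≤ ρ ∧ i * s ≤ m ∧ m - i * s ≤ 2 * d - i * ρ ∧
      ((0 < m - i * s ∧ m - i * s < 2 * d - i * ρ) ∨ (m - i * s = 0 ∧ Odd s) ∨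
        (m - i * s = 2 * d - i * ρ ∧ Even (s + ρ))) := by
  have h1 : i * (ρ + 1) ≤ i * m' := Nat.mul_le_mul_left i h
  rw [Nat.mul_succ] at h1
  exact ⟨ρ, le_rfl, by omega, by omega, Or.inl ⟨by omega, by omega⟩⟩

/-- the profile arithmetic for `i` even, minus ambient, elliptic target: `m = i m'`, `m'` even,
`2 d = i n'`, `n'` even. -/
theorem s90g_arith_l0 (d m i ρ n' m' : ℕ) (hi0 : 0 < i) (hm : 2 ≤ m)
    (hρe : i * ρ = 2 * d → Odd ρ) (hnk : i * n' = 2 * d) (hml : i * m' = m)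
    (hρn : ρ ≤ n') (hge : m' ≤ ρ) (hn'even : Even n') (hm'even : Even m') :
    ∃ s, s ≤ ρ ∧ i * s ≤ m ∧ m - i * s ≤ 2 * d - i * ρ ∧
      ((0 < m - i * s ∧ m - i * s < 2 * d - i * ρ) ∨ (m - i * s = 0 ∧ Odd s) ∨
        (m - i * s = 2 * d - i * ρ ∧ Even (s + ρ))) := by
  have hm'1 : 1 ≤ m' := by
    rcases Nat.eq_zero_or_pos m' with h0' | h0'
    · rw [h0'] at hml
      omega
    · exact h0'
  have hρn' : ρ + 1 ≤ n' := by
    by_contra hcon
    have h1 : ρ = n' := by omega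
    have h3' : Odd ρ := hρe (by rw [h1]; omega)
    rw [h1] at h3'
    exact (Nat.not_odd_iff_even.mpr hn'even) h3'
  have h3 : i * m' ≤ i * ρ := Nat.mul_le_mul_left i hge
  have h4 : i * (m' - 1) = i * m' - i := Nat.mul_sub_one i m'
  have h5 : i ≤ i * m' := Nat.le_mul_of_pos_right i hm'1
  rcases Nat.lt_or_ge (ρ + 1) n' with h6 | h6
  · have h7 : i * (ρ + 2) ≤ i * n' := Nat.mul_le_mul_left i h6
    have h8 : i * (ρ + 2) = i * ρ + 2 * i := by ring
    exact ⟨m' - 1, by omega, by omega, by omega, Or.inl ⟨by omega, by omega⟩⟩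
  · have h7 : ρ + 1 = n' := by omega
    have h8 : i * n' = i * ρ + i := by rw [← h7, Nat.mul_succ]
    refine ⟨m' - 1, by omega, by omega, by omega, Or.inr (Or.inr ⟨by omega, ?_⟩)⟩
    obtain ⟨a, ha⟩ := hm'even
    obtain ⟨b, hb⟩ := hn'even
    exact ⟨a + b - 1, by omega⟩

/-- the profile arithmetic for `i` even, minus ambient, elliptic target. -/
theorem s90g_even_arith (d m i ρ : ℕ) (hi0 : 0 < i) (hm : 2 ≤ m) (hmn : m + 2 ≤ 2 * d)
    (hρ1 : 1 ≤ ρ) (hρ : i * ρ ≤ 2 * d) (hρe : i * ρ = 2 * d → Odd ρ)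
    (hcond : ((2 * d) % i = 0 ∧ (Even ((2 * d) / i) ∨ (m % i = 0 ∧ Odd (m / i)))) ∨
      (0 < (2 * d) % i ∧ i ≤ m ∧ ((0 < m % i ∧ m % i < (2 * d) % i) ∨
        (m % i = 0 ∧ Odd (m / i)) ∨
        (m % i = (2 * d) % i ∧ Even ((2 * d + m - 2 * ((2 * d) % i)) / i))))) :
    ∃ s, s ≤ ρ ∧ i * s ≤ m ∧ m - i * s ≤ 2 * d - i * ρ ∧
      ((0 < m - i * s ∧ m - i * s < 2 * d - i * ρ) ∨ (m - i * s = 0 ∧ Odd s) ∨
        (m - i * s = 2 * d - i * ρ ∧ Even (s + ρ))) := by
  obtain ⟨n', hn'⟩ : ∃ n', n' = (2 * d) / i := ⟨_, rfl⟩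
  obtain ⟨k, hk⟩ : ∃ k, k = (2 * d) % i := ⟨_, rfl⟩
  obtain ⟨m', hm'⟩ : ∃ m', m' = m / i := ⟨_, rfl⟩
  obtain ⟨l, hl⟩ : ∃ l, l = m % i := ⟨_, rfl⟩
  have hnk : i * n' + k = 2 * d := by rw [hn', hk]; exact Nat.div_add_mod (2 * d) i
  have hml : i * m' + l = m := by rw [hm', hl]; exact Nat.div_add_mod m i
  have hki : k < i := by rw [hk]; exact Nat.mod_lt _ hi0
  have hli : l < i := by rw [hl]; exact Nat.mod_lt _ hi0
  rw [← hn', ← hk, ← hm', ← hl] at hcond
  have hρn : ρ ≤ n' := by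
    by_contra hcon
    push Not at hcon
    have h1 : i * (n' + 1) ≤ i * ρ := Nat.mul_le_mul_left i hcon
    rw [Nat.mul_succ] at h1
    omega
  rcases Nat.lt_or_ge ρ m' with hlt | hge
  · exact s90g_arith_lt d m i ρ m' l hi0 hmn hρ hml hlt
  have h3 : i * m' ≤ i * ρ := Nat.mul_le_mul_left i hge
  have h0 : i * ρ ≤ i * n' := Nat.mul_le_mul_left i hρn
  rcases Nat.eq_zero_or_pos l with hl0 | hlpos
  · rcases Nat.even_or_odd m' with hm'e | hm'o
    · have hkn : k = 0 ∧ Even n' := by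
        rcases hcond with ⟨hk0, hA⟩ | ⟨hk0, him, hB⟩
        · rcases hA with hn'e | ⟨-, hm'odd⟩
          · exact ⟨hk0, hn'e⟩
          · exact absurd hm'e (Nat.not_even_iff_odd.mpr hm'odd)
        · rcases hB with ⟨hl1, -⟩ | ⟨-, hm'odd⟩ | ⟨hlk, -⟩
          · omega
          · exact absurd hm'e (Nat.not_even_iff_odd.mpr hm'odd)
          · omega
      exact s90g_arith_l0 d m i ρ n' m' hi0 hm hρe (by omega) (by omega) hρn hge hkn.2 hm'e
    · exact ⟨m', hge, by omega, by omega, Or.inr (Or.inl ⟨by omega, hm'o⟩)⟩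
  · rcases Nat.lt_or_ge ρ n' with h6 | h6
    · have h7 : i * (ρ + 1) ≤ i * n' := Nat.mul_le_mul_left i h6
      rw [Nat.mul_succ] at h7
      exact ⟨m', hge, by omega, by omega, Or.inl ⟨by omega, by omega⟩⟩
    · have h7 : ρ = n' := by omega
      rcases hcond with ⟨hk0, hA⟩ | ⟨hk0, him, hB⟩
      · rcases hA with hn'e | ⟨hl0, -⟩
        · exfalso
          have h8 : Odd ρ := hρe (by rw [h7]; omega)
          rw [h7] at h8
          exact (Nat.not_odd_iff_even.mpr hn'e) h8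
        · omega
      · rcases hB with ⟨hl1, hlk⟩ | ⟨hl0, -⟩ | ⟨hlk, hev⟩
        · exact ⟨m', hge, by omega, by rw [h7]; omega, Or.inl ⟨by omega, by rw [h7]; omega⟩⟩
        · omega
        · have hsum : (2 * d + m - 2 * k) / i = n' + m' := by
            have h1 : 2 * d + m - 2 * k = i * (n' + m') := by
              rw [Nat.mul_add]
              omega
            rw [h1, Nat.mul_div_cancel_left _ hi0]
          rw [hsum] at hev
          refine ⟨m', hge, by omega, by rw [h7]; omega, Or.inr (Or.inr ⟨by rw [h7]; omega, ?_⟩)⟩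
          rw [h7, add_comm]
          exact hev

/-- OEG, generic, minus ambient, elliptic target: `i` even, `Q` of minus type, `T ≠ 1`. -/
theorem s90g_even_good [Fintype F] (hQ : IsNondegenerateQuadraticForm Q) (d m : ℕ)
    (hcard : Fintype.card ι = 2 * d) (hmi : ¬ OPl Q ⊤) (hm : 2 ≤ m) (hme : Even m)
    (hmn : m + 2 ≤ 2 * d)
    (T : Module.End F (ι → F)) (hT : OPres Q T) (r : ℕ) [Fact r.Prime] (hr2 : 2 < r)
    (hrF : (r : F) ≠ 0) (hTr : T ^ r = 1) (hT1 : T ≠ 1) (i : ℕ)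
    (hi : i = orderOf ((Fintype.card F : ℕ) : ZMod r)) (heven : Even i)
    (hcond : ((2 * d) % i = 0 ∧ (Even ((2 * d) / i) ∨ (m % i = 0 ∧ Odd (m / i)))) ∨
      (0 < (2 * d) % i ∧ i ≤ m ∧ ((0 < m % i ∧ m % i < (2 * d) % i) ∨
        (m % i = 0 ∧ Odd (m / i)) ∨
        (m % i = (2 * d) % i ∧ Even ((2 * d + m - 2 * ((2 * d) % i)) / i))))) :
    ∃ W : Submodule F (ι → F), (finrank F W = m ∧ ONd Q W ∧ ¬ OPl Q W) ∧ W.map T ≤ W := by
  have hc : i = if Even i then i else 2 * i := by rw [if_pos heven]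
  have hi0 : 0 < i := by
    rw [hi]
    exact Cfsg.Agent.Helper13.TIsp.ti_ord_pos_of_ne r hrF
  obtain ⟨ρ, Fx, P, hρ, hn, hFx, hP, horth, hsup, hfix, hPT, hPk, hρ1, hsub⟩ :=
    s88g_split Q hQ T hT r hr2 hrF hTr i i hi hc
  have hρ1' := hρ1 hT1
  have hPeven : Even (finrank F P) := by
    rw [hρ]
    exact heven.mul_right ρ
  have hFxeven : Even (finrank F Fx) := by
    have h1 : Even (finrank F P + finrank F Fx) := by
      rw [hn, hcard]
      exact even_two_mul d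
    exact (Nat.even_add.mp h1).mp hPeven
  have htyeven : ∀ (N : Submodule F (ι → F)) (s : ℕ), N.map T ≤ N → ONd Q N →
      finrank F N = i * s → N ⊓ LinearMap.ker (T - 1) = ⊥ → (OPl Q N ↔ Even s) := by
    intro N s hNT hN hNdim hNk
    have h := oall_type_even Q hQ T hT r hr2 hrF hTr (by rw [← hi]; exact heven) N hNT hN hNk
    rw [← hi, hNdim, Nat.mul_div_cancel_left _ hi0] at h
    exact h
  have hPty : OPl Q P ↔ Even ρ := htyeven P ρ hPT hP hρ hPk
  have hFxty : OPl Q Fx ↔ ¬ Even ρ := by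
    have h1 := Cfsg.Agent.Helper33.o_type_mul Q hQ Fx P hFx hP horth hFxeven hPeven
    rw [hsup] at h1
    have h2 : ¬ (OPl Q Fx ↔ OPl Q P) := fun h => hmi (h1.mpr h)
    constructor
    · intro hF hρev
      exact h2 ⟨fun _ => hPty.mpr hρev, fun _ => hF⟩
    · intro hρodd
      by_contra hF
      exact h2 ⟨fun h => absurd h hF, fun h => absurd (hPty.mp h) hρodd⟩
  have hFxdim : finrank F Fx = 2 * d - i * ρ := by omega
  have hρle : i * ρ ≤ 2 * d := by omega
  have hρe : i * ρ = 2 * d → Odd ρ := by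
    intro h
    have h0 : finrank F Fx = 0 := by omega
    have hFx0 : Fx = ⊥ := Submodule.finrank_eq_zero.mp h0
    have h5 : OPl Q Fx := by
      rw [hFx0]
      exact Cfsg.Agent.Helper33.o_plus_bot Q hQ
    exact Nat.not_even_iff_odd.mp (hFxty.mp h5)
  obtain ⟨s, hsρ, hsm, hwle, hcases⟩ := s90g_even_arith d m i ρ hi0 hm hmn hρ1' hρle hρe hcond
  obtain ⟨N, hNP, hNT, hN, hNdim, hNk⟩ := hsub s hsρ
  have hNty : OPl Q N ↔ Even s := htyeven N s hNT hN hNdim hNk
  have hNeven : Even (finrank F N) := by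
    rw [hNdim]
    exact heven.mul_right s
  rcases hcases with ⟨hw0, hwlt⟩ | ⟨hw0, hsodd⟩ | ⟨hwf, hseven⟩
  · -- a proper nonzero part of the fixed space, of the type opposite to that of `N`
    obtain ⟨k, hk⟩ := hFxeven
    have hweven : Even (m - i * s) :=
      (Nat.even_sub hsm).mpr ⟨fun _ => heven.mul_right s, fun _ => hme⟩
    obtain ⟨X, hXFx, hX, hXdim, hXty⟩ :=
      Cfsg.Agent.Helper35.EL.el_sub Q hQ Fx hFx k (by omega) (m - i * s) hweven hw0
        (by omega) (¬ OPl Q N)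
    have horthX : OOrth Q X N := fun u hu v hv => horth u (hXFx hu) v (hNP hv)
    refine ⟨X ⊔ N, ⟨?_, ?_, ?_⟩, ?_⟩
    · rw [Cfsg.Agent.Helper33.OType.finrank_sup_of_orth Q X N hX horthX, hXdim, hNdim]
      omega
    · exact Cfsg.Agent.Helper33.OType.nondeg_sup Q hQ X N hX hN horthX
    · intro h
      have h5 := (Cfsg.Agent.Helper33.o_type_mul Q hQ X N hX hN horthX
        (by rw [hXdim]; exact hweven) hNeven).mp h
      have h6 : ¬ OPl Q N ↔ OPl Q N := hXty.symm.trans h5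
      exact not_iff_self h6
    · rw [Submodule.map_sup]
      refine sup_le_sup ?_ hNT
      rintro _ ⟨x, hx, rfl⟩
      rw [hfix x (hXFx hx)]
      exact hx
  · refine ⟨N, ⟨by rw [hNdim]; omega, hN, ?_⟩, hNT⟩
    intro h
    exact (Nat.not_even_iff_odd.mpr hsodd) (hNty.mp h)
  · have horthX : OOrth Q Fx N := fun u hu v hv => horth u hu v (hNP hv)
    refine ⟨Fx ⊔ N, ⟨?_, ?_, ?_⟩, ?_⟩
    · rw [Cfsg.Agent.Helper33.OType.finrank_sup_of_orth Q Fx N hFx horthX, hNdim]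
      omega
    · exact Cfsg.Agent.Helper33.OType.nondeg_sup Q hQ Fx N hFx hN horthX
    · intro h
      have h4 : Even s ↔ Even ρ := Nat.even_add.mp hseven
      have h5 := (Cfsg.Agent.Helper33.o_type_mul Q hQ Fx N hFx hN horthX hFxeven hNeven).mp h
      have h6 : ¬ Even ρ ↔ Even ρ := hFxty.symm.trans (h5.trans (hNty.trans h4))
      exact not_iff_self h6
    · rw [Submodule.map_sup]
      refine sup_le_sup ?_ hNT
      rintro _ ⟨x, hx, rfl⟩
      rw [hfix x hx]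
      exact hx

end Cfsg.Agent.Helper46.S90
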