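import Mathlib
import Cfsg.Agent.Helper15.CharInner
import Cfsg.Agent.Helper79.Basic
import Cfsg.Agent.Helper78.Counting
import Cfsg.Agent.Helper81.CharBasic

set_option autoImplicit false
open Cfsg
open scoped ComplexConjugate

universe u

namespace Cfsg.Agent.Helper46

/-- QARG -/
theorem s997_sylow_two_bound {G : Type u} [Group G] [Finite G] (b m e : ℕ)
    (hcard : Nat.card G = 2 ^ b * m) (hm : ¬ 2 ∣ m) (θ : Cfsg.IrrCharacter G)
    (hdeg : Cfsg.charDegree (θ : G → ℂ) = e) (heo : ¬ 2 ∣ e) (he3 : 3 ≤ e)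
    (hbd : ∀ g : G, g ≠ 1 → (∃ k : ℕ, orderOf g = 2 ^ k) → ‖(θ : G → ℂ) g‖ ≤ 1) :
    2 ^ b ≤ e ^ 2 - 1 := by
  classical
  have : Fact (Nat.Prime 2) := ⟨Nat.prime_two⟩
  obtain ⟨Q⟩ : Nonempty (Sylow 2 G) := inferInstance
  have hQcard : Nat.card (Q : Subgroup G) = 2 ^ b := by
    rw [Sylow.card_eq_multiplicity, hcard]
    congr 1
    have hm0 : m ≠ 0 := by
      rintro rfl
      exact hm (dvd_zero 2)
    rw [Nat.factorization_mul (pow_ne_zero _ (by norm_num)) hm0]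
    simp [Nat.factorization_eq_zero_of_not_dvd hm, Nat.prime_two.factorization_self]
  obtain ⟨H, hH⟩ : ∃ H : Subgroup G, H = (Q : Subgroup G) := ⟨_, rfl⟩
  rw [← hH] at hQcard
  let _i1 : Fintype ↥H := Fintype.ofFinite _
  let _i2 : Fintype (Cfsg.IrrCharacter ↥H) := Fintype.ofFinite _
  obtain ⟨f, hf⟩ : ∃ f : ↥H → ℂ, f = fun h : ↥H => (θ : G → ℂ) h :=
    ⟨_, rfl⟩
  have hfchar : Cfsg.IsCharacter ↥H f := by
    rw [hf]
    exact Helper79.isCharacter_restrict (Helper79.irr_isCharacter θ) H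
  have hcl := Helper15.isClassFunction_of_isChar hfchar
  have hθ1 : (θ : G → ℂ) 1 = (e : ℂ) := by
    rw [Helper81.irr_one_eq_charDegree, hdeg]
  have hf1 : f 1 = (e : ℂ) := by
    rw [hf]
    show (θ : G → ℂ) ((1 : ↥H) : G) = e
    rw [Subgroup.coe_one, hθ1]
  -- multiplicities
  have hmult : ∀ ξ : Cfsg.IrrCharacter ↥H, ∃ n : ℕ,
      Cfsg.classInner f (ξ : ↥H → ℂ) = (n : ℂ) :=
    fun ξ => Helper15.inner_nat hfchar (Helper15.isChar_of_irr ξ.2)
  choose c hc using hmult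
  have hpars : Cfsg.classInner f f
      = ((∑ ξ : Cfsg.IrrCharacter ↥H, c ξ ^ 2 : ℕ) : ℂ) := by
    rw [Helper15.classInner_eq_sum hcl]
    push_cast
    refine Finset.sum_congr rfl fun ξ _ => ?_
    rw [hc ξ, Complex.conj_natCast]
    ring
  obtain ⟨N, hN⟩ : ∃ N : ℕ, N = ∑ ξ : Cfsg.IrrCharacter ↥H, c ξ ^ 2 := ⟨_, rfl⟩
  rw [← hN] at hpars
  -- the sum of squares
  have hsum : ∑ h : ↥H, ‖f h‖ ^ 2 = (2 ^ b : ℝ) * N := by
    have h1 : Cfsg.classInner f f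
        = (Nat.card ↥H : ℂ)⁻¹ * ∑ h : ↥H, f h * conj (f h) := rfl
    rw [hpars, hQcard] at h1
    have h2 : ∑ h : ↥H, f h * conj (f h)
        = ((∑ h : ↥H, ‖f h‖ ^ 2 : ℝ) : ℂ) := by
      push_cast
      refine Finset.sum_congr rfl fun h _ => ?_
      rw [Complex.mul_conj, Complex.normSq_eq_norm_sq]
      push_cast
      rfl
    rw [h2] at h1
    have h3 : ((∑ h : ↥H, ‖f h‖ ^ 2 : ℝ) : ℂ) = (((2 ^ b : ℝ) * N : ℝ) : ℂ) := by
      have h20 : ((2 ^ b : ℕ) : ℂ) ≠ 0 := by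
        exact_mod_cast (pow_ne_zero b (by norm_num : (2 : ℕ) ≠ 0))
      push_cast
      push_cast at h1
      rw [h1]
      field_simp
    exact_mod_cast h3
  -- upper bound
  have hub : ∑ h : ↥H, ‖f h‖ ^ 2 ≤ (e : ℝ) ^ 2 + ((2 ^ b : ℝ) - 1) := by
    rw [← Finset.add_sum_erase Finset.univ _ (Finset.mem_univ (1 : ↥H))]
    have ha : ‖f 1‖ ^ 2 = (e : ℝ) ^ 2 := by
      rw [hf1, Complex.norm_natCast]
    have hb : ∑ h ∈ Finset.univ.erase (1 : ↥H), ‖f h‖ ^ 2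
        ≤ ∑ h ∈ Finset.univ.erase (1 : ↥H), (1 : ℝ) := by
      refine Finset.sum_le_sum fun h hh => ?_
      have hh1 : h ≠ 1 := Finset.ne_of_mem_erase hh
      have hhG : (h : G) ≠ 1 := fun hx => hh1 (Subtype.ext hx)
      have hord : ∃ k : ℕ, orderOf (h : G) = 2 ^ k := by
        have h1 : orderOf h ∣ Nat.card ↥H := orderOf_dvd_natCard h
        rw [hQcard] at h1
        obtain ⟨k, -, hk⟩ := (Nat.dvd_prime_pow Nat.prime_two).mp h1
        exact ⟨k, by rw [Subgroup.orderOf_coe, hk]⟩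
      have := hbd (h : G) hhG hord
      have h0 : 0 ≤ ‖(θ : G → ℂ) h‖ := norm_nonneg _
      rw [hf]
      show ‖(θ : G → ℂ) h‖ ^ 2 ≤ 1
      nlinarith
    rw [Finset.sum_const, Finset.card_erase_of_mem (Finset.mem_univ _), Finset.card_univ,
      ← Nat.card_eq_fintype_card, hQcard, nsmul_eq_mul, mul_one] at hb
    have h2b : 1 ≤ 2 ^ b := Nat.one_le_two_pow
    rw [Nat.cast_sub h2b] at hb
    push_cast at hb
    linarith
  -- N ≥ 2
  have hN0 : N ≠ 0 := by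
    rintro rfl
    rw [Nat.cast_zero, mul_zero] at hsum
    have h1 := Finset.single_le_sum (f := fun h : ↥H => ‖f h‖ ^ 2)
      (fun h _ => by positivity) (Finset.mem_univ (1 : ↥H))
    rw [hsum] at h1
    have ha : ‖f 1‖ ^ 2 = (e : ℝ) ^ 2 := by
      rw [hf1, Complex.norm_natCast]
    simp only [ha] at h1
    have he : (3 : ℝ) ≤ e := by exact_mod_cast he3
    nlinarith
  have hN1 : N ≠ 1 := by
    rintro rfl
    rw [Nat.cast_one] at hpars
    have hirr : Cfsg.IsIrrCharacter ↥H f := Helper15.isIrr_of_inner_one hfchar hpars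
    have hdvd := Helper78.charDegree_dvd_card (⟨f, hirr⟩ : Cfsg.IrrCharacter ↥H)
    rw [hQcard] at hdvd
    have hdf : Cfsg.charDegree f = e := by
      unfold Cfsg.charDegree
      rw [hf1]
      simp
    simp only [hdf] at hdvd
    obtain ⟨k, -, hk⟩ := (Nat.dvd_prime_pow Nat.prime_two).mp hdvd
    rcases Nat.eq_zero_or_pos k with rfl | hkpos
    · simp at hk; omega
    · exact heo (hk ▸ dvd_pow_self 2 hkpos.ne')
  have hN2 : 2 ≤ N := by omega
  have hfin : (2 ^ b : ℝ) * 2 ≤ (e : ℝ) ^ 2 + ((2 ^ b : ℝ) - 1) := by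
    have h2 : (2 : ℝ) ≤ N := by exact_mod_cast hN2
    have hpos : (0 : ℝ) ≤ 2 ^ b := by positivity
    calc (2 ^ b : ℝ) * 2 ≤ (2 ^ b : ℝ) * N := by nlinarith
      _ ≤ _ := by rw [← hsum]; exact hub
  have hfin2 : (2 ^ b : ℝ) + 1 ≤ (e : ℝ) ^ 2 := by linarith
  have hfin3 : 2 ^ b + 1 ≤ e ^ 2 := by exact_mod_cast hfin2
  omega

end Cfsg.Agent.Helper46
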