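import Mathlib
import Cfsg.Agent.Helper44.SPCDefs
import Cfsg.Agent.Helper46.SPCH0SK

set_option autoImplicit false

/-!
# CALL S2676 (helper44), piece BETSURJ: every family of `(-1)^i`-symmetric matrices is a family of
reductions
-/

namespace Cfsg.Agent.Helper46.SPCBETSURJ

open Matrix Cfsg.Agent.Helper21.JCent Cfsg.Agent.Helper44.UC Cfsg.Agent.Helper44.SPC

/-- the family `β` as a function on pairs of blocks -/
noncomputable def bB {F : Type*} [Field F] {t : ℕ} (d : Fin t → ℕ)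
    (β : ∀ i : Fin (Finset.univ.sup d + 1),
      Matrix {x : Fin t // dd d x = i} {x : Fin t // dd d x = i} F) (l k : Fin t) : F :=
  if h : d l = d k then β (dd d l) ⟨l, rfl⟩ ⟨k, Fin.ext h.symm⟩ else 0

theorem bB_eq {F : Type*} [Field F] {t : ℕ} (d : Fin t → ℕ)
    (β : ∀ i : Fin (Finset.univ.sup d + 1),
      Matrix {x : Fin t // dd d x = i} {x : Fin t // dd d x = i} F)
    (i : Fin (Finset.univ.sup d + 1)) (l k : {x : Fin t // dd d x = i}) :
    bB d β l.1 k.1 = β i l k := by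
  obtain ⟨l, hl⟩ := l
  obtain ⟨k, hk⟩ := k
  subst hl
  have h : d l = d k := (congrArg Fin.val hk).symm
  unfold bB
  rw [dif_pos h]

theorem bB_symm {F : Type*} [Field F] {t : ℕ} (d : Fin t → ℕ)
    (β : ∀ i : Fin (Finset.univ.sup d + 1),
      Matrix {x : Fin t // dd d x = i} {x : Fin t // dd d x = i} F)
    (hβ : ∀ i, (β i)ᵀ = (-1 : F) ^ (i : ℕ) • β i) (l k : Fin t) :
    bB d β k l = (-1) ^ (d l) * bB d β l k := by
  by_cases h : d l = d k
  · have hk : dd d k = dd d l := Fin.ext h.symm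
    have h1 := bB_eq d β (dd d l) ⟨l, rfl⟩ ⟨k, hk⟩
    have h2 := bB_eq d β (dd d l) ⟨k, hk⟩ ⟨l, rfl⟩
    have h3 := congrFun (congrFun (hβ (dd d l)) ⟨l, rfl⟩) ⟨k, hk⟩
    rw [Matrix.transpose_apply, Matrix.smul_apply, smul_eq_mul] at h3
    rw [h1, h2, h3]
    rfl
  · unfold bB
    rw [dif_neg h, dif_neg (Ne.symm h), mul_zero]

/-- BETSURJ: every family of `(-1)^i`-symmetric matrices is the family of reductions of a
skew-symmetric skew form of the shift. -/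
theorem spc_betsurj {F : Type*} [Field F] {t : ℕ} (d : Fin t → ℕ) (hd : ∀ k, 1 ≤ d k)
    (β : ∀ i : Fin (Finset.univ.sup d + 1),
      Matrix {x : Fin t // dd d x = i} {x : Fin t // dd d x = i} F)
    (hβ : ∀ i, (β i)ᵀ = (-1 : F) ^ (i : ℕ) • β i) :
    ∃ ψ : Matrix ((k : Fin t) × Fin (d k)) ((k : Fin t) × Fin (d k)) F,
      ψᵀ = -ψ ∧ (nilp F d)ᵀ * ψ + ψ * nilp F d = 0 ∧ ∀ i, bet d hd i ψ = β i := by
  classical
  obtain ⟨ψ, hψ⟩ : ∃ ψ : Matrix ((k : Fin t) × Fin (d k)) ((k : Fin t) × Fin (d k)) F,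
      ψ = Matrix.of fun p r =>
        if d p.1 = d r.1 ∧ (p.2 : ℕ) + (r.2 : ℕ) + 1 = d p.1 then
          (-1) ^ (p.2 : ℕ) * (-1) ^ (d p.1 - 1) * bB d β p.1 r.1 else 0 := ⟨_, rfl⟩
  have hψapp : ∀ (l : Fin t) (j : Fin (d l)) (k : Fin t) (j' : Fin (d k)),
      ψ ⟨l, j⟩ ⟨k, j'⟩ = if d l = d k ∧ (j : ℕ) + (j' : ℕ) + 1 = d l then
          (-1) ^ (j : ℕ) * (-1) ^ (d l - 1) * bB d β l k else 0 := by
    intro l j k j'
    rw [hψ]
    rfl
  refine ⟨ψ, ?_, ?_, ?_⟩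
  · ext ⟨l, j⟩ ⟨k, j'⟩
    rw [Matrix.transpose_apply, Matrix.neg_apply, hψapp, hψapp]
    by_cases hc : d l = d k ∧ (j : ℕ) + (j' : ℕ) + 1 = d l
    · have hc' : d k = d l ∧ (j' : ℕ) + (j : ℕ) + 1 = d k := ⟨hc.1.symm, by omega⟩
      have hdk : (-1 : F) ^ (d k - 1) = (-1) ^ (d l - 1) :=
        congrArg (fun n => (-1 : F) ^ (n - 1)) hc.1.symm
      rw [if_pos hc, if_pos hc', bB_symm d β hβ l k, hdk]
      have h1 : (-1 : F) ^ (j' : ℕ) * (-1) ^ (d l) = -((-1) ^ (j : ℕ)) := by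
        have h2 : (j' : ℕ) + d l = 2 * (j' : ℕ) + ((j : ℕ) + 1) := by omega
        have h3 : ((-1 : F) ^ 2) ^ (j' : ℕ) = 1 := by rw [neg_one_sq, one_pow]
        rw [← pow_add, h2, pow_add, pow_mul, h3, one_mul, pow_succ, mul_neg_one]
      calc (-1 : F) ^ (j' : ℕ) * (-1) ^ (d l - 1) * ((-1) ^ (d l) * bB d β l k)
          = ((-1 : F) ^ (j' : ℕ) * (-1) ^ (d l)) * ((-1) ^ (d l - 1) * bB d β l k) := by ring
        _ = -((-1) ^ (j : ℕ) * (-1) ^ (d l - 1) * bB d β l k) := by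
            rw [h1]
            ring
    · have hc' : ¬ (d k = d l ∧ (j' : ℕ) + (j : ℕ) + 1 = d k) := by
        rintro ⟨h1, h2⟩
        exact hc ⟨h1.symm, by omega⟩
      rw [if_neg hc, if_neg hc', neg_zero]
  · ext ⟨l, j⟩ ⟨k, j'⟩
    rw [Matrix.add_apply, Cfsg.Agent.Helper46.SPCH0SK.transpose_nilp_mul_apply, mul_nilp_apply,
      Matrix.zero_apply]
    by_cases hc : d l = d k ∧ (j : ℕ) + (j' : ℕ) + 2 = d l
    · obtain ⟨h1, h2⟩ := hc
      have h3 : (j : ℕ) + 1 < d l := by omega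
      have h4 : (j' : ℕ) + 1 < d k := by omega
      rw [dif_pos h3, dif_pos h4, hψapp, hψapp]
      have h5 : d l = d k ∧ (j : ℕ) + 1 + (j' : ℕ) + 1 = d l := ⟨h1, by omega⟩
      have h6 : d l = d k ∧ (j : ℕ) + ((j' : ℕ) + 1) + 1 = d l := ⟨h1, by omega⟩
      rw [if_pos h5, if_pos h6, pow_succ]
      ring
    · have h7 : (if h : (j : ℕ) + 1 < d l then ψ ⟨l, ⟨(j : ℕ) + 1, h⟩⟩ ⟨k, j'⟩ else 0) = 0 := by
        split_ifs with h
        · rw [hψapp, if_neg]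
          rintro ⟨h8, h9⟩
          exact hc ⟨h8, by simp only at h9; omega⟩
        · rfl
      have h8 : (if h : (j' : ℕ) + 1 < d k then ψ ⟨l, j⟩ ⟨k, ⟨(j' : ℕ) + 1, h⟩⟩ else 0) = 0 := by
        split_ifs with h
        · rw [hψapp, if_neg]
          rintro ⟨h8, h9⟩
          exact hc ⟨h8, by simp only at h9; omega⟩
        · rfl
      rw [h7, h8, add_zero]
  · intro i
    ext l k
    rw [bet_apply, hψapp]
    have hl : d l.1 = (i : ℕ) := congrArg Fin.val l.2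
    have hk : d k.1 = (i : ℕ) := congrArg Fin.val k.2
    have hl1 := hd l.1
    have hc : d l.1 = d k.1 ∧ d l.1 - 1 + 0 + 1 = d l.1 := ⟨by omega, by omega⟩
    simp only
    rw [if_pos hc, bB_eq d β i l k, ← mul_pow]
    simp

end Cfsg.Agent.Helper46.SPCBETSURJ
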