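import Cfsg.Agent.Helper64.UCDefs
import Cfsg.Agent.Helper36.ChevLevi
import Cfsg.Agent.Helper36.ChevCharTables
import Cfsg.Agent.Helper17.ChevRankOne
import Cfsg.Agent.Helper17.ChevTorus
import Cfsg.Agent.Helper17.ChevWt

/-!
# CALL S2100 / S2398 (helper64), piece DF: the pairing is additive on the commutator formulas
-/

set_option autoImplicit false

namespace Cfsg.Agent.Helper46.STUDF

open Cfsg Cfsg.Lie Cfsg.Agent.Helper36 Cfsg.Agent.Helper64.UC

/-- additive version of `chainIter_char` -/
theorem chainIter_add (D : ChevalleyDatum) (f : ℕ → ℤ)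
    (hstep : ∀ r s k, r < D.nroots → s < D.nroots → D.chainRoot r s 1 = some k → f k = f r + f s)
    (r s : ℕ) (hr : r < D.nroots) :
    ∀ (k u : ℕ), chainIter D r s k = some u → f u = k * f r + f s := by
  intro k
  induction k with
  | zero =>
    intro u h
    simp only [chainIter, Option.some.injEq] at h
    rw [← h]
    simp
  | succ k ih =>
    intro u h
    simp only [chainIter] at h
    rcases hk : chainIter D r s k with _ | u'
    · rw [hk] at h; simp at h
    · rw [hk] at h
      simp only [Option.bind_some] at h
      by_cases hu' : u' < D.nroots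
      · rw [if_pos hu'] at h
        rw [hstep r u' u hr hu' h, ih u' hk]
        push_cast
        ring
      · rw [if_neg hu'] at h; simp at h

/-- an entry of the chain table is reached by single steps -/
theorem chainIter_of_entry (D : ChevalleyDatum) (hOK : chainOK D = true) (r s d u : ℕ) (c : ℤ)
    (hr : r < D.nroots) (h : (D.chainEntry r s)[d]? = some (u, c)) :
    chainIter D r s (d + 1) = some u := by
  unfold ChevalleyDatum.chainEntry at h
  unfold chainOK at hOK
  rw [List.all_eq_true] at hOK
  have h1 := hOK r (List.mem_range.2 hr)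
  rw [List.all_eq_true] at h1
  split at h
  · simp at h
  · rename_i e hfind
    have he : e ∈ (D.chain.getD r #[]).toList := List.mem_of_find?_eq_some hfind
    have hes : e.1 = s := by
      have := List.find?_some hfind
      simpa using this
    have h2 := h1 e he
    rw [List.all_eq_true] at h2
    have hq : ((u, c), d) ∈ e.2.toList.zipIdx := by
      rw [List.mk_mem_zipIdx_iff_getElem?]
      exact h
    have h3 := h2 ((u, c), d) hq
    have h4 : chainIter D r e.1 (d + 1) = some u := by simpa using h3
    rw [← hes]
    exact h4

/-- the pairing with a fixed root is additive for one chain step -/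
theorem pairing_step {D : ChevalleyDatum} (hC : Cfsg.Agent.Helper17.CartanFacts D) (γ r s k : ℕ)
    (hr : r < D.nroots) (hs : s < D.nroots) (h : D.chainRoot r s 1 = some k) :
    D.pairing γ k = D.pairing γ r + D.pairing γ s := by
  unfold ChevalleyDatum.pairing
  rw [← List.sum_map_add]
  congr 1
  apply List.map_congr_left
  intro i hi
  rw [(hC.2 i r s k (List.mem_range.1 hi) hr hs h).2]
  ring

/-- the pairing with a fixed root is additive along the chains -/
theorem chainAdd_pairing {D : ChevalleyDatum}
    (hD : D ∈ [chevG2, chevB2, chevD4, chevF4, chevE6, chevE7, chevE8]) (γ : ℕ) :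
    ChainAdd D (D.pairing γ) := by
  obtain ⟨f₀, hW⟩ := Cfsg.Agent.Helper17.wtFacts_of_mem hD
  have hC := Cfsg.Agent.Helper17.cartanFacts_of_mem hD
  have hOK := chainOK_of_mem D hD
  intro r s d u c hr hs h
  refine ⟨(hW.chain r s d u c hr hs h).1, ?_⟩
  have h1 := chainIter_of_entry D hOK r s d u c hr h
  have h2 := chainIter_add D (D.pairing γ) (fun r s k hr hs hk => pairing_step hC γ r s k hr hs hk)
    r s hr (d + 1) u h1
  rw [h2]
  push_cast
  ring

/-- PIECE DF: the pairing is additive on the commutator formulas. -/
theorem dfacts_of_mem (D : ChevalleyDatum)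
    (hD : D ∈ [chevG2, chevB2, chevD4, chevF4, chevE6, chevE7, chevE8]) : DFacts D := by
  constructor
  · intro γ _ r hr s hs c hc
    obtain ⟨h1, _, _, h4⟩ := commTerms_add (chainAdd_pairing hD γ) hr hs c hc
    exact ⟨h1, h4⟩
  · intro r hr
    exact (Cfsg.Agent.Helper17.rankOne_of_mem hD hr).pairing_self

end Cfsg.Agent.Helper46.STUDF
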