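import Cfsg.Agent.Helper64.UCDefs

/-!
# CALL S2100 / S2398 (helper64), piece LU: relation (R2) from additivity in `u` (the torus trick)
-/

set_option autoImplicit false

namespace Cfsg.Agent.Helper46.STULU

open Cfsg Cfsg.Lie Cfsg.Agent.Helper36 Cfsg.Agent.Helper64.UC

section

variable {K : Type*} [Field K] {Γ : Type*} [Group Γ] {E : Type*} [Group E]

/-- `ψ` maps a word in the lifts to the word in the root elements -/
theorem map_sW {D : ChevalleyDatum} {x : ℕ → K → Γ} {ψ : E →* Γ} {y : ℕ → K → E}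
    (hmap : ∀ r < D.nroots, ∀ t : K, ψ (y r t) = x r t) (w : List (ℕ × K))
    (hw : ∀ p ∈ w, p.1 < D.nroots) : ψ (sW y w) = sW x w := by
  induction w with
  | nil => rw [sW_nil, sW_nil, map_one]
  | cons p w ih =>
    rw [sW_cons, sW_cons, map_mul, hmap p.1 (hw p List.mem_cons_self) p.2,
      ih (fun q hq => hw q (List.mem_cons_of_mem _ hq))]

/-- conjugating a word in the lifts by a lift of a torus element -/
theorem conj_sW {D : ChevalleyDatum} {y : ℕ → K → E} (e : E) (χ : ℕ → K)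
    (he : ∀ r < D.nroots, ∀ t : K, e * y r t * e⁻¹ = y r (χ r * t)) (w : List (ℕ × K))
    (hw : ∀ p ∈ w, p.1 < D.nroots) :
    e * sW y w * e⁻¹ = sW y (w.map fun p => (p.1, χ p.1 * p.2)) := by
  induction w with
  | nil => rw [List.map_nil, sW_nil, mul_one, mul_inv_cancel]
  | cons p w ih =>
    rw [List.map_cons, sW_cons, sW_cons, ← ih (fun q hq => hw q (List.mem_cons_of_mem _ hq)),
      ← he p.1 (hw p List.mem_cons_self) p.2]
    group

/-- a central-valued additive function invariant under `u ↦ c u`, `c ≠ 1`, is trivial -/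
theorem add_inv_trivial (f : K → E) (hfadd : ∀ u u', f (u + u') = f u * f u') (c : K) (hc1 : c ≠ 1)
    (hfc : ∀ u, f (c * u) = f u) (u : K) : f u = 1 := by
  have hf0 : f 0 = 1 := by
    have h1 := hfadd 0 0
    rw [add_zero] at h1
    exact (mul_eq_left (a := f 0) (b := f 0)).1 h1.symm
  have hc0 : c - 1 ≠ 0 := sub_ne_zero.2 hc1
  have h1 : u = c * (u / (c - 1)) + (-(u / (c - 1))) := by
    field_simp
    ring
  rw [h1, hfadd, hfc, ← hfadd, add_neg_cancel, hf0]

/-- PIECE LU: relation (R2) for `(r, s)` from the additivity in `u` of its right-hand side. -/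
theorem good_of_add_u {D : ChevalleyDatum} {x : ℕ → K → Γ} {ψ : E →* Γ} {y : ℕ → K → E}
    (G : GSys D x) (F : DFacts D) (hψ : Function.Surjective ψ)
    (hc : ψ.ker ≤ Subgroup.center E) (L : LSys D x ψ y) {r s : ℕ} (hv : VP D r s)
    {h : Γ} {χ : ℕ → K} (hd : Diag D.nroots x h χ) (hχr : χ r = 1) (hχs : χ s ≠ 1)
    (hχ : ∀ c ∈ D.commTerms r s, χ c.1 = χ r ^ c.2.2.1 * χ s ^ c.2.2.2)
    (hadd : ∀ t u u' : K, y s u * sW y (D.commWord K r s t u) *
        (y s u' * sW y (D.commWord K r s t u')) =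
      y s (u + u') * sW y (D.commWord K r s t (u + u'))) :
    Good D y r s := by
  obtain ⟨hr, hs, hsr, hsn⟩ := hv
  intro t u
  -- the roots of the word are in range
  have hwlt : ∀ u : K, ∀ p ∈ D.commWord K r s t u, p.1 < D.nroots := by
    intro u p hp
    unfold ChevalleyDatum.commWord at hp
    rw [List.mem_map] at hp
    obtain ⟨c, hc', rfl⟩ := hp
    exact (F.padd r hr r hr s hs c hc').1
  obtain ⟨e, he⟩ := hψ h
  have hconj : ∀ k < D.nroots, ∀ v : K, e * y k v * e⁻¹ = y k (χ k * v) := L.equiv h χ hd e he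
  obtain ⟨φ, hφ⟩ : ∃ φ : K → E, φ = fun u => y s u * sW y (D.commWord K r s t u) := ⟨_, rfl⟩
  obtain ⟨ξ, hξ⟩ : ∃ ξ : K → E, ξ = fun u => (y r t)⁻¹ * y s u * y r t := ⟨_, rfl⟩
  have hφadd : ∀ u u', φ u * φ u' = φ (u + u') := by
    intro u u'
    rw [hφ]
    exact hadd t u u'
  have hξadd : ∀ u u', ξ u * ξ u' = ξ (u + u') := by
    intro u u'
    rw [hξ]
    beta_reduce
    rw [← L.add s u u']
    group
  have hψeq : ∀ u, ψ (ξ u) = ψ (φ u) := by
    intro u
    rw [hξ, hφ]
    beta_reduce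
    rw [map_mul, map_mul, map_inv, map_mul, L.map r hr, L.map s hs, map_sW L.map _ (hwlt u),
      mul_assoc, G.comm r hr s hs hsr hsn t u]
    group
  obtain ⟨f, hf⟩ : ∃ f : K → E, f = fun u => (φ u)⁻¹ * ξ u := ⟨_, rfl⟩
  have hfu : ∀ u, f u = (φ u)⁻¹ * ξ u := by
    intro u
    rw [hf]
  have hfker : ∀ u, f u ∈ Subgroup.center E := by
    intro u
    apply hc
    rw [MonoidHom.mem_ker, hfu, map_mul, map_inv, hψeq, inv_mul_cancel]
  have hfcomm : ∀ u (g : E), g * f u = f u * g :=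
    fun u g => Subgroup.mem_center_iff.1 (hfker u) g
  have hfadd : ∀ u u', f (u + u') = f u * f u' := by
    intro u u'
    have h1 : f (u + u') = (φ u')⁻¹ * f u * ξ u' := by
      rw [hfu, hfu, ← hφadd, ← hξadd]
      group
    rw [h1, hfcomm u (φ u')⁻¹, mul_assoc, ← hfu]
  have hword : ∀ u, (D.commWord K r s t u).map (fun p => (p.1, χ p.1 * p.2))
      = D.commWord K r s t (χ s * u) := by
    intro u
    unfold ChevalleyDatum.commWord
    rw [List.map_map]
    apply List.map_congr_left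
    intro c hc'
    simp only [Function.comp_apply]
    rw [hχ c hc', hχr, one_pow, one_mul, mul_pow]
    congr 1
    ring
  have hξc : ∀ u, e * ξ u * e⁻¹ = ξ (χ s * u) := by
    intro u
    rw [hξ]
    beta_reduce
    have h1 : e * ((y r t)⁻¹ * y s u * y r t) * e⁻¹
        = (e * y r t * e⁻¹)⁻¹ * (e * y s u * e⁻¹) * (e * y r t * e⁻¹) := by group
    rw [h1, hconj r hr, hconj s hs, hχr, one_mul]
  have hφc : ∀ u, e * φ u * e⁻¹ = φ (χ s * u) := by
    intro u
    rw [hφ]
    beta_reduce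
    have h1 : e * (y s u * sW y (D.commWord K r s t u)) * e⁻¹
        = (e * y s u * e⁻¹) * (e * sW y (D.commWord K r s t u) * e⁻¹) := by group
    rw [h1, hconj s hs, conj_sW e χ hconj _ (hwlt u), hword]
  have hfc : ∀ u, f (χ s * u) = f u := by
    intro u
    have h1 : e * f u * e⁻¹ = f (χ s * u) := by
      rw [hfu, hfu, ← hξc, ← hφc]
      group
    rw [← h1, hfcomm u e, mul_assoc, mul_inv_cancel, mul_one]
  have hf1 := add_inv_trivial f hfadd (χ s) hχs hfc u
  rw [hfu] at hf1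
  have h2 : ξ u = φ u := by
    have h3 : φ u * ((φ u)⁻¹ * ξ u) = φ u * 1 := by rw [hf1]
    rw [mul_inv_cancel_left, mul_one] at h3
    exact h3
  rw [hξ, hφ] at h2
  beta_reduce at h2
  rw [mul_assoc (y r t), ← h2]
  group

end

end Cfsg.Agent.Helper46.STULU
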