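import Cfsg.Agent.Helper33.Alperin
import Cfsg.Agent.Helper46.Frattini
import Cfsg.Prelude.Def_LocalEven

set_option autoImplicit false

/-!
Helper46: a strongly closed abelian subgroup of a Sylow `p`-subgroup controls strong fusion
(via the Alperin–Goldschmidt theorem of Helper33 and a stability-group / Frattini induction).
-/

namespace Cfsg.Agent.Helper46

open Cfsg

variable {G : Type*} [Group G]

/-- Frattini argument for a normal subgroup `K` with `K/C` a `p`-group: `N = C N_N(T ∩ K)`. -/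
theorem frattini_pquot {N : Type*} [Group N] [Finite N] {p : ℕ} [Fact p.Prime] (C K : Subgroup N)
    [C.Normal] [K.Normal] (hp : ∀ k ∈ K, ∃ j : ℕ, k ^ p ^ j ∈ C) (T : Sylow p N) (n : N) :
    ∃ c ∈ C, ∃ m ∈ Subgroup.normalizer (((T : Subgroup N) ⊓ K : Subgroup N) : Set N),
      n = c * m := by
  have hK : K ≤ C ⊔ ((T : Subgroup N) ⊓ K) := by
    rw [← Subgroup.relIndex_eq_one]
    have h1 : (C ⊔ ((T : Subgroup N) ⊓ K)).relIndex K ∣ C.relIndex K :=
      Subgroup.relIndex_dvd_of_le_left K le_sup_left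
    have h2 : (C ⊔ ((T : Subgroup N) ⊓ K)).relIndex K ∣ ((T : Subgroup N) ⊓ K).relIndex K :=
      Subgroup.relIndex_dvd_of_le_left K le_sup_right
    have hC : IsPGroup p (K ⧸ C.subgroupOf K) := by
      intro x
      obtain ⟨d, rfl⟩ := QuotientGroup.mk_surjective x
      obtain ⟨j, hj⟩ := hp d d.2
      refine ⟨j, ?_⟩
      rw [← QuotientGroup.mk_pow]
      exact (QuotientGroup.eq_one_iff _).mpr (by simpa [Subgroup.mem_subgroupOf] using hj)
    obtain ⟨j, hj⟩ := IsPGroup.iff_card.mp hC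
    have h3 : C.relIndex K = p ^ j := by
      rw [Subgroup.relIndex, Subgroup.index_eq_card, hj]
    obtain ⟨P, hP⟩ := exists_sylow_subgroupOf_normal K T
    have h4 : ¬ p ∣ ((T : Subgroup N) ⊓ K).relIndex K := by
      rw [Subgroup.inf_relIndex_right, Subgroup.relIndex, ← hP]
      exact P.not_dvd_index
    rw [h3] at h1
    obtain ⟨i, hi, hi'⟩ := (Nat.dvd_prime_pow Fact.out).mp h1
    rcases Nat.eq_zero_or_pos i with rfl | hpos
    · simpa using hi'
    · exfalso
      apply h4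
      refine dvd_trans ?_ h2
      rw [hi']
      exact dvd_pow_self p hpos.ne'
  obtain ⟨a, ha, k, hk, hnk⟩ := frattini_factorization K T n⁻¹
  have hk' : k⁻¹ ∈ C ⊔ ((T : Subgroup N) ⊓ K) := hK (inv_mem hk)
  obtain ⟨c, hc, t, ht, hct⟩ := Subgroup.mem_sup_of_normal_left.mp hk'
  refine ⟨c, hc, t * a⁻¹, mul_mem (Subgroup.le_normalizer ht) (inv_mem ha), ?_⟩
  have : n = k⁻¹ * a⁻¹ := by rw [← mul_inv_rev, ← hnk, inv_inv]
  rw [this, ← hct, mul_assoc]

/-- Relative form of `frattini_pquot` inside a subgroup `N` of a finite group. -/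
theorem frattini_pquot_rel [Finite G] {p : ℕ} [Fact p.Prime] {N C K T : Subgroup G}
    (_hCN : C ≤ N) (_hKN : K ≤ N) (hTN : T ≤ N) (hT : IsPGroup p T) (hidx : ¬ p ∣ T.relIndex N)
    (hCn : ∀ n ∈ N, ∀ c ∈ C, n * c * n⁻¹ ∈ C) (hKn : ∀ n ∈ N, ∀ k ∈ K, n * k * n⁻¹ ∈ K)
    (hp : ∀ k ∈ K, ∃ j : ℕ, k ^ p ^ j ∈ C) {n : G} (hn : n ∈ N) :
    ∃ c ∈ C, ∃ m ∈ N, (∀ x ∈ T ⊓ K, m * x * m⁻¹ ∈ T ⊓ K) ∧ n = c * m := by
  have hCnorm : (C.subgroupOf N).Normal := by
    constructor
    intro c hc g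
    rw [Subgroup.mem_subgroupOf] at hc ⊢
    simpa using hCn g g.2 c hc
  have hKnorm : (K.subgroupOf N).Normal := by
    constructor
    intro c hc g
    rw [Subgroup.mem_subgroupOf] at hc ⊢
    simpa using hKn g g.2 c hc
  have hT' : IsPGroup p (T.subgroupOf N) := hT.comap_subtype
  let P : Sylow p N := hT'.toSylow hidx
  have hP : (P : Subgroup N) = T.subgroupOf N := rfl
  have hp' : ∀ k ∈ K.subgroupOf N, ∃ j : ℕ, k ^ p ^ j ∈ C.subgroupOf N := by
    intro k hk
    obtain ⟨j, hj⟩ := hp k hk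
    exact ⟨j, by rw [Subgroup.mem_subgroupOf]; simpa using hj⟩
  obtain ⟨c, hc, m, hm, hnm⟩ := frattini_pquot (C.subgroupOf N) (K.subgroupOf N) hp' P ⟨n, hn⟩
  refine ⟨c, hc, m, m.2, ?_, ?_⟩
  · intro x hx
    have hxN : x ∈ N := hTN hx.1
    have h1 : (⟨x, hxN⟩ : N) ∈ (P : Subgroup N) ⊓ K.subgroupOf N := by
      rw [hP]
      exact ⟨hx.1, hx.2⟩
    have h2 := (Subgroup.mem_normalizer_iff.mp hm _).mp h1
    rw [hP] at h2
    exact ⟨h2.1, h2.2⟩
  · have := congrArg Subtype.val hnm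
    simpa using this

/-- The stability group of the chain `U ≥ B ≥ 1` inside `N_G(U)`. -/
def stabSub (U B : Subgroup G) : Subgroup G where
  carrier := {k | k ∈ Subgroup.normalizer (U : Set G) ∧ (∀ u ∈ U, k * u * k⁻¹ * u⁻¹ ∈ B) ∧
    ∀ b ∈ B, k * b * k⁻¹ = b}
  one_mem' := ⟨one_mem _, fun u _ => by simp, fun b _ => by simp⟩
  mul_mem' := by
    rintro k₁ k₂ ⟨h1N, h1U, h1B⟩ ⟨h2N, h2U, h2B⟩
    refine ⟨mul_mem h1N h2N, fun u hu => ?_, fun b hb => ?_⟩
    · have e : k₁ * k₂ * u * (k₁ * k₂)⁻¹ * u⁻¹ =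
          (k₁ * (k₂ * u * k₂⁻¹ * u⁻¹) * k₁⁻¹) * (k₁ * u * k₁⁻¹ * u⁻¹) := by group
      rw [e, h1B _ (h2U u hu)]
      exact mul_mem (h2U u hu) (h1U u hu)
    · rw [show k₁ * k₂ * b * (k₁ * k₂)⁻¹ = k₁ * (k₂ * b * k₂⁻¹) * k₁⁻¹ by group, h2B b hb,
        h1B b hb]
  inv_mem' := by
    rintro k ⟨hN, hU, hB⟩
    refine ⟨inv_mem hN, fun u hu => ?_, fun b hb => ?_⟩
    · have hu' : k⁻¹ * u * k ∈ U := by
        have := (Subgroup.mem_normalizer_iff.mp (inv_mem hN) u).mp hu
        simpa using this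
      have := hU _ hu'
      have e : k⁻¹ * u * k⁻¹⁻¹ * u⁻¹ =
          (k * (k⁻¹ * u * k) * k⁻¹ * (k⁻¹ * u * k)⁻¹)⁻¹ := by group
      rw [e]
      exact inv_mem this
    · have := hB b hb
      calc k⁻¹ * b * k⁻¹⁻¹ = k⁻¹ * (k * b * k⁻¹) * k := by rw [this, inv_inv]
        _ = b := by group

theorem mem_stabSub {U B : Subgroup G} {k : G} :
    k ∈ stabSub U B ↔ k ∈ Subgroup.normalizer (U : Set G) ∧ (∀ u ∈ U, k * u * k⁻¹ * u⁻¹ ∈ B) ∧
      ∀ b ∈ B, k * b * k⁻¹ = b := Iff.rfl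

/-- Iterated conjugation along a commuting "cocycle". -/
theorem conj_pow_chain {g q z : G} (hgq : g * q * g⁻¹ = z * q) (hgz : g * z = z * g) (i : ℕ) :
    g ^ i * q * (g ^ i)⁻¹ = z ^ i * q := by
  induction i with
  | zero => simp
  | succ i ih =>
    have hc : Commute g (z ^ i) := Commute.pow_right hgz i
    calc g ^ (i + 1) * q * (g ^ (i + 1))⁻¹ = g * (g ^ i * q * (g ^ i)⁻¹) * g⁻¹ := by
          rw [pow_succ']; group
      _ = g * (z ^ i * q) * g⁻¹ := by rw [ih]
      _ = (g * z ^ i) * (q * g⁻¹) := by group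
      _ = (z ^ i * g) * (q * g⁻¹) := by rw [hc.eq]
      _ = z ^ i * (g * q * g⁻¹) := by group
      _ = z ^ i * (z * q) := by rw [hgq]
      _ = z ^ (i + 1) * q := by rw [pow_succ]; group

/-- The inductive step: a fully normalized subgroup `U` of `S` whose strictly larger subgroups of `S`
have all their fusion realised in `N_G(A)` has its normalizer action realised in `N_G(A)`. -/
theorem fusion_key_step [Finite G] {p : ℕ} [Fact p.Prime] (S : Sylow p G) (A : Subgroup G)
    (hA : ∀ a ∈ A, ∀ b ∈ A, a * b = b * a)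
    (hsc : Cfsg.IsStronglyClosed A (S : Subgroup G)) (U : Subgroup G) (hU : U ≤ (S : Subgroup G))
    (hfn : ¬ p ∣ ((S : Subgroup G) ⊓ Subgroup.normalizer (U : Set G)).relIndex
      (Subgroup.normalizer (U : Set G)))
    (hIH : ∀ D : Subgroup G, D ≤ (S : Subgroup G) → Nat.card U < Nat.card D → ∀ m : G,
      (∀ d ∈ D, m * d * m⁻¹ ∈ (S : Subgroup G)) →
        ∃ x ∈ Subgroup.normalizer (A : Set G), ∀ d ∈ D, m * d * m⁻¹ = x * d * x⁻¹)
    (n : G) (hn : n ∈ Subgroup.normalizer (U : Set G)) :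
    ∃ x ∈ Subgroup.normalizer (A : Set G), ∀ u ∈ U, n * u * n⁻¹ = x * u * x⁻¹ := by
  have hAS : A ≤ (S : Subgroup G) := hsc.1
  have hAnorm : ∀ s ∈ (S : Subgroup G), ∀ a ∈ A, s * a * s⁻¹ ∈ A := fun s hs a ha =>
    hsc.2 a ha s (mul_mem (mul_mem hs (hAS ha)) (inv_mem hs))
  by_cases hAU : A ≤ U
  · refine ⟨n, ?_, fun u _ => rfl⟩
    have h1 : ∀ g ∈ Subgroup.normalizer (U : Set G), ∀ a ∈ A, g * a * g⁻¹ ∈ A := by
      intro g hg a ha
      apply hsc.2 a ha g
      exact hU ((Subgroup.mem_normalizer_iff.mp hg a).mp (hAU ha))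
    rw [Subgroup.mem_normalizer_iff]
    intro a
    constructor
    · exact h1 n hn a
    · intro h
      have := h1 n⁻¹ (inv_mem hn) _ h
      simpa [mul_assoc] using this
  · set N := Subgroup.normalizer (U : Set G) with hNdef
    set B : Subgroup G := U ⊓ A with hBdef
    have hBn : ∀ g ∈ N, ∀ b ∈ B, g * b * g⁻¹ ∈ B := by
      intro g hg b hb
      have hbU : g * b * g⁻¹ ∈ U := (Subgroup.mem_normalizer_iff.mp hg b).mp hb.1
      exact ⟨hbU, hsc.2 b hb.2 g (hU hbU)⟩
    have hBp : IsPGroup p B := S.2.to_le (inf_le_left.trans hU)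
    obtain ⟨j, hj⟩ := IsPGroup.iff_card.mp hBp
    have hBpow : ∀ z ∈ B, z ^ p ^ j = 1 := by
      intro z hz
      have h := pow_card_eq_one' (G := B) (x := ⟨z, hz⟩)
      rw [hj] at h
      simpa using congrArg Subtype.val h
    -- the stability group
    have hKN : stabSub U B ≤ N := fun k hk => hk.1
    have hCN : Subgroup.centralizer (U : Set G) ≤ N := Subgroup.centralizer_le_normalizer _
    have hCn : ∀ g ∈ N, ∀ c ∈ Subgroup.centralizer (U : Set G),
        g * c * g⁻¹ ∈ Subgroup.centralizer (U : Set G) := by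
      intro g hg c hc
      rw [Subgroup.mem_centralizer_iff]
      intro u hu
      have hu' : g⁻¹ * u * g ∈ U := by
        have := (Subgroup.mem_normalizer_iff.mp (inv_mem hg) u).mp hu
        simpa using this
      have h1 := Subgroup.mem_centralizer_iff.mp hc _ hu'
      calc u * (g * c * g⁻¹) = g * ((g⁻¹ * u * g) * c) * g⁻¹ := by group
        _ = g * (c * (g⁻¹ * u * g)) * g⁻¹ := by rw [h1]
        _ = g * c * g⁻¹ * u := by group
    have hKn : ∀ g ∈ N, ∀ k ∈ stabSub U B, g * k * g⁻¹ ∈ stabSub U B := by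
      intro g hg k hk
      obtain ⟨hkN, hkU, hkB⟩ := hk
      refine ⟨mul_mem (mul_mem hg hkN) (inv_mem hg), fun u hu => ?_, fun b hb => ?_⟩
      · have hu' : g⁻¹ * u * g ∈ U := by
          have := (Subgroup.mem_normalizer_iff.mp (inv_mem hg) u).mp hu
          simpa using this
        have h1 := hBn g hg _ (hkU _ hu')
        have e : g * k * g⁻¹ * u * (g * k * g⁻¹)⁻¹ * u⁻¹ =
            g * (k * (g⁻¹ * u * g) * k⁻¹ * (g⁻¹ * u * g)⁻¹) * g⁻¹ := by group
        rw [e]
        exact h1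
      · have hb' : g⁻¹ * b * g ∈ B := by
          have := hBn g⁻¹ (inv_mem hg) b hb
          simpa using this
        have h1 := hkB _ hb'
        calc g * k * g⁻¹ * b * (g * k * g⁻¹)⁻¹ = g * (k * (g⁻¹ * b * g) * k⁻¹) * g⁻¹ := by group
          _ = g * (g⁻¹ * b * g) * g⁻¹ := by rw [h1]
          _ = b := by group
    have hpK : ∀ k ∈ stabSub U B, ∃ i : ℕ, k ^ p ^ i ∈ Subgroup.centralizer (U : Set G) := by
      intro k hk
      refine ⟨j, ?_⟩
      obtain ⟨hkN, hkU, hkB⟩ := hk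
      rw [Subgroup.mem_centralizer_iff]
      intro u hu
      have hz := hkU u hu
      have hgq : k * u * k⁻¹ = (k * u * k⁻¹ * u⁻¹) * u := by group
      have hgz : k * (k * u * k⁻¹ * u⁻¹) = (k * u * k⁻¹ * u⁻¹) * k := by
        have := hkB _ hz
        calc k * (k * u * k⁻¹ * u⁻¹) = (k * (k * u * k⁻¹ * u⁻¹) * k⁻¹) * k := by group
          _ = (k * u * k⁻¹ * u⁻¹) * k := by rw [this]
      have h1 := conj_pow_chain hgq hgz (p ^ j)
      rw [hBpow _ hz, one_mul] at h1
      calc u * k ^ p ^ j = (k ^ p ^ j * u * (k ^ p ^ j)⁻¹) * k ^ p ^ j := by rw [h1]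
        _ = k ^ p ^ j * u := by group
    have hTp : IsPGroup p ((S : Subgroup G) ⊓ N : Subgroup G) := S.2.to_inf_left
    obtain ⟨c, hc, m, hmN, hmT, hnm⟩ :=
      frattini_pquot_rel hCN hKN (inf_le_right : (S : Subgroup G) ⊓ N ≤ N) hTp hfn hCn hKn hpK hn
    -- the bigger subgroup
    set D : Subgroup G := U ⊔ (((S : Subgroup G) ⊓ N) ⊓ stabSub U B) with hDdef
    have hDS : D ≤ (S : Subgroup G) := sup_le hU (inf_le_left.trans inf_le_left)
    have hmD : ∀ d ∈ D, m * d * m⁻¹ ∈ (S : Subgroup G) := by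
      have : D ≤ (S : Subgroup G).comap (MulAut.conj m).toMonoidHom := by
        apply sup_le
        · intro u hu
          rw [Subgroup.mem_comap]
          exact hU ((Subgroup.mem_normalizer_iff.mp hmN u).mp hu)
        · intro x hx
          rw [Subgroup.mem_comap]
          exact (hmT x hx).1.1
      intro d hd
      have := this hd
      simpa [Subgroup.mem_comap] using this
    -- D is strictly bigger than U
    have hlt : U < D := by
      refine lt_of_le_of_ne le_sup_left ?_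
      intro hUD
      apply hAU
      by_contra hAU'
      have hQp : IsPGroup p (U ⊔ A : Subgroup G) := S.2.to_le (sup_le hU hAS)
      have hne : U ≠ U ⊔ A := by
        intro h
        apply hAU'
        rw [h]
        exact le_sup_right
      obtain ⟨y, hyQ, hyN, hyU⟩ := Helper33.exists_mem_normalizer_not_mem hQp le_sup_left hne
      have hUA : U ≤ Subgroup.normalizer (A : Set G) := by
        intro u hu
        rw [Subgroup.mem_normalizer_iff]
        intro a
        constructor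
        · exact hAnorm u (hU hu) a
        · intro h
          have := hAnorm u⁻¹ (inv_mem (hU hu)) _ h
          simpa [mul_assoc] using this
      have hy' : y ∈ ((U ⊔ A : Subgroup G) : Set G) := hyQ
      rw [Subgroup.coe_mul_of_left_le_normalizer_right U A hUA] at hy'
      obtain ⟨u, hu, a, ha, rfl⟩ := Set.mem_mul.mp hy'
      have hu' : u ∈ U := hu
      have ha' : a ∈ A := ha
      have huN : u ∈ N := Subgroup.le_normalizer hu'
      have haN : a ∈ N := by
        have := mul_mem (inv_mem huN) hyN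
        simpa using this
      have haK : a ∈ stabSub U B := by
        refine ⟨haN, fun v hv => ?_, fun b hb => ?_⟩
        · refine Subgroup.mem_inf.mpr ⟨?_, ?_⟩
          · exact mul_mem ((Subgroup.mem_normalizer_iff.mp haN v).mp hv) (inv_mem hv)
          · have h1 : v * a⁻¹ * v⁻¹ ∈ A := hAnorm v (hU hv) _ (inv_mem ha')
            have : a * v * a⁻¹ * v⁻¹ = a * (v * a⁻¹ * v⁻¹) := by group
            rw [this]
            exact mul_mem ha' h1
        · have := hA a ha' b hb.2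
          calc a * b * a⁻¹ = b * a * a⁻¹ := by rw [this]
            _ = b := by group
      have haD : a ∈ D := by
        apply Subgroup.mem_sup_right
        exact ⟨⟨hAS ha', haN⟩, haK⟩
      rw [← hUD] at haD
      exact hyU (mul_mem hu' haD)
    obtain ⟨x, hx, hxD⟩ := hIH D hDS (Helper33.card_lt_card_of_lt hlt) m hmD
    refine ⟨x, hx, fun u hu => ?_⟩
    have humU : m * u * m⁻¹ ∈ U := (Subgroup.mem_normalizer_iff.mp hmN u).mp hu
    have h1 := Subgroup.mem_centralizer_iff.mp hc _ humU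
    rw [← hxD u (Subgroup.mem_sup_left hu), hnm]
    calc c * m * u * (c * m)⁻¹ = (c * (m * u * m⁻¹)) * c⁻¹ := by group
      _ = ((m * u * m⁻¹) * c) * c⁻¹ := by rw [h1]
      _ = m * u * m⁻¹ := by group

/-- Chains through "good" subgroups are realised in `N_G(A)`. -/
theorem chain_good [Finite G] {𝓕 : Set (Subgroup G)} (A : Subgroup G) (k : ℕ)
    (hgood : ∀ T ∈ 𝓕, k ≤ Nat.card T → ∀ n ∈ Subgroup.normalizer (T : Set G),
      ∃ x ∈ Subgroup.normalizer (A : Set G), ∀ u ∈ T, n * u * n⁻¹ = x * u * x⁻¹) :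
    ∀ (l : List (Subgroup G × G)) (B : Set G), k ≤ B.ncard → Helper33.Chain 𝓕 B l →
      ∃ x ∈ Subgroup.normalizer (A : Set G),
        ∀ b ∈ B, (Helper33.prodOf l)⁻¹ * b * Helper33.prodOf l = x * b * x⁻¹ := by
  intro l
  induction l with
  | nil =>
    intro B _ _
    exact ⟨1, one_mem _, fun b _ => by simp [Helper33.prodOf]⟩
  | cons s l ih =>
    intro B hk hch
    obtain ⟨hs, hsN, hBs, hch'⟩ := hch
    have hcard : k ≤ Nat.card s.1 := by
      have h1 : B.ncard ≤ ((s.1 : Subgroup G) : Set G).ncard := Set.ncard_le_ncard hBs (Set.toFinite _)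
      have h2 : Nat.card s.1 = ((s.1 : Subgroup G) : Set G).ncard := Nat.card_coe_set_eq _
      omega
    obtain ⟨x₁, hx₁, h₁⟩ := hgood s.1 hs hcard s.2⁻¹ (inv_mem hsN)
    have hk' : k ≤ (Helper33.conjSet s.2 B).ncard := by
      have : (Helper33.conjSet s.2 B).ncard = B.ncard := by
        unfold Helper33.conjSet
        apply Set.ncard_image_of_injective
        intro a b hab
        simpa using hab
      omega
    obtain ⟨x₂, hx₂, h₂⟩ := ih (Helper33.conjSet s.2 B) hk' hch'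
    refine ⟨x₂ * x₁, mul_mem hx₂ hx₁, ?_⟩
    intro b hb
    rw [Helper33.prodOf_cons]
    have hb' : s.2⁻¹ * b * s.2 ∈ Helper33.conjSet s.2 B := ⟨b, hb, rfl⟩
    have e1 := h₂ _ hb'
    have e2 := h₁ b (hBs hb)
    rw [inv_inv] at e2
    calc (s.2 * Helper33.prodOf l)⁻¹ * b * (s.2 * Helper33.prodOf l)
        = (Helper33.prodOf l)⁻¹ * (s.2⁻¹ * b * s.2) * Helper33.prodOf l := by group
      _ = x₂ * (s.2⁻¹ * b * s.2) * x₂⁻¹ := e1
      _ = x₂ * (x₁ * b * x₁⁻¹) * x₂⁻¹ := by rw [e2]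
      _ = x₂ * x₁ * b * (x₂ * x₁)⁻¹ := by group

/-- The family of fully normalized subgroups of `S`. -/
def fullyNormalized {p : ℕ} (S : Sylow p G) : Set (Subgroup G) :=
  {T | T ≤ (S : Subgroup G) ∧ ¬ p ∣ ((S : Subgroup G) ⊓ Subgroup.normalizer (T : Set G)).relIndex
    (Subgroup.normalizer (T : Set G))}

theorem fullyNormalized_family [Finite G] {p : ℕ} [Fact p.Prime] (S : Sylow p G) :
    ∀ T : Subgroup G, T ≤ (S : Subgroup G) → ∃ U ∈ fullyNormalized S, U ≤ (S : Subgroup G) ∧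
      (∃ g : G, T.map (MulAut.conj g).toMonoidHom = U) ∧
      ¬ p ∣ ((S : Subgroup G) ⊓ Subgroup.normalizer (U : Set G)).relIndex
        (Subgroup.normalizer (U : Set G)) := by
  intro T hT
  obtain ⟨g, h1, -, h3⟩ := Helper33.exists_fully_normalized_cj S T hT
  exact ⟨_, ⟨h1, h3⟩, h1, ⟨g, rfl⟩, h3⟩

/-- Every fully normalized subgroup of `S` has its normalizer action realised in `N_G(A)`. -/
theorem fullyNormalized_good [Finite G] {p : ℕ} [Fact p.Prime] (S : Sylow p G) (A : Subgroup G)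
    (hA : ∀ a ∈ A, ∀ b ∈ A, a * b = b * a)
    (hsc : Cfsg.IsStronglyClosed A (S : Subgroup G)) :
    ∀ U ∈ fullyNormalized S, ∀ n ∈ Subgroup.normalizer (U : Set G),
      ∃ x ∈ Subgroup.normalizer (A : Set G), ∀ u ∈ U, n * u * n⁻¹ = x * u * x⁻¹ := by
  intro U
  induction h : Nat.card (S : Subgroup G) - Nat.card U using Nat.strong_induction_on
    generalizing U with
  | _ k ih =>
  intro hU n hn
  apply fusion_key_step S A hA hsc U hU.1 hU.2 ?_ n hn
  intro D hD hcard m hm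
  have hconj : Helper33.conjSet m⁻¹ (D : Set G) ⊆ (S : Subgroup G) := by
    rintro _ ⟨d, hd, rfl⟩
    have := hm d hd
    show m⁻¹⁻¹ * d * m⁻¹ ∈ (S : Subgroup G)
    rw [inv_inv]
    exact this
  obtain ⟨l, hl, hprod⟩ := Helper33.alperin_set S (fullyNormalized S) (fullyNormalized_family S)
    (D : Set G) hD m⁻¹ hconj
  have hgood : ∀ T ∈ fullyNormalized S, Nat.card D ≤ Nat.card T →
      ∀ n ∈ Subgroup.normalizer (T : Set G),
        ∃ x ∈ Subgroup.normalizer (A : Set G), ∀ u ∈ T, n * u * n⁻¹ = x * u * x⁻¹ := by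
    intro T hT hDT
    have hTS : Nat.card T ≤ Nat.card (S : Subgroup G) := Subgroup.card_le_of_le hT.1
    exact ih (Nat.card (S : Subgroup G) - Nat.card T) (by omega) T rfl hT
  have hDcard : Nat.card D ≤ (D : Set G).ncard := (Nat.card_coe_set_eq _).le
  obtain ⟨x, hx, hx'⟩ := chain_good A (Nat.card D) hgood l (D : Set G) hDcard hl
  refine ⟨x, hx, fun d hd => ?_⟩
  have := hx' d hd
  rw [hprod, inv_inv] at this
  exact this

/-- **A strongly closed abelian subgroup of a Sylow `p`-subgroup controls strong fusion.** -/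
theorem controlsStrongFusion_of_abelian [Finite G] {p : ℕ} [Fact p.Prime] (S : Sylow p G)
    (A : Subgroup G) (hA : ∀ a ∈ A, ∀ b ∈ A, a * b = b * a)
    (hsc : Cfsg.IsStronglyClosed A (S : Subgroup G)) : Cfsg.ControlsStrongFusion p A := by
  refine ⟨S, hsc.1, fun B hB => ⟨hB, fun g hg => ?_⟩⟩
  have hconj : Helper33.conjSet g⁻¹ B ⊆ (S : Subgroup G) := by
    rintro _ ⟨b, hb, rfl⟩
    have := hg ⟨b, hb, rfl⟩
    show g⁻¹⁻¹ * b * g⁻¹ ∈ (S : Subgroup G)
    rw [inv_inv]
    exact this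
  obtain ⟨l, hl, hprod⟩ := Helper33.alperin_set S (fullyNormalized S) (fullyNormalized_family S)
    B hB g⁻¹ hconj
  obtain ⟨x, hx, hx'⟩ := chain_good A 0
    (fun T hT _ => fullyNormalized_good S A hA hsc T hT) l B (Nat.zero_le _) hl
  refine ⟨x, hx, fun b hb => ?_⟩
  have := hx' b hb
  rw [hprod, inv_inv] at this
  exact this

end Cfsg.Agent.Helper46
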