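import Mathlib
import Cfsg.Prelude.Def_GeometricClasses
import Cfsg.Agent.Helper71.T4Defs
import Cfsg.Agent.Helper97.OForm
import Cfsg.Agent.Helper96.T5Defs

/-!
# CALL S5704 (helper96), PIECE ISOB
-/

set_option autoImplicit false
set_option linter.unusedVariables false

namespace Cfsg.Agent.Helper46.T5ISOB

open Matrix Cfsg Cfsg.Geo Cfsg.Agent.Helper71.T4 Cfsg.Agent.Helper96.T5
open scoped Kronecker

variable {F : Type*} [Field F] {a b : ℕ}

variable {J₁ : Matrix (Fin a) (Fin a) F} {J₂ : Matrix (Fin b) (Fin b) F}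
  {Q : (Fin a × Fin b → F) → F}

/-- a coordinate vector is a pure tensor -/
theorem single_eq_pt (p : Fin a × Fin b) (c : F) :
    (Pi.single p c : Fin a × Fin b → F) = pt (Pi.single p.1 c) (Pi.single p.2 1) := by
  ext q
  obtain ⟨i, k⟩ := p
  obtain ⟨j, l⟩ := q
  simp only [pt, Pi.single_apply, Prod.mk.injEq]
  by_cases h1 : j = i <;> by_cases h2 : l = k <;> simp [h1, h2]

/-- PIECE ISOB: a matrix preserving the polar form and mapping pure tensors to singular vectors
is an isometry of `Q`. -/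
theorem isob (hT : TQ J₁ J₂ Q) (g : GL (Fin a × Fin b) F)
    (hpol : ∀ v v', bf (J₁ ⊗ₖ J₂) (g.1 *ᵥ v) (g.1 *ᵥ v') = bf (J₁ ⊗ₖ J₂) v v')
    (hpure : ∀ u w, Q (g.1 *ᵥ pt u w) = 0) : g ∈ isometryGroup F Q := by
  classical
  rw [Cfsg.Agent.Helper97.Gen.mem_isometryGroup_iff]
  have hadd : ∀ x y : Fin a × Fin b → F, Q (x + y) = Q x + Q y + QuadraticMap.polar Q x y := by
    intro x y
    simp only [QuadraticMap.polar]
    ring
  have key : ∀ (v : Fin a × Fin b → F) (s : Finset (Fin a × Fin b)),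
      Q (g.1 *ᵥ ∑ p ∈ s, Pi.single p (v p)) = Q (∑ p ∈ s, Pi.single p (v p)) := by
    intro v s
    induction s using Finset.induction_on with
    | empty => simp
    | insert p s hp ih =>
      rw [Finset.sum_insert hp, Matrix.mulVec_add, hadd, hadd, ih, hT.polar, hT.polar, hpol,
        single_eq_pt, hpure, hT.pure]
  intro v
  have h := key v Finset.univ
  rwa [Finset.univ_sum_single] at h

end Cfsg.Agent.Helper46.T5ISOB
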