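import Mathlib
import Cfsg.Prelude.Def_GeometricClasses
import Cfsg.Prelude.Def_Classical
import Cfsg.Agent.Helper58.TSDefs
import Cfsg.Agent.Helper43.OTDefs
import Cfsg.Agent.Helper33.OType
import Cfsg.Agent.Helper43.OrthEven
import Cfsg.Agent.Helper50.OTINV

set_option autoImplicit false

/-!
# Sub-CALL TSEG (helper13), piece WITT (helper46): totally singular subspaces of a nondegenerate
subspace of dimension `2c`.
-/

namespace Cfsg.Agent.Helper46.TSEG

open Module Polynomial Cfsg Cfsg.Geo Cfsg.Agent.Helper90.HT Cfsg.Agent.Helper43.OT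

section quad

variable {ι : Type} [Fintype ι] [DecidableEq ι] {F : Type*} [Field F] [Fintype F]

/-- WITT: totally singular subspaces of a nondegenerate subspace `C` of dimension `2c`: of every
dimension `≤ c` if `C` is of plus type, of every dimension `≤ c - 1` in any case. -/
theorem eg_witt (Q : (ι → F) → F) (hQ : IsNondegenerateQuadraticForm Q) (C : Submodule F (ι → F))
    (hC : IsNondegenerateOn (QuadraticMap.polar Q) C) (c : ℕ) (hc : finrank F C = 2 * c) :
    (IsPlusTypeOn Q C → ∀ w, w ≤ c →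
      ∃ W : Submodule F (ι → F), W ≤ C ∧ finrank F W = w ∧ ∀ x ∈ W, Q x = 0) ∧
    (∀ w, w + 1 ≤ c →
      ∃ W : Submodule F (ι → F), W ≤ C ∧ finrank F W = w ∧ ∀ x ∈ W, Q x = 0) := by
  have hplus : IsPlusTypeOn Q C → ∀ w, w ≤ c →
      ∃ W : Submodule F (ι → F), W ≤ C ∧ finrank F W = w ∧ ∀ x ∈ W, Q x = 0 := by
    rintro ⟨U, hUC, hts, hd⟩ w hw
    obtain ⟨W, hWU, hWd⟩ := Cfsg.Agent.Helper50.OT5972.inv_exists_sub U w (by omega)
    exact ⟨W, hWU.trans hUC, hWd, fun x hx => hts x (hWU hx)⟩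
  refine ⟨hplus, fun w hw => ?_⟩
  by_cases hp : IsPlusTypeOn Q C
  · exact hplus hp w (by omega)
  · have hc1 : 1 ≤ c := by omega
    have hnts : ¬ Cfsg.Agent.Helper43.OrthEven.HasTS (Cfsg.Agent.Helper33.OType.restr Q hQ C) c :=
      fun h => hp ((Cfsg.Agent.Helper33.OType.plus_iff_hasTS Q hQ C hC hc).2 h)
    obtain ⟨ζ, -, Ψ, hΨ⟩ := Cfsg.Agent.Helper43.OrthEven.exists_minus_of_not_hasTS hc1 hc
      (Cfsg.Agent.Helper33.OType.restr Q hQ C)
      (Cfsg.Agent.Helper33.OType.polarNondeg_restr Q hQ C hC) hnts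
    obtain ⟨L, hLdef⟩ : ∃ L : (Fin (c - 1) → F) →ₗ[F] (ι → F), ∀ v, L v =
        ((Ψ (Cfsg.Agent.Helper33.OType.embM (c - 1) (v, 0)) : C) : ι → F) :=
      ⟨C.subtype ∘ₗ Ψ.toLinearMap ∘ₗ Cfsg.Agent.Helper33.OType.embM (F := F) (c - 1) ∘ₗ
        LinearMap.inl F (Fin (c - 1) → F) (Fin 2 → F), fun v => rfl⟩
    have hLinj : Function.Injective L := by
      intro a b hab
      rw [hLdef, hLdef] at hab
      have h2 := Ψ.injective (Subtype.ext hab)
      have h3 := Cfsg.Agent.Helper33.OType.embM_injective (c - 1) h2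
      exact congrArg Prod.fst h3
    have hL0 : ∀ v, Q (L v) = 0 := by
      intro v
      have h1 := hΨ (Cfsg.Agent.Helper33.OType.embM (c - 1) (v, 0))
      rw [Cfsg.Agent.Helper33.OType.quadFormMinus_embM,
        Cfsg.Agent.Helper33.OType.restr_apply] at h1
      rw [hLdef, h1]
      simp
    have hU'd : finrank F (LinearMap.range L) = c - 1 := by
      rw [LinearMap.finrank_range_of_inj hLinj]
      simp
    obtain ⟨W, hWU, hWd⟩ := Cfsg.Agent.Helper50.OT5972.inv_exists_sub (LinearMap.range L) w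
      (by omega)
    refine ⟨W, ?_, hWd, ?_⟩
    · intro x hx
      obtain ⟨v, rfl⟩ := hWU hx
      rw [hLdef]
      exact (Ψ _).2
    · intro x hx
      obtain ⟨v, rfl⟩ := hWU hx
      exact hL0 v

end quad

end Cfsg.Agent.Helper46.TSEG
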