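/-
helper46: piece CV1 of CALL S2314 (helper40): an ordered list of `m` positive roots generates a
subgroup of order at least `q ^ m`.
-/
import Cfsg.Agent.Helper17.ChevUniMem

set_option autoImplicit false

namespace Cfsg.Agent.Helper46.UCCV1

open Cfsg.Lie

variable {F : Type*} [Field F] [Fintype F] {D : ChevalleyDatum}

/-- The number of members of a strictly increasing list. -/
theorem card_mem_list (L : List ℕ) (hs : L.Pairwise (· < ·)) :
    Nat.card {r // r ∈ L} = L.length := by
  classical
  rw [Nat.card_eq_fintype_card, Fintype.card_of_subtype L.toFinset (fun r => List.mem_toFinset),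
    List.toFinset_card_of_nodup (hs.imp (fun h => ne_of_lt h))]

/-- CV1: an ordered list of `m` positive roots generates a subgroup of order at least `q ^ m`. -/
theorem card_rootsSubgroup_ge (hD : D ∈ [chevG2, chevB2, chevD4, chevF4, chevE6, chevE7, chevE8])
    (L : List ℕ) (hs : L.Pairwise (· < ·)) (hp : ∀ r ∈ L, D.IsPosRoot r) :
    Fintype.card F ^ L.length ≤ Nat.card ↥(Cfsg.Agent.Helper17.rootsSubgroup D F L) := by
  classical
  obtain ⟨f, hW⟩ := Cfsg.Agent.Helper17.wtFacts_of_mem hD
  have hE : Cfsg.Agent.Helper17.RootElts D F := Cfsg.Agent.Helper17.rootElts_of_mem hD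
  have hpos : ∀ r ∈ L, r < D.nroots ∧ 0 < f r := fun r hr =>
    ⟨(hp r hr).1, (hW.pos r (hp r hr).1).1 (hp r hr)⟩
  have hψ : ∀ τ : ({r // r ∈ L} → F), ∃ g : Cfsg.Agent.Helper17.rootsSubgroup D F L,
      ((g : GL D.Idx F) : Matrix D.Idx D.Idx F) =
        D.wordMat F (L.map fun r => (r, if h : r ∈ L then τ ⟨r, h⟩ else 0)) := by
    intro τ
    obtain ⟨g, hg, hgm⟩ := Cfsg.Agent.Helper17.exists_wordGL hE L
      (L.map fun r => (r, if h : r ∈ L then τ ⟨r, h⟩ else 0)) (by
        intro p hp'
        rw [List.mem_map] at hp'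
        obtain ⟨r, hr, rfl⟩ := hp'
        exact hr)
    exact ⟨⟨g, hg⟩, hgm⟩
  choose ψ hψ' using hψ
  have hinj : Function.Injective ψ := by
    intro τ τ' h
    have e1 := hψ' τ
    rw [h, hψ' τ'] at e1
    have h2 := Cfsg.Agent.Helper17.coeff_unique hW hE L hs hpos _ _ e1
    funext r
    have h3 := h2 r.1 r.2
    simp only [r.2, dif_pos] at h3
    exact h3.symm
  have hcard := Nat.card_le_card_of_injective ψ hinj
  rw [Nat.card_fun, Nat.card_eq_fintype_card (α := F), card_mem_list L hs] at hcard
  exact hcard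

end Cfsg.Agent.Helper46.UCCV1
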