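import Mathlib
import Cfsg.Prelude.Def_GeometricClasses
import Cfsg.Agent.Helper90.UFRDefs
import Cfsg.Agent.Helper90.UFRBase
import Cfsg.Agent.Helper60.SFRBADB

/-!
# S5982, piece BADBU: an element `x` with `x^r = z`, `z` not an `r`-th power, is bad (unitary case)
-/

set_option autoImplicit false

namespace Cfsg.Agent.Helper46

open Module Polynomial Cfsg.Agent.Helper90.UFR

section fin
variable {F : Type*} [Field F] [Fintype F]

/-- local version of SIMPOW (so that BADBU does not wait for it) -/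
theorem ufr_sim_pow_aux (q₀ : ℕ) (hq : Fintype.card F = q₀ ^ 2) (n : ℕ) (hn : 0 < n)
    (f : (Fin n → F) → (Fin n → F) → F) (hf : Cfsg.Geo.IsUnitaryFormPow q₀ f)
    (x : GL (Fin n) F) (k : ℕ) (z : F)
    (hxz : ((x ^ k : GL (Fin n) F) : Matrix (Fin n) (Fin n) F)
      = z • (1 : Matrix (Fin n) (Fin n) F)) (h : IsConjU f x) :
    ∃ c : F, c ≠ 0 ∧ c ^ q₀ = c ∧ c ^ k = z ^ (q₀ + 1) := by
  classical
  obtain ⟨σ, J, hσ, hσ2, hJ, hJt, hmem⟩ := ufr_setup q₀ hq n f hf
  obtain ⟨g, hg, hsim⟩ := h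
  rw [hmem] at hsim
  obtain ⟨c, hc0, hc⟩ := hsim
  obtain ⟨H, hH⟩ : ∃ H : Matrix (Fin n) (Fin n) F,
      H = ((g⁻¹ * x * g : GL (Fin n) F) : Matrix (Fin n) (Fin n) F) := ⟨_, rfl⟩
  rw [← hH] at hc
  have hmapmul : ∀ L M : Matrix (Fin n) (Fin n) F, (L * M).map σ = L.map σ * M.map σ :=
    fun L M => Matrix.map_mul (f := (σ : F →+* F))
  have hmapmap : ∀ L : Matrix (Fin n) (Fin n) F, (L.map σ).map σ = L := by
    intro L
    ext i j
    rw [Matrix.map_apply, Matrix.map_apply, hσ2]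
  have hmapsmul : ∀ (a : F) (L : Matrix (Fin n) (Fin n) F), (a • L).map σ = σ a • L.map σ := by
    intro a L
    ext i j
    rw [Matrix.map_apply, Matrix.smul_apply, Matrix.smul_apply, Matrix.map_apply, smul_eq_mul,
      smul_eq_mul, map_mul]
  have hJ0 : ∃ i j, J i j ≠ 0 := by
    by_contra hcon
    have : J = 0 := by
      ext i j
      by_contra hne
      exact hcon ⟨i, j, hne⟩
    rw [this] at hJ
    have : Nonempty (Fin n) := ⟨⟨0, hn⟩⟩
    exact hJ Matrix.det_zero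
  obtain ⟨i₀, j₀, hij⟩ := hJ0
  have hcancel : ∀ a b : F, a • J = b • J → a = b := by
    intro a b hab
    have h1 := congrFun (congrFun hab i₀) j₀
    rw [Matrix.smul_apply, Matrix.smul_apply, smul_eq_mul, smul_eq_mul] at h1
    exact mul_right_cancel₀ hij h1
  have hpow : ∀ k : ℕ, (H ^ k).transpose * J * (H ^ k).map σ = c ^ k • J := by
    intro k
    induction k with
    | zero =>
      rw [pow_zero, pow_zero, Matrix.transpose_one, Matrix.one_mul, one_smul,
        Matrix.map_one _ (map_zero σ) (map_one σ), Matrix.mul_one]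
    | succ k ih =>
      rw [pow_succ' H, Matrix.transpose_mul, hmapmul]
      calc (H ^ k).transpose * H.transpose * J * (H.map σ * (H ^ k).map σ)
          = (H ^ k).transpose * (H.transpose * J * H.map σ) * (H ^ k).map σ := by
            simp only [Matrix.mul_assoc]
        _ = c • ((H ^ k).transpose * J * (H ^ k).map σ) := by
            rw [hc, Matrix.mul_smul, Matrix.smul_mul]
        _ = c ^ (k + 1) • J := by rw [ih, smul_smul, ← pow_succ']
  have hHk : H ^ k = z • (1 : Matrix (Fin n) (Fin n) F) := by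
    have h1 : (g⁻¹ * x * g) ^ k = g⁻¹ * x ^ k * g := by
      have h2 := conj_pow (a := g⁻¹) (b := x) (i := k)
      rwa [inv_inv] at h2
    rw [hH, ← Units.val_pow_eq_pow_val, h1, Units.val_mul, Units.val_mul, hxz, Matrix.mul_smul,
      Matrix.mul_one, Matrix.smul_mul, ← Units.val_mul, inv_mul_cancel, Units.val_one]
  refine ⟨c, hc0, ?_, ?_⟩
  · -- `σ c = c`
    have h1 := congrArg Matrix.transpose hc
    rw [Matrix.transpose_mul, Matrix.transpose_mul, Matrix.transpose_transpose,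
      Matrix.transpose_smul, hJt] at h1
    have h2 := congrArg (fun M : Matrix (Fin n) (Fin n) F => M.map σ) h1
    beta_reduce at h2
    rw [hmapmul, hmapmul, hmapsmul, hmapmap, ← Matrix.transpose_map, hmapmap, ← Matrix.mul_assoc,
      hc] at h2
    have h3 := hcancel _ _ h2
    rw [← hσ, ← h3]
  · have h1 := hpow k
    rw [hHk, Matrix.transpose_smul, Matrix.transpose_one, hmapsmul,
      Matrix.map_one _ (map_zero σ) (map_one σ), Matrix.smul_mul, Matrix.one_mul, Matrix.mul_smul,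
      Matrix.mul_one, smul_smul, hσ, ← pow_succ] at h1
    exact (hcancel _ _ h1).symm

/-- in a finite field with `q₀ ^ 2` elements, if `c ^ q₀ = c`, `c ≠ 0`, `c ^ r = z ^ (q₀ + 1)` and
`r ∣ q₀ - 1` then `z` is an `r`-th power -/
theorem ufr_rth_power_of_norm (q₀ : ℕ) (hq : Fintype.card F = q₀ ^ 2) (r : ℕ) [Fact r.Prime]
    (hr : r ∣ q₀ - 1) (z c : F) (hz0 : z ≠ 0) (hc0 : c ≠ 0) (hcq : c ^ q₀ = c)
    (hcz : c ^ r = z ^ (q₀ + 1)) : ∃ b : F, b ^ r = z := by
  classical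
  have hrp : r.Prime := Fact.out
  have hq2 : 2 ≤ q₀ := by
    have h1 := Fintype.one_lt_card (α := F)
    rw [hq] at h1
    by_contra hlt
    have h2 : q₀ ≤ 1 := by omega
    have h3 : q₀ ^ 2 ≤ 1 ^ 2 := Nat.pow_le_pow_left h2 2
    omega
  obtain ⟨m, hm⟩ := hr
  have hm0 : 0 < m := by
    rcases Nat.eq_zero_or_pos m with h0 | h0
    · rw [h0, mul_zero] at hm
      omega
    · exact h0
  have hq0 : q₀ = r * m + 1 := by omega
  have hc1 : c ^ (q₀ - 1) = 1 := by
    have h1 : c ^ (q₀ - 1) * c = c := by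
      rw [← pow_succ]
      have : q₀ - 1 + 1 = q₀ := by omega
      rw [this, hcq]
    have h2 : c ^ (q₀ - 1) * c = 1 * c := by rw [h1, one_mul]
    exact mul_right_cancel₀ hc0 h2
  have hzM : z ^ ((q₀ + 1) * m) = 1 := by
    rw [pow_mul, ← hcz, ← pow_mul, ← hm, hc1]
  obtain ⟨g, hg⟩ := IsCyclic.exists_generator (α := Fˣ)
  have hord : orderOf g = Fintype.card F - 1 := by
    rw [orderOf_eq_card_of_forall_mem_zpowers hg, Nat.card_units, Nat.card_eq_fintype_card]
  have hN : Fintype.card F - 1 = r * ((q₀ + 1) * m) := by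
    rw [hq, hq0]
    have h1 : (r * m + 1) ^ 2 = r * ((r * m + 1 + 1) * m) + 1 := by ring
    rw [h1]
    omega
  obtain ⟨j, hj⟩ : ∃ j : ℕ, g ^ j = Units.mk0 z hz0 := by
    have h1 := hg (Units.mk0 z hz0)
    rw [← mem_powers_iff_mem_zpowers] at h1
    exact (Submonoid.mem_powers_iff _ _).1 h1
  have hgj : g ^ (j * ((q₀ + 1) * m)) = 1 := by
    rw [pow_mul, hj]
    apply Units.ext
    rw [Units.val_pow_eq_pow_val, Units.val_mk0, hzM, Units.val_one]
  have hdvd : r * ((q₀ + 1) * m) ∣ j * ((q₀ + 1) * m) := by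
    rw [← hN, ← hord]
    exact orderOf_dvd_of_pow_eq_one hgj
  have hMpos : 0 < (q₀ + 1) * m := Nat.mul_pos (by omega) hm0
  obtain ⟨t, ht⟩ : r ∣ j := Nat.dvd_of_mul_dvd_mul_right hMpos hdvd
  refine ⟨((g ^ t : Fˣ) : F), ?_⟩
  rw [← Units.val_pow_eq_pow_val, ← pow_mul, mul_comm, ← ht, hj, Units.val_mk0]

/-! ## PIECE BADBU -/
theorem bad_irr_u (q₀ : ℕ) (hq : Fintype.card F = q₀ ^ 2) (r : ℕ) [Fact r.Prime]
    (hr2 : r ≠ 2) (hr : r ∣ q₀ - 1) (n : ℕ) (hn : 2 ≤ n)
    (hv : padicValNat r (Fintype.card F - 1) < padicValNat r n)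
    (f : (Fin n → F) → (Fin n → F) → F) (hf : Cfsg.Geo.IsUnitaryFormPow q₀ f) : IsBadU f r := by
  classical
  have hrp : r.Prime := Fact.out
  have hrq : r ∣ Fintype.card F - 1 := by
    obtain ⟨m, hm⟩ := hr
    rw [hq]
    have h1 : q₀ ^ 2 - 1 = (q₀ - 1) * (q₀ + 1) := by
      rcases Nat.eq_zero_or_pos q₀ with h0 | h0
      · rw [h0]
        norm_num
      · obtain ⟨a, rfl⟩ : ∃ a, q₀ = a + 1 := ⟨q₀ - 1, by omega⟩
        have h2 : (a + 1) ^ 2 = (a + 1 - 1) * (a + 1 + 1) + 1 := by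
          rw [Nat.add_sub_cancel]
          ring
        rw [h2, Nat.add_sub_cancel]
    rw [h1, hm, mul_assoc]
    exact dvd_mul_right _ _
  obtain ⟨z, hz0, hzpow, hzs⟩ := Cfsg.Agent.Helper60.sfr_exists_nonpower (F := F) r hrq
  have hrn : r ∣ n := dvd_of_one_le_padicValNat (by omega)
  obtain ⟨s, rfl⟩ := hrn
  obtain ⟨x, hx⟩ := Cfsg.Agent.Helper60.sfr_exists_root_matrix r hrp.pos z s
  obtain ⟨s', hs', hdet⟩ := Cfsg.Agent.Helper60.det_of_irr r hr2 (r * s) x z hzpow hx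
  have hss : s' = s := Nat.eq_of_mul_eq_mul_left hrp.pos hs'.symm
  subst hss
  have hs0 : s' ≠ 0 := by
    rintro rfl
    rw [mul_zero] at hn
    omega
  have hes : r ^ padicValNat r (Fintype.card F - 1) ∣ s' := by
    have h1 : padicValNat r (r * s') = padicValNat r s' + 1 := by
      rw [padicValNat.mul hrp.ne_zero hs0, padicValNat_self, add_comm]
    rw [padicValNat_dvd_iff_le hs0]
    omega
  have hdet1 : x.det = 1 := by
    rw [hdet]
    exact hzs s' hes
  obtain ⟨X, hXv⟩ : ∃ X : GL (Fin (r * s')) F,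
      (X : Matrix (Fin (r * s')) (Fin (r * s')) F) = x :=
    ⟨Matrix.GeneralLinearGroup.mkOfDetNeZero x (by rw [hdet1]; exact one_ne_zero), rfl⟩
  have hXr : ((X ^ r : GL (Fin (r * s')) F) :
      Matrix (Fin (r * s')) (Fin (r * s')) F) = z • (1 : Matrix (Fin (r * s')) (Fin (r * s')) F) := by
    rw [Units.val_pow_eq_pow_val, hXv]
    exact hx
  have hi0 : 0 < r * s' := by omega
  refine ⟨X, ?_, ⟨z, hXr⟩, ?_, ?_⟩
  · rw [Cfsg.Geo.specialLinear, MonoidHom.mem_ker]
    apply Units.ext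
    rw [Matrix.GeneralLinearGroup.val_det_apply, hXv, hdet1, Units.val_one]
  · intro w hw
    rw [hXv] at hw
    have h1 : x ^ r = (w ^ r) • (1 : Matrix (Fin (r * s')) (Fin (r * s')) F) := by
      rw [hw, _root_.smul_pow, one_pow]
    rw [hx] at h1
    have h2 := congrFun (congrFun h1 ⟨0, hi0⟩) ⟨0, hi0⟩
    simp only [Matrix.smul_apply, Matrix.one_apply_eq, smul_eq_mul, mul_one] at h2
    exact hzpow w h2.symm
  · intro hconj
    obtain ⟨c, hc0, hcq, hcz⟩ := ufr_sim_pow_aux q₀ hq (r * s') hi0 f hf X r z hXr hconj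
    obtain ⟨b, hb⟩ := ufr_rth_power_of_norm q₀ hq r hr z c hz0 hc0 hcq hcz
    exact hzpow b hb

end fin

end Cfsg.Agent.Helper46
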